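import Mathlib
import Cfsg.Agent.H84.DihDefs

set_option autoImplicit false
set_option linter.unusedSectionVars false

/-!
# S4482-BASIC: elements of the dihedral Sylow 2-subgroup, `P ≤ C(J)`, all involutions conjugate
-/

namespace Cfsg.Agent.H24.Dih

open Cfsg.Agent.H84.Dih
open scoped Pointwise

universe u

variable {G : Type u} [Group G] [Finite G] {n : ℕ} {P : Sylow 2 G} {σ τ : G} {X : Subgroup G}

omit [Finite G] in
theorem tau_sq (h : Hyp n P σ τ) : τ * τ = 1 := by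
  have := pow_orderOf_eq_one τ
  rw [h.hτo, pow_two] at this
  exact this

omit [Finite G] in
theorem tau_inv (h : Hyp n P σ τ) : τ⁻¹ = τ :=
  inv_eq_of_mul_eq_one_left (tau_sq h)

omit [Finite G] in
/-- `τ σ^l = σ^(-l) τ`. -/
theorem tau_mul_zpow (h : Hyp n P σ τ) (l : ℤ) : τ * σ ^ l = σ ^ (-l) * τ := by
  have h1 : τ * σ ^ l * τ⁻¹ = σ ^ (-l) := by
    rw [← conj_zpow, h.hrel, inv_zpow, zpow_neg]
  rw [← h1, inv_mul_cancel_right]

omit [Finite G] in
/-- `τ (σ^k)⁻¹ = σ^k τ`. -/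
theorem tau_mul_pow_inv (h : Hyp n P σ τ) (k : ℕ) : τ * (σ ^ k)⁻¹ = σ ^ k * τ := by
  have := tau_mul_zpow h (-(k : ℤ))
  rw [neg_neg, zpow_neg, zpow_natCast] at this
  exact this

omit [Finite G] in
theorem two_pow_eq (h : Hyp n P σ τ) : 2 ^ (n - 2) * 2 = 2 ^ (n - 1) := by
  have := h.hn
  rw [← pow_succ]
  congr 1
  omega

omit [Finite G] in
/-- `J * J = 1`. -/
theorem J_sq (h : Hyp n P σ τ) : σ ^ (2 ^ (n - 2)) * σ ^ (2 ^ (n - 2)) = 1 := by
  rw [← pow_add, ← mul_two, two_pow_eq h, ← h.hσo, pow_orderOf_eq_one]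

omit [Finite G] in
theorem J_ne_one (h : Hyp n P σ τ) : σ ^ (2 ^ (n - 2)) ≠ 1 := by
  apply pow_ne_one_of_lt_orderOf (by positivity)
  rw [h.hσo, ← two_pow_eq h]
  have : 0 < 2 ^ (n - 2) := by positivity
  omega

omit [Finite G] in
theorem P_elts_aux (h : Hyp n P σ τ) (p : G) (hp : p ∈ (P : Subgroup G)) :
    ∃ k : ℤ, p = σ ^ k ∨ p = σ ^ k * τ := by
  rw [← h.hgen] at hp
  induction hp using Subgroup.closure_induction with
  | mem x hx =>
    rcases hx with rfl | hx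
    · exact ⟨1, Or.inl (zpow_one _).symm⟩
    · rw [Set.mem_singleton_iff] at hx
      subst hx
      exact ⟨0, Or.inr (by rw [zpow_zero, one_mul])⟩
  | one => exact ⟨0, Or.inl (zpow_zero _).symm⟩
  | mul x y _ _ hx hy =>
    obtain ⟨k, rfl | rfl⟩ := hx <;> obtain ⟨l, rfl | rfl⟩ := hy
    · exact ⟨k + l, Or.inl (zpow_add _ _ _).symm⟩
    · exact ⟨k + l, Or.inr (by rw [zpow_add, mul_assoc])⟩
    · refine ⟨k + -l, Or.inr ?_⟩
      rw [mul_assoc, tau_mul_zpow h, ← mul_assoc, ← zpow_add]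
    · refine ⟨k + -l, Or.inl ?_⟩
      rw [mul_assoc, ← mul_assoc τ, tau_mul_zpow h, mul_assoc, tau_sq h, mul_one, ← zpow_add]
  | inv x _ hx =>
    obtain ⟨k, rfl | rfl⟩ := hx
    · exact ⟨-k, Or.inl (zpow_neg _ _).symm⟩
    · refine ⟨k, Or.inr ?_⟩
      rw [mul_inv_rev, tau_inv h, ← zpow_neg, tau_mul_zpow h, neg_neg]

theorem P_elts (h : Hyp n P σ τ) (p : G) (hp : p ∈ (P : Subgroup G)) :
    ∃ i : ℕ, i < 2 ^ (n - 1) ∧ (p = σ ^ i ∨ p = σ ^ i * τ) := by
  obtain ⟨k, hk⟩ := P_elts_aux h p hp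
  have hm : (0 : ℤ) < ((2 ^ (n - 1) : ℕ) : ℤ) := by positivity
  have h0 : 0 ≤ k % ((2 ^ (n - 1) : ℕ) : ℤ) := Int.emod_nonneg _ hm.ne'
  have h1 : k % ((2 ^ (n - 1) : ℕ) : ℤ) < ((2 ^ (n - 1) : ℕ) : ℤ) := Int.emod_lt_of_pos _ hm
  have hpow : σ ^ k = σ ^ (k % ((2 ^ (n - 1) : ℕ) : ℤ)).toNat := by
    rw [← zpow_natCast, Int.toNat_of_nonneg h0, ← h.hσo, zpow_mod_orderOf]
  refine ⟨(k % ((2 ^ (n - 1) : ℕ) : ℤ)).toNat, by omega, ?_⟩
  rw [← hpow]
  exact hk

theorem P_le (h : Hyp n P σ τ) :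
    (P : Subgroup G) ≤ Subgroup.centralizer ({σ ^ (2 ^ (n - 2))} : Set G) := by
  rw [← h.hgen, Subgroup.closure_le]
  intro x hx
  rw [SetLike.mem_coe, Subgroup.mem_centralizer_iff]
  intro y hy
  rw [Set.mem_singleton_iff] at hy
  subst hy
  rcases hx with rfl | hx
  · exact pow_mul_comm' x _
  · rw [Set.mem_singleton_iff] at hx
    subst hx
    have h1 : x * σ ^ (2 ^ (n - 2)) * x⁻¹ = σ ^ (2 ^ (n - 2)) := by
      rw [← conj_pow, h.hrel, inv_pow]
      exact inv_eq_of_mul_eq_one_left (J_sq h)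
    exact (mul_inv_eq_iff_eq_mul.mp h1).symm

theorem all_conj (h : Hyp n P σ τ)
    (hconj : IsConj (σ ^ (2 ^ (n - 2))) τ ∧ IsConj (σ ^ (2 ^ (n - 2))) (σ * τ)) (v : G) :
    orderOf v = 2 ↔ IsConj (σ ^ (2 ^ (n - 2))) v := by
  have : Fact (Nat.Prime 2) := ⟨Nat.prime_two⟩
  constructor
  · intro hv
    -- conjugate `v` into `P`
    have hv2 : IsPGroup 2 (Subgroup.zpowers v) := by
      apply IsPGroup.of_card (n := 1)
      rw [Nat.card_zpowers, hv, pow_one]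
    obtain ⟨Q, hQ⟩ := hv2.exists_le_sylow
    obtain ⟨g, hg⟩ := MulAction.exists_smul_eq G Q P
    have hw : g * v * g⁻¹ ∈ (P : Subgroup G) := by
      rw [← hg, Sylow.coe_subgroup_smul]
      exact Subgroup.smul_mem_pointwise_smul v (MulAut.conj g) _ (hQ (Subgroup.mem_zpowers v))
    have hvw : IsConj v (g * v * g⁻¹) := isConj_iff.mpr ⟨g, rfl⟩
    have hv1 : v ≠ 1 := by
      rintro rfl
      rw [orderOf_one] at hv
      omega
    have hvsq : v * v = 1 := by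
      have := pow_orderOf_eq_one v
      rw [hv, pow_two] at this
      exact this
    have hw1 : g * v * g⁻¹ ≠ 1 := by
      intro h1
      apply hv1
      have : v = g⁻¹ * (g * v * g⁻¹) * g := by group
      rw [this, h1]
      group
    have hwsq : (g * v * g⁻¹) * (g * v * g⁻¹) = 1 := by
      have : (g * v * g⁻¹) * (g * v * g⁻¹) = g * (v * v) * g⁻¹ := by group
      rw [this, hvsq]
      group
    suffices hJw : IsConj (σ ^ (2 ^ (n - 2))) (g * v * g⁻¹) from hJw.trans hvw.symm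
    obtain ⟨i, hi, hwi | hwi⟩ := P_elts h _ hw
    · -- `w = σ ^ i` is the central involution
      rw [hwi] at hwsq hw1 ⊢
      have hdvd : 2 ^ (n - 1) ∣ i + i := by
        rw [← h.hσo]
        apply orderOf_dvd_of_pow_eq_one
        rw [pow_add]
        exact hwsq
      rw [← two_pow_eq h, ← mul_two] at hdvd
      have hdvd' : 2 ^ (n - 2) ∣ i := Nat.dvd_of_mul_dvd_mul_right (by norm_num) hdvd
      obtain ⟨k, rfl⟩ := hdvd'
      rw [← two_pow_eq h] at hi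
      have hk : k < 2 := lt_of_mul_lt_mul_left hi (Nat.zero_le _)
      have hk1 : k = 1 := by
        rcases Nat.lt_succ_iff.mp hk with hk0
        rcases Nat.eq_zero_or_pos k with h0 | h0
        · exfalso
          apply hw1
          rw [h0, mul_zero, pow_zero]
        · omega
      rw [hk1, mul_one]
    · -- `w = σ ^ i * τ` is conjugate to `τ` or to `σ * τ`
      rw [hwi]
      rcases Nat.even_or_odd' i with ⟨k, rfl | rfl⟩
      · refine hconj.1.trans (isConj_iff.mpr ⟨σ ^ k, ?_⟩)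
        rw [mul_assoc, tau_mul_pow_inv h, ← mul_assoc, ← pow_add, two_mul]
      · refine hconj.2.trans (isConj_iff.mpr ⟨σ ^ k, ?_⟩)
        rw [mul_assoc, mul_assoc, tau_mul_pow_inv h, ← mul_assoc, ← mul_assoc, ← pow_succ,
          ← pow_add]
        congr 2
        omega
  · intro hc
    obtain ⟨c, hc⟩ := isConj_iff.mp hc
    apply orderOf_eq_prime
    · rw [← hc, pow_two]
      have : c * σ ^ (2 ^ (n - 2)) * c⁻¹ * (c * σ ^ (2 ^ (n - 2)) * c⁻¹)
          = c * (σ ^ (2 ^ (n - 2)) * σ ^ (2 ^ (n - 2))) * c⁻¹ := by group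
      rw [this, J_sq h]
      group
    · intro h1
      apply J_ne_one h
      have : σ ^ (2 ^ (n - 2)) = c⁻¹ * (c * σ ^ (2 ^ (n - 2)) * c⁻¹) * c := by group
      rw [this, hc, h1]
      group

end Cfsg.Agent.H24.Dih
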