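import Cfsg.Agent.H28.JkDefs
import Cfsg.Agent.H61.JkBasic

set_option autoImplicit false

/-!
JK-Z (helper24, for helper28: JZ-KILL route 28 of S2951/S2952): an involution of
`V = Ω₁Z(O₂(L))` inside `O₂(L')`.  A wrapper of helper61's `kZ` (route 59's K-Z), which does not
need `|Ω₁Z(S)| = 2`.
-/

namespace Cfsg.Agent.H24.Jk

open Cfsg
open Cfsg.Agent.H64.Jz Cfsg.Agent.H28.Jk

universe u

theorem kz : Cfsg.Agent.H28.Jk.StKZ.{u} := by
  intro G _ _ S M K L T' K' L' hR _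
  obtain ⟨z, hzV, hz1, hzQ⟩ := Cfsg.Agent.H61.Jk.kZ S M K L T' K' L' hR
  exact ⟨z, hz1, hzV, hzQ⟩

example : ∀ {G : Type u} [Group G] [Finite G] (S : Sylow 2 G)
    (M K L T' K' L' : Subgroup G), RCtx S M K L T' K' L' →
  Nat.card ↥(omegaCenterOf (S : Subgroup G)) = 2 →
  ∃ z : G, z ≠ 1 ∧ z ∈ VV L ∧ z ∈ pCoreOf 2 L' := kz

end Cfsg.Agent.H24.Jk
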