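import Mathlib
import Cfsg.Agent.H42.SpdDefs

set_option autoImplicit false

/-!
# SPD-MODC (S5961 team project of helper42): the non-fixed part of an invariant nondegenerate
subspace has dimension divisible by `c`
-/

namespace Cfsg.Agent.H24.Spd

open Cfsg.Agent.H45 Cfsg.Agent.H42.Spd Module

universe u v

theorem cc_pos_of_cast_ne {F : Type u} [Field F] [Fintype F] (r : ℕ) (hr : r.Prime)
    (hrF : (r : F) ≠ 0) : 0 < cc F r := by
  have : Fact r.Prime := ⟨hr⟩
  have hq : (Fintype.card F : ZMod r) ≠ 0 := by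
    intro h
    rw [ZMod.natCast_eq_zero_iff] at h
    obtain ⟨n, hp, hcard⟩ := FiniteField.card F (ringChar F)
    rw [hcard] at h
    have h1 : r ∣ ringChar F := hr.dvd_of_dvd_pow h
    have h2 : r = ringChar F := (Nat.prime_dvd_prime_iff_eq hr hp).mp h1
    apply hrF
    rw [h2]
    exact CharP.cast_eq_zero F (ringChar F)
  have ho : 0 < orderOf (Fintype.card F : ZMod r) := by
    rw [orderOf_pos_iff, isOfFinOrder_iff_pow_eq_one]
    exact ⟨r - 1, Nat.sub_pos_of_lt hr.one_lt, ZMod.pow_card_sub_one_eq_one hq⟩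
  unfold cc
  split_ifs <;> omega

section

variable {F : Type u} [Field F] {V : Type v} [AddCommGroup V] [Module F V]

theorem kk_fix (T : Module.End F V) (W : Submodule F V) :
    kk T (W ⊓ LinearMap.ker (T - 1)) = kk T W := by
  unfold kk
  rw [inf_assoc, inf_idem]

theorem kk_eq_zero_of_inf (T : Module.End F V) (W : Submodule F V)
    (h : W ⊓ LinearMap.ker (T - 1) = ⊥) : kk T W = 0 := by
  unfold kk
  rw [h]
  exact finrank_bot F V

theorem inf_ker_of_kk_eq_zero [FiniteDimensional F V] (T : Module.End F V) (W : Submodule F V)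
    (h : kk T W = 0) : W ⊓ LinearMap.ker (T - 1) = ⊥ :=
  Submodule.finrank_eq_zero.mp h

end

/-- The fixed-point-free case. -/
theorem modc_free (hB : StBlockRel.{u,v}) (hC : StCompl.{u,v})
    (F : Type u) [Field F] [Fintype F] (V : Type v) [AddCommGroup V] [Module F V]
    [FiniteDimensional F V] (r : ℕ) (B : V →ₗ[F] V →ₗ[F] F) (T : Module.End F V)
    (hctx : Ctx r B T) : ∀ (n : ℕ) (W : Submodule F V), Module.finrank F W = n → Nd B T W →
      W ⊓ LinearMap.ker (T - 1) = ⊥ → ∃ s : ℕ, Module.finrank F W = cc F r * s := by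
  intro n
  induction n using Nat.strong_induction_on with
  | _ n ih =>
    intro W hn hW hker
    by_cases hW0 : W = ⊥
    · refine ⟨0, ?_⟩
      rw [hW0, finrank_bot, mul_zero]
    · obtain ⟨U, hUW, hU, hUc⟩ := hB F V r B T hctx W hW hker hW0
      obtain ⟨hW', -, hfr, -⟩ := hC F V B T hctx.good U W hU hW hUW
      have hpos := cc_pos_of_cast_ne (F := F) r hctx.prime hctx.cast_ne
      have hlt : Module.finrank F ↥(W ⊓ perp B U) < n := by omega
      have hker' : (W ⊓ perp B U) ⊓ LinearMap.ker (T - 1) = ⊥ := by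
        apply le_bot_iff.mp
        rw [← hker]
        exact inf_le_inf_right _ inf_le_left
      obtain ⟨s, hs⟩ := ih _ hlt (W ⊓ perp B U) rfl hW' hker'
      refine ⟨s + 1, ?_⟩
      rw [← hfr, hUc, hs]
      ring

theorem modc (hB : StBlockRel.{u,v}) (hF : StFix.{u,v}) (hC : StCompl.{u,v}) : StModc.{u,v} := by
  intro F _ _ V _ _ _ r B T hctx W hW
  have hW0 := hF F V r B T hctx W hW
  obtain ⟨hW', -, hfr, hkk⟩ :=
    hC F V B T hctx.good (W ⊓ LinearMap.ker (T - 1)) W hW0 hW inf_le_left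
  rw [kk_fix] at hkk
  have hk0 : kk T (W ⊓ perp B (W ⊓ LinearMap.ker (T - 1))) = 0 := by omega
  obtain ⟨s, hs⟩ := modc_free hB hC F V r B T hctx _ _ rfl hW'
    (inf_ker_of_kk_eq_zero T _ hk0)
  refine ⟨s, ?_⟩
  rw [← hfr, hs]
  rfl

example (hB : StBlockRel.{u,v}) (hF : StFix.{u,v}) (hC : StCompl.{u,v}) :
    Cfsg.Agent.H42.Spd.StModc.{u,v} := modc hB hF hC

end Cfsg.Agent.H24.Spd
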