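import Cfsg.Agent.H88.AltFDefs

/-!
# S5165-SC2 (helper88's team project): a Sylow `2`-subgroup of `A_n` has no proper nontrivial
subgroup closed under fusion.
-/

set_option autoImplicit false

namespace Cfsg.Agent.H24.AltF

open Equiv Equiv.Perm

section perm

variable {α : Type*} [Fintype α] [DecidableEq α]

/-- An even involution `≠ 1` contains two disjoint transpositions. -/
theorem exists_four_of_even_invol (x : Perm α) (hx2 : x ^ 2 = 1) (hx1 : x ≠ 1)
    (hxs : sign x = 1) :
    ∃ a b c d : α, a ≠ b ∧ c ≠ d ∧ a ≠ c ∧ a ≠ d ∧ b ≠ c ∧ b ≠ d ∧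
      x a = b ∧ x b = a ∧ x c = d ∧ x d = c := by
  have hxx : ∀ p, x (x p) = p := fun p => by
    have := congrArg (fun σ : Perm α => σ p) hx2
    simpa [pow_two] using this
  obtain ⟨a, ha⟩ : ∃ a, x a ≠ a := by
    by_contra h
    push Not at h
    exact hx1 (Equiv.ext h)
  have hab : a ≠ x a := fun h => ha h.symm
  obtain ⟨c, hca, hcb, hc⟩ : ∃ c, c ≠ a ∧ c ≠ x a ∧ x c ≠ c := by
    by_contra h
    push Not at h
    have : x = swap a (x a) := by
      apply Equiv.ext
      intro p
      by_cases hpa : p = a
      · subst hpa; simp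
      by_cases hpb : p = x a
      · rw [hpb, hxx]; simp
      · rw [h p hpa hpb, swap_apply_of_ne_of_ne hpa hpb]
    rw [this, sign_swap hab] at hxs
    exact absurd hxs (by decide)
  refine ⟨a, x a, c, x c, hab, fun h => hc h.symm, fun h => hca h.symm, ?_, fun h => hcb h.symm,
    ?_, rfl, hxx a, rfl, hxx c⟩
  · intro h
    apply hcb
    have := hxx c
    rw [← h] at this
    exact this.symm
  · intro h
    exact hca (x.injective h).symm

omit [Fintype α] in
theorem swap_mul_swap_comm_of_ne {a b c d : α} (hac : a ≠ c) (had : a ≠ d) (hbc : b ≠ c)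
    (hbd : b ≠ d) : swap a b * swap c d = swap c d * swap a b := by
  have h := mul_swap_eq_swap_mul (swap c d) a b
  rw [swap_apply_of_ne_of_ne hac had, swap_apply_of_ne_of_ne hbc hbd] at h
  exact h.symm

omit [Fintype α] in
theorem dbl_sq {a b c d : α} (hac : a ≠ c) (had : a ≠ d) (hbc : b ≠ c) (hbd : b ≠ d) :
    (swap a b * swap c d) * (swap a b * swap c d) = 1 := by
  calc (swap a b * swap c d) * (swap a b * swap c d)
      = swap a b * (swap c d * swap a b) * swap c d := by group
    _ = swap a b * (swap a b * swap c d) * swap c d := by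
        rw [swap_mul_swap_comm_of_ne hac had hbc hbd]
    _ = (swap a b * swap a b) * (swap c d * swap c d) := by group
    _ = 1 := by rw [swap_mul_self, swap_mul_self, one_mul]

theorem sign_dbl {a b c d : α} (hab : a ≠ b) (hcd : c ≠ d) :
    sign (swap a b * swap c d) = 1 := by
  rw [map_mul, sign_swap hab, sign_swap hcd]; decide

/-- The abstract core of SC2: a set of permutations closed under even conjugation and under
products of commuting involutions, containing an even involution `≠ 1`, contains all even
involutions. -/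
theorem all_even_invol_mem (𝒮 : Set (Perm α))
    (hconj : ∀ σ ∈ 𝒮, ∀ w : Perm α, sign w = 1 → w * σ * w⁻¹ ∈ 𝒮)
    (hkey : ∀ σ ∈ 𝒮, ∀ τ ∈ 𝒮, σ * τ = τ * σ → σ ^ 2 = 1 → τ ^ 2 = 1 → σ * τ ∈ 𝒮)
    (z : Perm α) (hz : z ∈ 𝒮) (hz1 : z ≠ 1) (hz2 : z ^ 2 = 1) (hzs : sign z = 1) :
    ∀ x : Perm α, x ^ 2 = 1 → sign x = 1 → x ∈ 𝒮 := by
  -- the identity
  have hone : (1 : Perm α) ∈ 𝒮 := by
    have := hkey z hz z hz rfl hz2 hz2
    rwa [← pow_two, hz2] at this
  -- one double transposition
  obtain ⟨a, b, c, d, hab, hcd, hac, had, hbc, hbd, hza, hzb, hzc, hzd⟩ :=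
    exists_four_of_even_invol z hz2 hz1 hzs
  have hzinv : z⁻¹ = z := by
    apply inv_eq_of_mul_eq_one_right
    rw [← pow_two]; exact hz2
  have hy : swap a d * swap b c ∈ 𝒮 := by
    have hws : sign (swap b c * swap a b) = 1 := sign_dbl hbc hab
    have hz' := hconj z hz (swap b c * swap a b) hws
    have e1 : z * ((swap b c * swap a b) * z * (swap b c * swap a b)⁻¹) = swap a d * swap b c := by
      have e2 : z * (swap b c * swap a b) * z⁻¹ = swap a d * swap b a := by
        calc z * (swap b c * swap a b) * z⁻¹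
            = (z * swap b c * z⁻¹) * (z * swap a b * z⁻¹) := by group
          _ = swap (z b) (z c) * swap (z a) (z b) := by
              rw [← swap_apply_apply, ← swap_apply_apply]
          _ = swap a d * swap b a := by rw [hza, hzb, hzc]
      calc z * ((swap b c * swap a b) * z * (swap b c * swap a b)⁻¹)
          = (z * (swap b c * swap a b) * z) * (swap b c * swap a b)⁻¹ := by group
        _ = (z * (swap b c * swap a b) * z⁻¹) * (swap b c * swap a b)⁻¹ := by rw [hzinv]
        _ = (swap a d * swap b a) * ((swap a b)⁻¹ * (swap b c)⁻¹) := by rw [e2, mul_inv_rev]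
        _ = swap a d * (swap a b * swap a b) * swap b c := by
            rw [swap_inv, swap_inv, swap_comm b a]; group
        _ = swap a d * swap b c := by rw [swap_mul_self, mul_one]
    have hz'2 : ((swap b c * swap a b) * z * (swap b c * swap a b)⁻¹) ^ 2 = 1 := by
      rw [pow_two]
      calc (swap b c * swap a b) * z * (swap b c * swap a b)⁻¹ *
            ((swap b c * swap a b) * z * (swap b c * swap a b)⁻¹)
          = (swap b c * swap a b) * (z * z) * (swap b c * swap a b)⁻¹ := by group
        _ = 1 := by rw [← pow_two, hz2]; group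
    have hcomm : z * ((swap b c * swap a b) * z * (swap b c * swap a b)⁻¹) =
        ((swap b c * swap a b) * z * (swap b c * swap a b)⁻¹) * z := by
      obtain ⟨z', hz'def⟩ : ∃ z', z' = (swap b c * swap a b) * z * (swap b c * swap a b)⁻¹ :=
        ⟨_, rfl⟩
      rw [← hz'def] at e1 hz'2 ⊢
      have h1 : (z * z') * (z * z') = 1 := by
        rw [e1]
        exact dbl_sq (fun h => hab h) (fun h => hac h) (fun h => hbd h.symm) (fun h => hcd h.symm)
      have h2 : z' * z' = 1 := by rw [← pow_two]; exact hz'2
      have h3 : z * z = 1 := by rw [← pow_two]; exact hz2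
      calc z * z' = z * z' * (z' * z' ) * (z * z) := by rw [h2, h3, mul_one, mul_one]
        _ = (z * z') * z' * ((z' * z) * z) := by group
        _ = (z * z') * z' * ((z * z')⁻¹ * z) := by
            have : z' * z = (z * z')⁻¹ := by
              rw [mul_inv_rev]
              have hz'inv : z'⁻¹ = z' := inv_eq_of_mul_eq_one_right h2
              rw [hz'inv, hzinv]
            rw [this]
        _ = (z * z') * z' * ((z * z') * z) := by
            have : (z * z')⁻¹ = z * z' := inv_eq_of_mul_eq_one_right h1
            rw [this]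
        _ = (z * (z' * z') * z) * z' * z := by group
        _ = z' * z := by rw [h2, mul_one, h3, one_mul]
    have := hkey z hz _ hz' hcomm hz2 hz'2
    rwa [e1] at this
  -- all double transpositions
  have hdbl : ∀ a' b' c' d' : α, [a', b', c', d'].Nodup → swap a' b' * swap c' d' ∈ 𝒮 := by
    intro a' b' c' d' hnd
    have hnd0 : [a, d, b, c].Nodup := by
      simp [had, hab, hac, Ne.symm hbd, Ne.symm hcd, hbc]
    have hct : (swap a d * swap b c).cycleType = (swap a' b' * swap c' d').cycleType := by
      rw [cycleType_swap_mul_swap_of_nodup hnd0, cycleType_swap_mul_swap_of_nodup hnd]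
    obtain ⟨w, hw⟩ := isConj_iff.mp (isConj_iff_cycleType_eq.mpr hct)
    rcases Int.units_eq_one_or (sign w) with hs | hs
    · rw [← hw]; exact hconj _ hy w hs
    · have hs' : sign (w * swap a d) = 1 := by
        rw [map_mul, hs, sign_swap had]; decide
      have := hconj _ hy (w * swap a d) hs'
      have e : (w * swap a d) * (swap a d * swap b c) * (w * swap a d)⁻¹ =
          w * (swap a d * swap b c) * w⁻¹ := by
        have h1 : swap a d * (swap a d * swap b c) * (swap a d)⁻¹ = swap a d * swap b c := by
          rw [swap_inv]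
          calc swap a d * (swap a d * swap b c) * swap a d
              = (swap a d * swap a d) * (swap b c * swap a d) := by group
            _ = swap b c * swap a d := by rw [swap_mul_self, one_mul]
            _ = swap a d * swap b c :=
                (swap_mul_swap_comm_of_ne hab hac (fun h => hbd h.symm) (fun h => hcd h.symm)).symm
        calc (w * swap a d) * (swap a d * swap b c) * (w * swap a d)⁻¹
            = w * (swap a d * (swap a d * swap b c) * (swap a d)⁻¹) * w⁻¹ := by group
          _ = w * (swap a d * swap b c) * w⁻¹ := by rw [h1]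
      rw [e, hw] at this
      exact this
  -- induction on the support
  have main : ∀ n : ℕ, ∀ x : Perm α, x.support.card = n → x ^ 2 = 1 → sign x = 1 → x ∈ 𝒮 := by
    intro n
    induction n using Nat.strong_induction_on with
    | _ n ih =>
      intro x hn hx2 hxs
      by_cases hx1 : x = 1
      · rw [hx1]; exact hone
      obtain ⟨a, b, c, d, hab, hcd, hac, had, hbc, hbd, hxa, hxb, hxc, hxd⟩ :=
        exists_four_of_even_invol x hx2 hx1 hxs
      have hu : swap a b * swap c d ∈ 𝒮 := by
        apply hdbl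
        simp [hab, hac, had, hbc, hbd, hcd]
      have hu2 : (swap a b * swap c d) * (swap a b * swap c d) = 1 := dbl_sq hac had hbc hbd
      have hxs1 : x * swap a b = swap a b * x := by
        rw [mul_swap_eq_swap_mul, hxa, hxb, swap_comm]
      have hxs2 : x * swap c d = swap c d * x := by
        rw [mul_swap_eq_swap_mul, hxc, hxd, swap_comm]
      have hxu : x * (swap a b * swap c d) = (swap a b * swap c d) * x := by
        calc x * (swap a b * swap c d) = (x * swap a b) * swap c d := by group
          _ = swap a b * (x * swap c d) := by rw [hxs1]; group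
          _ = (swap a b * swap c d) * x := by rw [hxs2]; group
      have hxx : x * x = 1 := by rw [← pow_two]; exact hx2
      have hx'2 : ((swap a b * swap c d) * x) ^ 2 = 1 := by
        rw [pow_two]
        calc (swap a b * swap c d) * x * ((swap a b * swap c d) * x)
            = (swap a b * swap c d) * (x * (swap a b * swap c d)) * x := by group
          _ = (swap a b * swap c d) * ((swap a b * swap c d) * x) * x := by rw [hxu]
          _ = ((swap a b * swap c d) * (swap a b * swap c d)) * (x * x) := by group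
          _ = 1 := by rw [hu2, hxx, one_mul]
      have hx's : sign ((swap a b * swap c d) * x) = 1 := by
        rw [map_mul, sign_dbl hab hcd, hxs, one_mul]
      have hsupp : ((swap a b * swap c d) * x).support.card < n := by
        rw [← hn]
        apply Finset.card_lt_card
        rw [Finset.ssubset_iff_of_subset]
        · refine ⟨a, ?_, ?_⟩
          · rw [mem_support, hxa]; exact fun h => hab h.symm
          · rw [mem_support, not_not, mul_apply, mul_apply, hxa,
              swap_apply_of_ne_of_ne hbc hbd, swap_apply_right]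
        · intro p hp
          rw [mem_support] at hp ⊢
          intro hxp
          apply hp
          have hpa : p ≠ a := by
            rintro rfl; rw [hxa] at hxp; exact hab hxp.symm
          have hpb : p ≠ b := by
            rintro rfl; rw [hxb] at hxp; exact hab hxp
          have hpc : p ≠ c := by
            rintro rfl; rw [hxc] at hxp; exact hcd hxp.symm
          have hpd : p ≠ d := by
            rintro rfl; rw [hxd] at hxp; exact hcd hxp
          rw [mul_apply, mul_apply, hxp, swap_apply_of_ne_of_ne hpc hpd,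
            swap_apply_of_ne_of_ne hpa hpb]
      have hx' := ih _ hsupp _ rfl hx'2 hx's
      have hcomm : (swap a b * swap c d) * ((swap a b * swap c d) * x) =
          ((swap a b * swap c d) * x) * (swap a b * swap c d) := by
        calc (swap a b * swap c d) * ((swap a b * swap c d) * x)
            = (swap a b * swap c d) * (x * (swap a b * swap c d)) := by rw [hxu]
          _ = ((swap a b * swap c d) * x) * (swap a b * swap c d) := by group
      have := hkey _ hu _ hx' hcomm (by rw [pow_two]; exact hu2) hx'2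
      have e : (swap a b * swap c d) * ((swap a b * swap c d) * x) = x := by
        calc (swap a b * swap c d) * ((swap a b * swap c d) * x)
            = ((swap a b * swap c d) * (swap a b * swap c d)) * x := by group
          _ = x := by rw [hu2, one_mul]
      rwa [e] at this
  intro x hx2 hxs
  exact main _ x rfl hx2 hxs

end perm


/-- In a group, two commuting involutions generate a `2`-group. -/
theorem isPGroup_closure_pair {G : Type*} [Group G] (x y : G) (hxy : x * y = y * x)
    (hx : x ^ 2 = 1) (hy : y ^ 2 = 1) : IsPGroup 2 (Subgroup.closure ({x, y} : Set G)) := by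
  have hsub : ({x, y} : Set G) ⊆ Subgroup.centralizer ({x, y} : Set G) := by
    intro g hg
    rw [SetLike.mem_coe, Subgroup.mem_centralizer_iff]
    intro h hh
    rcases hg with rfl | rfl <;> rcases hh with rfl | rfl
    · rfl
    · exact hxy.symm
    · exact hxy
    · rfl
  have hle : Subgroup.closure ({x, y} : Set G) ≤ Subgroup.centralizer ({x, y} : Set G) :=
    (Subgroup.closure_le _).mpr hsub
  have hcc := Subgroup.closure_le_centralizer_centralizer ({x, y} : Set G)
  have hcomm : ∀ a ∈ Subgroup.closure ({x, y} : Set G), ∀ b ∈ Subgroup.closure ({x, y} : Set G),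
      a * b = b * a := by
    intro a ha b hb
    have h1 := hcc ha
    rw [Subgroup.mem_centralizer_iff] at h1
    exact (h1 b (hle hb)).symm
  have hsq : ∀ a ∈ Subgroup.closure ({x, y} : Set G), a ^ 2 = 1 := by
    intro a ha
    induction ha using Subgroup.closure_induction with
    | mem g hg =>
      rcases hg with rfl | rfl
      · exact hx
      · exact hy
    | one => simp
    | mul a b ha hb iha ihb =>
      have hc : Commute a b := hcomm a ha b hb
      rw [hc.mul_pow, iha, ihb, one_mul]
    | inv a _ iha => rw [inv_pow, iha, inv_one]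
  intro g
  refine ⟨1, ?_⟩
  apply Subtype.ext
  rw [pow_one, Subgroup.coe_pow, hsq _ g.2]
  rfl

theorem sc2 : Cfsg.Agent.H88.AltF.StmtSCTwo := by
  intro n _ P T hTP hT hclosed
  classical
  have : Fact (Nat.Prime 2) := ⟨Nat.prime_two⟩
  -- `𝒮`: the permutations underlying the elements of `A_n` conjugate into `T`
  let 𝒮 : Set (Perm (Fin n)) := {σ | ∃ (y d : alternatingGroup (Fin n)),
    (y : Perm (Fin n)) = σ ∧ d * y * d⁻¹ ∈ T}
  have hP𝒮 : ∀ y : alternatingGroup (Fin n), y ∈ (P : Subgroup (alternatingGroup (Fin n))) →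
      (y : Perm (Fin n)) ∈ 𝒮 → y ∈ T := by
    rintro y hyP ⟨y', d, hy', hd⟩
    have hyy : y' = y := Subtype.ext hy'
    subst hyy
    have h1 := hclosed _ hd d⁻¹ (by
      have e : d⁻¹ * (d * y' * d⁻¹) * d⁻¹⁻¹ = y' := by group
      rw [e]; exact hyP)
    have e : d⁻¹ * (d * y' * d⁻¹) * d⁻¹⁻¹ = y' := by group
    rwa [e] at h1
  have hconj : ∀ σ ∈ 𝒮, ∀ w : Perm (Fin n), sign w = 1 → w * σ * w⁻¹ ∈ 𝒮 := by
    rintro σ ⟨y, d, rfl, hd⟩ w hw
    have hwA : w ∈ alternatingGroup (Fin n) := mem_alternatingGroup.mpr hw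
    refine ⟨⟨w, hwA⟩ * y * ⟨w, hwA⟩⁻¹, d * ⟨w, hwA⟩⁻¹, rfl, ?_⟩
    have e : d * (⟨w, hwA⟩ : alternatingGroup (Fin n))⁻¹ * (⟨w, hwA⟩ * y * ⟨w, hwA⟩⁻¹) *
        (d * (⟨w, hwA⟩ : alternatingGroup (Fin n))⁻¹)⁻¹ = d * y * d⁻¹ := by group
    rw [e]; exact hd
  have hkey : ∀ σ ∈ 𝒮, ∀ τ ∈ 𝒮, σ * τ = τ * σ → σ ^ 2 = 1 → τ ^ 2 = 1 → σ * τ ∈ 𝒮 := by
    rintro σ ⟨y1, d1, rfl, hd1⟩ τ ⟨y2, d2, rfl, hd2⟩ hcomm h1 h2
    have hcomm' : y1 * y2 = y2 * y1 := Subtype.ext hcomm
    have h1' : y1 ^ 2 = 1 := Subtype.ext h1
    have h2' : y2 ^ 2 = 1 := Subtype.ext h2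
    obtain ⟨Q, hQ⟩ := (isPGroup_closure_pair y1 y2 hcomm' h1' h2').exists_le_sylow
    obtain ⟨g, hg⟩ := MulAction.exists_smul_eq (alternatingGroup (Fin n)) P Q
    have hmem : ∀ y : alternatingGroup (Fin n), y ∈ Subgroup.closure ({y1, y2} : Set _) →
        g⁻¹ * y * g ∈ (P : Subgroup (alternatingGroup (Fin n))) := by
      intro y hy
      have h3 : y ∈ (Q : Subgroup (alternatingGroup (Fin n))) := hQ hy
      rw [← hg, Sylow.coe_subgroup_smul] at h3
      rw [Subgroup.mem_pointwise_smul_iff_inv_smul_mem] at h3
      simpa [MulAut.smul_def, mul_assoc] using h3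
    have hy1P := hmem y1 (Subgroup.subset_closure (by simp))
    have hy2P := hmem y2 (Subgroup.subset_closure (by simp))
    have hy1T : g⁻¹ * y1 * g ∈ T := by
      apply hP𝒮 _ hy1P
      refine ⟨g⁻¹ * y1 * g, d1 * g, rfl, ?_⟩
      have e : d1 * g * (g⁻¹ * y1 * g) * (d1 * g)⁻¹ = d1 * y1 * d1⁻¹ := by group
      rw [e]; exact hd1
    have hy2T : g⁻¹ * y2 * g ∈ T := by
      apply hP𝒮 _ hy2P
      refine ⟨g⁻¹ * y2 * g, d2 * g, rfl, ?_⟩
      have e : d2 * g * (g⁻¹ * y2 * g) * (d2 * g)⁻¹ = d2 * y2 * d2⁻¹ := by group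
      rw [e]; exact hd2
    refine ⟨y1 * y2, g⁻¹, rfl, ?_⟩
    have e : g⁻¹ * (y1 * y2) * g⁻¹⁻¹ = (g⁻¹ * y1 * g) * (g⁻¹ * y2 * g) := by group
    rw [e]
    exact T.mul_mem hy1T hy2T
  -- an involution of `T`
  have hTp : IsPGroup 2 T := P.isPGroup'.to_le hTP
  have : Nontrivial T := (Subgroup.nontrivial_iff_ne_bot T).mpr hT
  obtain ⟨m, hm⟩ := hTp.exists_card_eq
  have hm0 : m ≠ 0 := by
    rintro rfl
    rw [pow_zero] at hm
    have := Finite.one_lt_card (α := T)
    omega
  have h2T : 2 ∣ Nat.card T := by rw [hm]; exact dvd_pow_self 2 hm0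
  obtain ⟨z, hz⟩ := exists_prime_orderOf_dvd_card' (G := T) 2 h2T
  have hz2 : z ^ 2 = 1 := by rw [← hz]; exact pow_orderOf_eq_one z
  have hz1 : z ≠ 1 := by
    intro h
    rw [h, orderOf_one] at hz
    omega
  have hζ𝒮 : (((z : T) : alternatingGroup (Fin n)) : Perm (Fin n)) ∈ 𝒮 := by
    refine ⟨(z : alternatingGroup (Fin n)), 1, rfl, ?_⟩
    simp
  have hζ1 : (((z : T) : alternatingGroup (Fin n)) : Perm (Fin n)) ≠ 1 := by
    intro h
    apply hz1
    apply Subtype.ext
    apply Subtype.ext
    exact h
  have hζ2 : (((z : T) : alternatingGroup (Fin n)) : Perm (Fin n)) ^ 2 = 1 := by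
    have := congrArg (fun t : T => ((t : alternatingGroup (Fin n)) : Perm (Fin n))) hz2
    simpa using this
  have hζs : sign (((z : T) : alternatingGroup (Fin n)) : Perm (Fin n)) = 1 :=
    mem_alternatingGroup.mp (z : alternatingGroup (Fin n)).2
  have hall := all_even_invol_mem 𝒮 hconj hkey _ hζ𝒮 hζ1 hζ2 hζs
  apply le_antisymm hTP
  refine le_trans (Cfsg.Agent.H69.genP_sylow_alt_two n P) ?_
  rw [Subgroup.closure_le]
  rintro y ⟨hyP, hy2⟩
  apply hP𝒮 y hyP
  apply hall
  · have := congrArg (fun t : alternatingGroup (Fin n) => (t : Perm (Fin n))) hy2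
    simpa using this
  · exact mem_alternatingGroup.mp y.2

example : Cfsg.Agent.H88.AltF.StmtSCTwo := sc2

end Cfsg.Agent.H24.AltF
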