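import Mathlib
import Cfsg.Agent.Lib.Helper30.BG12TDefs
import Cfsg.Agent.H58.BG10FG
import Cfsg.Agent.H57.BG126
import Cfsg.Agent.H3.Critical
import Cfsg.Agent.Lib.Helper30.PLenOne

set_option autoImplicit false

/-!
# BG12T-R3 (helper30's team project, S1423): the main step of B&G 12.13 for Sylow subgroups of
rank at least 3
-/

namespace Cfsg.Agent.H24.BG12T

open Cfsg Subgroup Cfsg.Agent.H58.BG10 Cfsg.Agent.H57.BG12 Cfsg.Agent.Lib.Helper30.BG12T

open scoped Pointwise

universe u

variable {G : Type u} [Group G] [Finite G]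

omit [Finite G] in
/-- the product formula when `H` normalizes `K` -/
theorem card_sup_mul_card_inf {H K : Subgroup G} (h : H ≤ normalizer (K : Set G)) :
    Nat.card (H ⊔ K : Subgroup G) * Nat.card (H ⊓ K : Subgroup G) = Nat.card H * Nat.card K := by
  have key : ∀ {A B : Subgroup G}, A ≤ B → Nat.card A * A.relIndex B = Nat.card B := by
    intro A B hAB
    have h1 := Subgroup.relIndex_mul_relIndex ⊥ A B bot_le hAB
    rwa [Subgroup.relIndex_bot_left, Subgroup.relIndex_bot_left] at h1
  have e1 : K.relIndex (H ⊔ K) = K.relIndex H := by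
    let _ := Subgroup.normal_subgroupOf_of_le_normalizer h
    let _ := Subgroup.normal_subgroupOf_sup_of_le_normalizer h
    exact Nat.card_congr (QuotientGroup.quotientInfEquivProdNormalizerQuotient H K h).toEquiv.symm
  have e2 := key (le_sup_right : K ≤ H ⊔ K)
  have e3 := key (inf_le_left : H ⊓ K ≤ H)
  rw [Subgroup.inf_relIndex_left] at e3
  rw [← e2, ← e3, e1]
  ring

/-- a `p`-subgroup of `M` is `M`-conjugate into a Sylow `p`-subgroup of `G` contained in `M` -/
theorem exists_conj_le_sylow {p : ℕ} [Fact p.Prime] (S : Sylow p G) {M X : Subgroup G}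
    (hSM : (S : Subgroup G) ≤ M) (hXM : X ≤ M) (hX : IsPGroup p X) :
    ∃ g ∈ M, X.map (MulAut.conj g).toMonoidHom ≤ (S : Subgroup G) := by
  obtain ⟨Q, hXQ⟩ := (hX.comap_subtype (K := M)).exists_le_sylow
  obtain ⟨g, hg⟩ := MulAction.exists_smul_eq M Q (S.subtype hSM)
  refine ⟨g, g.2, ?_⟩
  rintro _ ⟨x, hx, rfl⟩
  have hxQ : (⟨x, hXM hx⟩ : M) ∈ (Q : Subgroup M) :=
    hXQ (show (⟨x, hXM hx⟩ : M) ∈ X.comap M.subtype from hx)
  have h1 : MulAut.conj g • (⟨x, hXM hx⟩ : M) ∈ MulAut.conj g • (Q : Subgroup M) :=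
    Subgroup.smul_mem_pointwise_smul _ (MulAut.conj g) (Q : Subgroup M) hxQ
  rw [← Sylow.coe_subgroup_smul, hg, Sylow.coe_subtype, Subgroup.mem_subgroupOf] at h1
  simpa [MulAut.smul_def] using h1

omit [Finite G] in
/-- a subgroup of prime order is elementary abelian -/
theorem isElementaryAbelian_of_card_eq {p : ℕ} [Fact p.Prime] {X : Subgroup G}
    (hX : Nat.card X = p) : IsElementaryAbelian p X := by
  have hc : IsCyclic X := isCyclic_of_prime_card hX
  refine ⟨inferInstance, ?_⟩
  intro a ha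
  have h1 : (⟨a, ha⟩ : X) ^ Nat.card X = 1 := pow_card_eq_one'
  rw [hX] at h1
  exact congrArg Subtype.val h1

omit [Finite G] in
/-- an elementary abelian subgroup of order greater than `p ^ 2` lies in a unique maximal
subgroup -/
theorem inUniqueMaximal_of_elementary (h03 : St1403 G) {p : ℕ} (hp : p.Prime) {B : Subgroup G}
    (hB : IsElementaryAbelian p B) (hcard : p ^ 2 < Nat.card B) (hBtop : B ≠ ⊤) :
    InUniqueMaximal B :=
  h03 B hBtop (not_rankLE_one hp hB (lt_of_le_of_lt (Nat.le_self_pow (by norm_num) p) hcard))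
    (Or.inl (not_rankLE_of_not_pRankLE hp
      (Cfsg.Agent.H31.BG8.not_pRankLE_of_le (le_refl B) hB hcard)))

theorem main23_r3 (_hG : IsMinSimpleOddOrder G) (h03 : St1403 G) (h14 : St1414 G)
    (hR3U : StR3U G) (hDerU : StDerU G) (hFoc : StFoc G) : StMain23R3 G := by
  intro M hM p _ hpσ X hXM hXcard S hSσ hcase hr
  have hp : p.Prime := Fact.out
  have hσM : sigmaCore M ≤ M := sigmaCore_le_self M
  have hSM : (S : Subgroup G) ≤ M := hSσ.trans hσM
  have hMtop : M ≠ ⊤ := hM.1
  have hle_top : ∀ K : Subgroup G, K ≤ M → K ≠ ⊤ :=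
    fun K hK h => hMtop (top_le_iff.mp (h ▸ hK))
  -- `S` lies in a unique maximal subgroup
  have hSU : InUniqueMaximal (S : Subgroup G) := h03 _ (hle_top _ hSM)
    (not_rankLE_of_not_pRankLE hp (not_pRankLE_mono hp (by norm_num) hr))
    (Or.inl (not_rankLE_of_not_pRankLE hp hr))
  -- the normal elementary abelian subgroup `U`
  obtain ⟨U, hUS, hSNU, hUe, hUcard, hUr⟩ := hR3U p S hr
  have hUM : U ≤ M := hUS.trans hSM
  have hUU : InUniqueMaximal U := by
    refine h03 U (hle_top U hUM) (not_rankLE_one hp hUe ?_) (Or.inr ?_)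
    · rw [hUcard]
      calc p = p ^ 1 := (pow_one p).symm
        _ < p ^ 2 := Nat.pow_lt_pow_right hp.one_lt (by norm_num)
    · obtain ⟨B, hBle, hBc, hBp, hBcard⟩ :=
        Cfsg.Agent.H31.T2.exists_elementary_of_not_pRankLE hUr
      have hBe : IsElementaryAbelian p B :=
        ⟨⟨⟨fun a b => Subtype.ext (hBc a a.2 b b.2)⟩⟩, hBp⟩
      exact not_rankLE_of_not_pRankLE hp
        (Cfsg.Agent.H31.BG8.not_pRankLE_of_le (hBle.trans inf_le_right) hBe hBcard)
  have hUcomm : ∀ a ∈ U, ∀ b ∈ U, a * b = b * a := by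
    intro a ha b hb
    exact congrArg Subtype.val (hUe.1.is_comm.comm (⟨a, ha⟩ : U) ⟨b, hb⟩)
  refine ⟨hSU, ?_⟩
  have hXp : IsPGroup p X := isPGroup_of_card_eq hXcard
  by_cases hβ : p ∈ beta M
  · -- case (i): `p` is an ideal prime
    obtain ⟨g, hgM, hgS⟩ := exists_conj_le_sylow S hSM hXM hXp
    refine ⟨g, hgM, ?_⟩
    obtain ⟨X₁, hX₁⟩ : ∃ X₁, X₁ = X.map (MulAut.conj g).toMonoidHom := ⟨_, rfl⟩
    rw [← hX₁] at hgS ⊢
    have hX₁card : Nat.card X₁ = p := by
      rw [hX₁, Subgroup.card_map_of_injective (MulAut.conj g).injective, hXcard]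
    by_cases hXU : X₁ ≤ U
    · refine ⟨U, hUM, hUU, ?_⟩
      intro u hu
      rw [mem_centralizer_iff]
      intro x hx
      exact hUcomm x (hXU hx) u hu
    · -- `X₁ ⊓ U = ⊥`
      have hinf : X₁ ⊓ U = ⊥ := by
        by_contra hne
        have h1 : Nat.card (X₁ ⊓ U : Subgroup G) ∣ p := by
          rw [← hX₁card]
          exact Subgroup.card_dvd_of_le inf_le_left
        rcases (Nat.dvd_prime hp).1 h1 with h2 | h2
        · exact hne (Subgroup.eq_bot_of_card_eq _ h2)
        · have h3 : X₁ ⊓ U = X₁ :=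
            Subgroup.eq_of_le_of_card_ge inf_le_left (by rw [h2, hX₁card])
          exact hXU (h3 ▸ inf_le_right)
      -- a nontrivial element of `U` central in `S`
      have hUbot : U ≠ ⊥ := by
        intro h
        rw [h, Subgroup.card_bot] at hUcard
        have := hp.two_le
        nlinarith
      have hN : (U.subgroupOf (S : Subgroup G)).Normal :=
        (Subgroup.normal_subgroupOf_iff_le_normalizer hUS).2 hSNU
      have hNbot : U.subgroupOf (S : Subgroup G) ≠ ⊥ := by
        intro h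
        apply hUbot
        rw [Subgroup.eq_bot_iff_forall]
        intro u hu
        have h1 : (⟨u, hUS hu⟩ : (S : Subgroup G)) ∈ U.subgroupOf (S : Subgroup G) :=
          Subgroup.mem_subgroupOf.2 hu
        rw [h, Subgroup.mem_bot] at h1
        exact congrArg Subtype.val h1
      obtain ⟨z, hzU, hzc, hz1⟩ :=
        Cfsg.Agent.H3.normal_inf_center_ne_bot S.isPGroup' (U.subgroupOf (S : Subgroup G)) hNbot
      have hu₀U : (z : G) ∈ U := Subgroup.mem_subgroupOf.1 hzU
      have hu₀1 : (z : G) ≠ 1 := fun h => hz1 (Subtype.ext h)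
      have hu₀p : (z : G) ^ p = 1 := hUe.2 _ hu₀U
      have hu₀c : ∀ s ∈ (S : Subgroup G), s * (z : G) = (z : G) * s := by
        intro s hs
        exact congrArg Subtype.val ((Subgroup.mem_center_iff.1 hzc) ⟨s, hs⟩)
      -- the subgroup `A = X₁ ⟨u₀⟩`
      have hX₁e : IsElementaryAbelian p X₁ := isElementaryAbelian_of_card_eq hX₁card
      have hu₀X : (z : G) ∈ centralizer (X₁ : Set G) := by
        rw [mem_centralizer_iff]
        intro x hx
        exact hu₀c x (hgS hx)
      have hAe : IsElementaryAbelian p (X₁ ⊔ zpowers (z : G)) :=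
        Cfsg.Agent.Lib.Helper30.isElementaryAbelian_sup_zpowers hX₁e hu₀X hu₀p
      have hZU : zpowers (z : G) ≤ U := Subgroup.zpowers_le.2 hu₀U
      have hAS : X₁ ⊔ zpowers (z : G) ≤ (S : Subgroup G) := sup_le hgS (hZU.trans hUS)
      have hAcard : Nat.card (X₁ ⊔ zpowers (z : G) : Subgroup G) = p ^ 2 := by
        have hnorm : X₁ ≤ normalizer (zpowers (z : G) : Set G) := by
          have h1 : X₁ ≤ centralizer (zpowers (z : G) : Set G) := by
            rw [Subgroup.le_centralizer_iff]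
            exact Subgroup.zpowers_le.2 hu₀X
          exact h1.trans (Subgroup.centralizer_le_normalizer _)
        have h1 := card_sup_mul_card_inf hnorm
        have h2 : X₁ ⊓ zpowers (z : G) = ⊥ := by
          rw [eq_bot_iff, ← hinf]
          exact inf_le_inf_left _ hZU
        rw [h2, Subgroup.card_bot, mul_one, hX₁card, Nat.card_zpowers,
          orderOf_eq_prime hu₀p hu₀1] at h1
        rw [h1, pow_two]
      -- the ideal prime property
      obtain ⟨B, hBS, hBe, hAB⟩ := hβ.2.2.2 S _ hAS hAe hAcard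
      have hBcard : p ^ 2 < Nat.card B := by
        rw [← hAcard]
        by_contra hle
        push Not at hle
        exact hAB.ne (Subgroup.eq_of_le_of_card_ge hAB.le hle)
      have hBM : B ≤ M := hBS.trans hSM
      refine ⟨B, hBM, inUniqueMaximal_of_elementary h03 hp hBe hBcard (hle_top B hBM), ?_⟩
      intro b hb
      rw [mem_centralizer_iff]
      intro x hx
      have hxB : x ∈ B := hAB.le (le_sup_left (a := X₁) hx)
      exact congrArg Subtype.val (hBe.1.is_comm.comm (⟨x, hxB⟩ : B) ⟨b, hb⟩)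
  · -- case (ii): `p ∉ β(M)` and `X ≤ M_σ'`
    have hXd : X ≤ ⁅sigmaCore M, sigmaCore M⁆ := hcase.resolve_left hβ
    have hpM : p ∣ Nat.card M := hpσ.2.1
    have hNC : HasNormalPComplement p ↥(sigmaCore M) :=
      ((h14 M hM).2.2.2.2 p hp hpM hβ).2.1
    have hrel : ¬ p ∣ (S : Subgroup G).relIndex (sigmaCore M) := by
      intro hdvd
      exact S.not_dvd_index (hdvd.trans (Subgroup.relIndex_dvd_index_of_le hSσ))
    obtain ⟨g, hgσ, hgd⟩ := hFoc p (sigmaCore M) S X hNC hSσ S.isPGroup' hrel hXd hXp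
    refine ⟨g, hσM hgσ, U, hUM, hUU, ?_⟩
    have hder := hDerU p S U S.isPGroup' hUS hSNU hUe hUcard
    intro u hu
    rw [mem_centralizer_iff]
    intro x hx
    have hx' := hder (hgd hx)
    rw [mem_centralizer_iff] at hx'
    exact (hx' u hu).symm

example (hG : IsMinSimpleOddOrder G) (h03 : St1403 G) (h14 : St1414 G)
    (hR3U : StR3U G) (hDerU : StDerU G) (hFoc : StFoc G) : StMain23R3 G :=
  main23_r3 hG h03 h14 hR3U hDerU hFoc

end Cfsg.Agent.H24.BG12T
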