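import Mathlib

/-!
# A verified checker for braid-move certificates in groups generated by involutions

Words are lists of natural numbers (letters).  A zipper machine `(l, r)` (the word is
`l.reverse ++ r`) executes a list of opcodes: move the cursor, cancel `a a`, or apply a braid move of
length `2`, `3` or `4` at the cursor.  Invalid opcodes are skipped, so executing any list of opcodes
preserves the value of the word in any group in which the letters are involutions satisfying the braid
relations recorded by `M`.
-/

namespace Cfsg.Agent.H24.Cox

/-- Opcodes of the zipper machine. -/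
inductive Op where
  | L | R | C | B2 | B3 | B4

/-- Execute a list of opcodes on the zipper `(l, r)`. Invalid opcodes are skipped. -/
def exec (M : ℕ → ℕ → ℕ) : List Op → List ℕ → List ℕ → List ℕ × List ℕ
  | [], l, r => (l, r)
  | Op.L :: ops, x :: l, r => exec M ops l (x :: r)
  | Op.R :: ops, l, x :: r => exec M ops (x :: l) r
  | Op.C :: ops, l, a :: b :: r =>
      if a = b then exec M ops l r else exec M ops l (a :: b :: r)
  | Op.B2 :: ops, l, a :: b :: r =>
      if M a b = 2 then exec M ops l (b :: a :: r) else exec M ops l (a :: b :: r)
  | Op.B3 :: ops, l, a :: b :: c :: r =>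
      if M a b = 3 ∧ a = c then exec M ops l (b :: a :: b :: r) else exec M ops l (a :: b :: c :: r)
  | Op.B4 :: ops, l, a :: b :: c :: d :: r =>
      if M a b = 4 ∧ a = c ∧ b = d then exec M ops l (b :: a :: b :: a :: r)
      else exec M ops l (a :: b :: c :: d :: r)
  | _ :: ops, l, r => exec M ops l r

/-- The value of a zipper in a group. -/
def val {G : Type*} [Group G] (g : ℕ → G) (s : List ℕ × List ℕ) : G :=
  (s.1.reverse.map g).prod * (s.2.map g).prod

theorem exec_val {G : Type*} [Group G] (g : ℕ → G) (M : ℕ → ℕ → ℕ)
    (h1 : ∀ a, g a * g a = 1)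
    (h2 : ∀ a b, M a b = 2 → g a * g b = g b * g a)
    (h3 : ∀ a b, M a b = 3 → g a * g b * g a = g b * g a * g b)
    (h4 : ∀ a b, M a b = 4 → g a * g b * g a * g b = g b * g a * g b * g a)
    (ops : List Op) (l r : List ℕ) :
    val g (exec M ops l r) = val g (l, r) := by
  fun_induction exec M ops l r with
  | case1 l r => rfl
  | case2 ops x l r ih => rw [ih]; simp [val, mul_assoc]
  | case3 ops l x r ih => rw [ih]; simp [val, mul_assoc]
  | case4 ops l a r ih =>
      rw [ih]; simp only [val, List.map_cons, List.prod_cons]
      rw [← mul_assoc (g a), h1, one_mul]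
  | case5 ops l a b r hab ih => exact ih
  | case6 ops l a b r hM ih =>
      rw [ih]; simp only [val, List.map_cons, List.prod_cons]
      rw [← mul_assoc (g b), ← h2 a b hM, mul_assoc]
  | case7 ops l a b r hM ih => exact ih
  | case8 ops l a b c r hM ih =>
      obtain ⟨hM, rfl⟩ := hM
      rw [ih]; simp only [val, List.map_cons, List.prod_cons]
      have key := congrArg (· * (List.map g r).prod) (h3 a b hM)
      simp only [mul_assoc] at key
      rw [key]
  | case9 ops l a b c r hM ih => exact ih
  | case10 ops l a b c d r hM ih =>
      obtain ⟨hM, rfl, rfl⟩ := hM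
      rw [ih]; simp only [val, List.map_cons, List.prod_cons]
      have key := congrArg (· * (List.map g r).prod) (h4 a b hM)
      simp only [mul_assoc] at key
      rw [key]
  | case11 ops l a b c d r hM ih => exact ih
  | case12 o ops l r _ _ _ _ _ _ ih => exact ih

end Cfsg.Agent.H24.Cox
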