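import Mathlib
import Cfsg.Agent.H24.CoxCert

/-!
# Orders of elements of presented Coxeter groups from certificates

Upper bounds come from a braid-move certificate checked by `Cox.exec`; lower bounds from a
homomorphism onto a group of integer matrices.
-/

namespace Cfsg.Agent.H24.Cox

variable {n : ℕ} (M : CoxeterMatrix (Fin n))

/-- The generator function `ℕ → M.Group` (letters `≥ n` go to `1`). -/
noncomputable def gen (i : ℕ) : M.Group := if h : i < n then M.simple ⟨i, h⟩ else 1

/-- The Coxeter matrix as a function on natural numbers (`0` outside the range). -/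
def Mt (a b : ℕ) : ℕ := if h : a < n ∧ b < n then M ⟨a, h.1⟩ ⟨b, h.2⟩ else 0

theorem gen_mul_self (a : ℕ) : gen M a * gen M a = 1 := by
  unfold gen; split_ifs with h
  · have := M.toCoxeterSystem.simple_mul_simple_self ⟨a, h⟩
    rwa [CoxeterMatrix.toCoxeterSystem_simple] at this
  · simp

theorem gen_pow (a b : ℕ) (h : Mt M a b ≠ 0) : (gen M a * gen M b) ^ (Mt M a b) = 1 := by
  unfold Mt at h ⊢
  split_ifs at h ⊢ with hab
  · have := M.toCoxeterSystem.simple_mul_simple_pow ⟨a, hab.1⟩ ⟨b, hab.2⟩
    rw [CoxeterMatrix.toCoxeterSystem_simple] at this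
    simpa [gen, hab.1, hab.2] using this
  · exact absurd rfl h

theorem gen_braid2 (a b : ℕ) (h : Mt M a b = 2) : gen M a * gen M b = gen M b * gen M a := by
  have hp := gen_pow M a b (by rw [h]; norm_num)
  rw [h] at hp
  have ha := gen_mul_self M a
  have hb := gen_mul_self M b
  have ha' : (gen M a)⁻¹ = gen M a := inv_eq_of_mul_eq_one_left ha
  have hb' : (gen M b)⁻¹ = gen M b := inv_eq_of_mul_eq_one_left hb
  have : gen M a * gen M b = (gen M a * gen M b)⁻¹ := by
    rw [eq_inv_iff_mul_eq_one, ← pow_two]; exact hp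
  rw [this, mul_inv_rev, ha', hb']

theorem gen_braid3 (a b : ℕ) (h : Mt M a b = 3) :
    gen M a * gen M b * gen M a = gen M b * gen M a * gen M b := by
  have hp := gen_pow M a b (by rw [h]; norm_num)
  rw [h] at hp
  have ha := gen_mul_self M a
  have hb := gen_mul_self M b
  have ha' : (gen M a)⁻¹ = gen M a := inv_eq_of_mul_eq_one_left ha
  have hb' : (gen M b)⁻¹ = gen M b := inv_eq_of_mul_eq_one_left hb
  have : gen M a * gen M b * gen M a = (gen M b * gen M a * gen M b)⁻¹ := by
    rw [eq_inv_iff_mul_eq_one]
    rw [pow_succ, pow_two] at hp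
    simpa [mul_assoc] using hp
  rw [this, mul_inv_rev, mul_inv_rev, ha', hb', mul_assoc]

theorem gen_braid4 (a b : ℕ) (h : Mt M a b = 4) :
    gen M a * gen M b * gen M a * gen M b = gen M b * gen M a * gen M b * gen M a := by
  have hp := gen_pow M a b (by rw [h]; norm_num)
  rw [h] at hp
  have ha := gen_mul_self M a
  have hb := gen_mul_self M b
  have ha' : (gen M a)⁻¹ = gen M a := inv_eq_of_mul_eq_one_left ha
  have hb' : (gen M b)⁻¹ = gen M b := inv_eq_of_mul_eq_one_left hb
  have : gen M a * gen M b * gen M a * gen M b = (gen M a * gen M b * gen M a * gen M b)⁻¹ := by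
    rw [eq_inv_iff_mul_eq_one]
    have : (gen M a * gen M b) ^ 4 = (gen M a * gen M b) ^ 2 * (gen M a * gen M b) ^ 2 := by
      rw [← pow_add]
    rw [this, pow_two] at hp
    simpa [mul_assoc] using hp
  rw [this, mul_inv_rev, mul_inv_rev, mul_inv_rev, ha', hb', mul_assoc, mul_assoc]

/-- Executing opcodes preserves the value of the zipper in the Coxeter group. -/
theorem val_eq_of_exec (ops : List Op) (l r l' r' : List ℕ)
    (h : exec (Mt M) ops l r = (l', r')) : val (gen M) (l, r) = val (gen M) (l', r') := by
  rw [← h, exec_val (gen M) (Mt M) (gen_mul_self M) (gen_braid2 M) (gen_braid3 M) (gen_braid4 M)]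

theorem map_gen_range : (List.range n).map (gen M) = (List.finRange n).map M.simple := by
  rw [← List.map_coe_finRange_eq_range, List.map_map]
  apply List.map_congr_left
  intro i _
  simp [gen]

/-- If a certificate reduces the `h`-fold repetition of the word `0 1 ⋯ (n-1)` to the empty word, then
the `h`-th power of the Coxeter element is trivial. -/
theorem pow_eq_one_of_exec (h : ℕ) (w : List ℕ)
    (hw : w = (List.replicate h (List.range n)).flatten)
    (hv : val (gen M) ([], w) = val (gen M) ([], [])) :
    ((List.finRange n).map M.simple).prod ^ h = 1 := by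
  rw [← map_gen_range]
  have : (w.map (gen M)).prod = 1 := by simpa [val] using hv
  rw [hw] at this
  simpa [List.map_flatten, List.prod_flatten, List.map_replicate, List.prod_replicate] using this

/-- Lower bound: a matrix representation in which the power of the Coxeter element is nontrivial. -/
theorem pow_ne_one_of_mat (S : Fin n → Matrix (Fin n) (Fin n) ℤ) (hS : M.IsLiftable S) (k : ℕ)
    (hk : (((List.finRange n).map S).prod) ^ k ≠ 1) :
    (((List.finRange n).map M.simple).prod) ^ k ≠ 1 := by
  intro h
  apply hk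
  have h2 := congrArg (M.toCoxeterSystem.lift ⟨S, hS⟩) h
  rw [map_pow, map_list_prod, List.map_map, map_one] at h2
  have h3 : (⇑(M.toCoxeterSystem.lift ⟨S, hS⟩) ∘ M.simple) = S := by
    funext i
    have := M.toCoxeterSystem.lift_apply_simple hS i
    rw [CoxeterMatrix.toCoxeterSystem_simple] at this
    exact this
  rw [h3] at h2
  exact h2

theorem order_of_cert {G : Type*} [Monoid G] (x : G) (h : ℕ) (ks : List ℕ) (hpos : 0 < h)
    (hx : x ^ h = 1) (hks : ∀ p ≤ h, p.Prime → p ∣ h → h / p ∈ ks) (hd : ∀ k ∈ ks, x ^ k ≠ 1) :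
    orderOf x = h :=
  orderOf_eq_of_pow_and_pow_div_prime hpos hx
    (fun p hp hpd => hd _ (hks p (Nat.le_of_dvd hpos hpd) hp hpd))

/-- The order of the Coxeter element from an upper-bound certificate and a matrix representation. -/
theorem order_coxeter (S : Fin n → Matrix (Fin n) (Fin n) ℤ) (hS : M.IsLiftable S)
    (h : ℕ) (ks : List ℕ) (hpos : 0 < h)
    (hx : ((List.finRange n).map M.simple).prod ^ h = 1)
    (hks : ∀ p ≤ h, p.Prime → p ∣ h → h / p ∈ ks)
    (hd : ∀ k ∈ ks, (((List.finRange n).map S).prod) ^ k ≠ 1) :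
    orderOf ((List.finRange n).map M.simple).prod = h :=
  order_of_cert _ h ks hpos hx hks (fun k hk => pow_ne_one_of_mat M S hS k (hd k hk))

end Cfsg.Agent.H24.Cox
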