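import Mathlib
import Cfsg.Agent.H24.CoxOrder
import Cfsg.Prelude.Def_ChevStructure

/-! Order of the Coxeter element of type D4: generated certificate. -/

namespace Cfsg.Agent.H24.Cox.D4

open Cfsg.Agent.H24.Cox

/-- Integer reflection matrices of the simple reflections. -/
def S : Fin 4 → Matrix (Fin 4) (Fin 4) ℤ := ![
  !![-1, 1, 0, 0; 0, 1, 0, 0; 0, 0, 1, 0; 0, 0, 0, 1],
  !![1, 0, 0, 0; 1, -1, 1, 1; 0, 0, 1, 0; 0, 0, 0, 1],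
  !![1, 0, 0, 0; 0, 1, 0, 0; 0, 1, -1, 0; 0, 0, 0, 1],
  !![1, 0, 0, 0; 0, 1, 0, 0; 0, 0, 1, 0; 0, 1, 0, -1]]

set_option maxRecDepth 100000 in
theorem liftable : Cfsg.Lie.coxeterD4.IsLiftable S := by
  unfold CoxeterMatrix.IsLiftable; decide +kernel

set_option maxRecDepth 1000000 in
theorem chunk0 : exec (Mt Cfsg.Lie.coxeterD4) [Op.R, Op.R, Op.B2, Op.R, Op.B2, Op.R, Op.B3, Op.L, Op.L, Op.B2, Op.L, Op.L, Op.B3, Op.R, Op.R, Op.B3, Op.R, Op.R, Op.B2, Op.R, Op.B3, Op.R, Op.R, Op.B3, Op.R, Op.R, Op.B2, Op.R, Op.B2, Op.R, Op.C, Op.L, Op.L, Op.L, Op.L, Op.L, Op.L, Op.L, Op.L, Op.B3, Op.R, Op.R, Op.B2, Op.R, Op.B2, Op.R, Op.B3, Op.L, Op.L, Op.B2, Op.L, Op.L, Op.L, Op.L, Op.B2, Op.R, Op.B2, Op.R, Op.B3, Op.R, Op.R, Op.B3, Op.R, Op.R, Op.B2, Op.R, Op.B3, Op.R, Op.R, Op.C, Op.L, Op.L, Op.L, Op.L, Op.B3, Op.R, Op.R,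 Op.B2, Op.R, Op.C, Op.L, Op.C, Op.L, Op.L, Op.L, Op.L, Op.B2, Op.R, Op.B2, Op.L, Op.L, Op.L, Op.L, Op.B2, Op.R, Op.B3, Op.L, Op.L, Op.B3, Op.R, Op.R, Op.B2, Op.R, Op.B3, Op.R, Op.R, Op.B3, Op.R, Op.R, Op.C, Op.L, Op.C, Op.L, Op.L, Op.B2, Op.R, Op.C, Op.L, Op.L, Op.L, Op.L, Op.B3, Op.R, Op.R, Op.B2, Op.R, Op.C, Op.L, Op.C, Op.L, Op.C, Op.L, Op.L, Op.B2, Op.R, Op.C, Op.L, Op.C]
    []
    [0, 1, 2, 3, 0, 1, 2, 3, 0, 1, 2, 3, 0, 1, 2, 3, 0, 1, 2, 3, 0, 1, 2, 3] =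
    ([],
     []) := by decide +kernel

set_option maxRecDepth 100000 in
theorem upper : ((List.finRange 4).map Cfsg.Lie.coxeterD4.simple).prod ^ 6 = 1 :=
  pow_eq_one_of_exec Cfsg.Lie.coxeterD4 6 [0, 1, 2, 3, 0, 1, 2, 3, 0, 1, 2, 3, 0, 1, 2, 3, 0, 1, 2, 3, 0, 1, 2, 3] (by decide +kernel)
    (val_eq_of_exec _ _ _ _ _ _ chunk0)

set_option maxRecDepth 100000 in
theorem order : orderOf ((List.finRange 4).map Cfsg.Lie.coxeterD4.simple).prod = 6 :=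
  order_coxeter Cfsg.Lie.coxeterD4 S liftable 6 [3, 2] (by norm_num) upper (by decide +kernel) (by decide +kernel)

end Cfsg.Agent.H24.Cox.D4
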