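import Mathlib
import Cfsg.Agent.H24.CoxOrder

/-! Orders of the Coxeter elements of types B₂ and G₂. -/

namespace Cfsg.Agent.H24.Cox

theorem upper_rank2 (M : CoxeterMatrix (Fin 2)) :
    ((List.finRange 2).map M.simple).prod ^ (M 0 1) = 1 := by
  have h := M.toCoxeterSystem.simple_mul_simple_pow 0 1
  rw [CoxeterMatrix.toCoxeterSystem_simple] at h
  have h2 : ((List.finRange 2).map M.simple).prod = M.simple 0 * M.simple 1 := by
    simp [List.finRange_succ]
  rw [h2]; exact h

namespace B2

/-- Integer reflection matrices of the simple reflections. -/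
def S : Fin 2 → Matrix (Fin 2) (Fin 2) ℤ := ![!![-1, 2; 0, 1], !![1, 0; 1, -1]]

theorem liftable : (CoxeterMatrix.B 2).IsLiftable S := by
  unfold CoxeterMatrix.IsLiftable; decide +kernel

theorem upper : ((List.finRange 2).map (CoxeterMatrix.B 2).simple).prod ^ 4 = 1 := by
  have h := upper_rank2 (CoxeterMatrix.B 2)
  have h4 : (CoxeterMatrix.B 2) 0 1 = 4 := by decide +kernel
  rwa [h4] at h

theorem order : orderOf ((List.finRange 2).map (CoxeterMatrix.B 2).simple).prod = 4 :=
  order_coxeter (CoxeterMatrix.B 2) S liftable 4 [2] (by norm_num) upper (by decide +kernel)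
    (by decide +kernel)

end B2

namespace G2

/-- Integer reflection matrices of the simple reflections. -/
def S : Fin 2 → Matrix (Fin 2) (Fin 2) ℤ := ![!![-1, 3; 0, 1], !![1, 0; 1, -1]]

theorem liftable : CoxeterMatrix.G₂.IsLiftable S := by
  unfold CoxeterMatrix.IsLiftable; decide +kernel

theorem upper : ((List.finRange 2).map CoxeterMatrix.G₂.simple).prod ^ 6 = 1 := by
  have h := upper_rank2 CoxeterMatrix.G₂
  have h6 : CoxeterMatrix.G₂ 0 1 = 6 := by decide +kernel
  rwa [h6] at h

theorem order : orderOf ((List.finRange 2).map CoxeterMatrix.G₂.simple).prod = 6 :=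
  order_coxeter CoxeterMatrix.G₂ S liftable 6 [3, 2] (by norm_num) upper (by decide +kernel)
    (by decide +kernel)

end G2

end Cfsg.Agent.H24.Cox
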