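import Mathlib
import Cfsg.Agent.H99.ElSTR

set_option autoImplicit false

/-!
# S5958-R5: an element of prime order stabilising a decomposition with few fixed vectors
fixes every summand, and then `a * t mod c = t * (a mod c)`.
-/

namespace Cfsg.Agent.H24.Dec

open Cfsg.Agent.H99.El

/-- The dimensions of an independent family of subspaces of `K` add up to at most `dim K`. -/
theorem sum_finrank_le_of_iSupIndep {F : Type*} [Field F] {V : Type*} [AddCommGroup V]
    [Module F V] [FiniteDimensional F V] {ι : Type*} [Fintype ι] (E : ι → Submodule F V)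
    (hE : iSupIndep E) (K : Submodule F V) (hK : ∀ j, E j ≤ K) :
    ∑ j, Module.finrank F (E j) ≤ Module.finrank F K := by
  classical
  have hinj := hE.dfinsupp_lsum_injective
  have h1 : Module.finrank F (DirectSum ι fun j => E j) = ∑ j, Module.finrank F (E j) :=
    Module.finrank_directSum F _
  have h2 := LinearMap.finrank_range_of_inj hinj
  rw [← Submodule.iSup_eq_range_dfinsupp_lsum] at h2
  rw [← h1]
  exact (le_of_eq h2.symm).trans (Submodule.finrank_mono (iSup_le hK))

/-- Powers of `T` move the summands along the powers of `σ`. -/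
theorem map_pow_eq {F : Type*} [Field F] {V : Type*} [AddCommGroup V] [Module F V]
    (T : Module.End F V) {ι : Type*} (D : ι → Submodule F V) (σ : Equiv.Perm ι)
    (hσ : ∀ j, (D j).map T = D (σ j)) (i : ℕ) (j : ι) :
    (D j).map (T ^ i) = D ((σ ^ i) j) := by
  induction i generalizing j with
  | zero =>
    rw [pow_zero, pow_zero]
    exact Submodule.map_id _
  | succ i ih =>
    rw [pow_succ', Module.End.mul_eq_comp, Submodule.map_comp, ih, hσ, pow_succ',
      Equiv.Perm.mul_apply]

theorem pow_apply_mem {F : Type*} [Field F] {V : Type*} [AddCommGroup V] [Module F V]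
    (T : Module.End F V) {ι : Type*} (D : ι → Submodule F V) (σ : Equiv.Perm ι)
    (hσ : ∀ j, (D j).map T = D (σ j)) (i : ℕ) (j : ι) (d : V) (hd : d ∈ D j) :
    (T ^ i) d ∈ D ((σ ^ i) j) := by
  rw [← map_pow_eq T D σ hσ i j]
  exact Submodule.mem_map_of_mem hd

/-- `T * Σ_{i<r} T^i = Σ_{i<r} T^i` when `T ^ r = 1`. -/
theorem mul_sum_pow_eq {F : Type*} [Field F] {V : Type*} [AddCommGroup V] [Module F V]
    (T : Module.End F V) (r : ℕ) (hT : T ^ r = 1) :
    T * ∑ i ∈ Finset.range r, T ^ i = ∑ i ∈ Finset.range r, T ^ i := by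
  rw [Finset.mul_sum]
  have h1 : ∑ i ∈ Finset.range r, T * T ^ i = ∑ i ∈ Finset.range r, T ^ (i + 1) :=
    Finset.sum_congr rfl (fun i _ => by rw [pow_succ'])
  rw [h1]
  have e1 := Finset.sum_range_succ' (fun i => T ^ i) r
  have e2 := Finset.sum_range_succ (fun i => T ^ i) r
  rw [e2, hT, pow_zero] at e1
  exact (add_right_cancel e1).symm

theorem mod_eq_of_decomposition {F : Type*} [Field F] [Fintype F] {V : Type*} [AddCommGroup V]
    [Module F V] [FiniteDimensional F V] (T : Module.End F V) (r : ℕ) (hr : r.Prime)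
    (hrF : (r : F) ≠ 0) (hT : T ^ r = 1) (a t : ℕ) (D : Fin t → Submodule F V)
    (hD : ∀ j, Module.finrank F (D j) = a) (hind : iSupIndep D) (htop : (⨆ j, D j) = ⊤)
    (σ : Equiv.Perm (Fin t)) (hσ : ∀ j, (D j).map T = D (σ j))
    (hca : orderOf (Fintype.card F : ZMod r) ≤ a)
    (hf : Module.finrank F (LinearMap.ker (T - 1)) < orderOf (Fintype.card F : ZMod r)) :
    (a * t) % orderOf (Fintype.card F : ZMod r) = t * (a % orderOf (Fintype.card F : ZMod r)) := by
  have hc := orderOf_card_pos (F := F) r hr hrF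
  have hfim := finrank_invariant_mod T r hr hrF hT
  obtain ⟨c, hcdef⟩ : ∃ c, c = orderOf (Fintype.card F : ZMod r) := ⟨_, rfl⟩
  rw [← hcdef] at hc hca hf hfim ⊢
  have ha : 0 < a := by omega
  have hDne : ∀ j, D j ≠ ⊥ := by
    intro j h
    have := hD j
    rw [h, finrank_bot] at this
    omega
  have hDinj : Function.Injective D := hind.injective hDne
  have hσr : ∀ j, (σ ^ r) j = j := by
    intro j
    apply hDinj
    rw [← map_pow_eq T D σ hσ r j, hT]
    exact Submodule.map_id _
  -- (i) every summand is fixed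
  have hfixed : ∀ j, σ j = j := by
    intro j
    by_contra hj
    have hmove : ∀ i, 0 < i → i < r → (σ ^ i) j ≠ j := by
      intro i hi0 hir hij
      have hper : Function.IsPeriodicPt σ r j := by
        rw [Function.IsPeriodicPt, Function.IsFixedPt, Equiv.Perm.iterate_eq_pow]
        exact hσr j
      have hper' : Function.IsPeriodicPt σ i j := by
        rw [Function.IsPeriodicPt, Function.IsFixedPt, Equiv.Perm.iterate_eq_pow]
        exact hij
      have h1 := hper.minimalPeriod_dvd
      have h2 := hper'.minimalPeriod_dvd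
      rcases (Nat.dvd_prime hr).mp h1 with h | h
      · exact hj (Function.minimalPeriod_eq_one_iff_isFixedPt.mp h)
      · rw [h] at h2
        exact absurd (Nat.le_of_dvd hi0 h2) (by omega)
    obtain ⟨Φ, hΦ⟩ : ∃ Φ : Module.End F V, Φ = ∑ i ∈ Finset.range r, T ^ i := ⟨_, rfl⟩
    have hTΦ : ∀ v, T (Φ v) = Φ v := by
      intro v
      have h1 : T * Φ = Φ := by rw [hΦ]; exact mul_sum_pow_eq T r hT
      calc T (Φ v) = (T * Φ) v := rfl
        _ = Φ v := by rw [h1]
    have hΦinj : ∀ d ∈ D j, Φ d = 0 → d = 0 := by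
      intro d hd h0
      have hsplit : Φ d = d + ∑ i ∈ (Finset.range r).erase 0, (T ^ i) d := by
        rw [hΦ, LinearMap.sum_apply,
          ← Finset.add_sum_erase _ _ (Finset.mem_range.mpr hr.pos), pow_zero]
        rfl
      have hrest : ∑ i ∈ (Finset.range r).erase 0, (T ^ i) d ∈ ⨆ (k) (_ : k ≠ j), D k := by
        refine Submodule.sum_mem _ (fun i hi => ?_)
        rw [Finset.mem_erase, Finset.mem_range] at hi
        have hm := hmove i (Nat.pos_of_ne_zero hi.1) hi.2
        exact (le_iSup₂ (f := fun k (_ : k ≠ j) => D k) ((σ ^ i) j) hm)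
          (pow_apply_mem T D σ hσ i j d hd)
      have hd' : d ∈ ⨆ (k) (_ : k ≠ j), D k := by
        have : d = -∑ i ∈ (Finset.range r).erase 0, (T ^ i) d := by
          rw [h0] at hsplit
          exact eq_neg_of_add_eq_zero_left hsplit.symm
        rw [this]
        exact Submodule.neg_mem _ hrest
      exact (Submodule.mem_bot F).mp ((hind j).le_bot ⟨hd, hd'⟩)
    have hmapfin : Module.finrank F ((D j).map Φ) = a := by
      rw [← hD j]
      have hinj : Function.Injective (Φ.domRestrict (D j)) := by
        rw [← LinearMap.ker_eq_bot, LinearMap.ker_eq_bot']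
        intro x hx
        exact Subtype.ext (hΦinj x x.2 hx)
      have h1 := LinearMap.finrank_range_of_inj hinj
      rw [LinearMap.range_domRestrict] at h1
      exact h1
    have hle : (D j).map Φ ≤ LinearMap.ker (T - 1) := by
      rintro _ ⟨d, _, rfl⟩
      rw [mem_ker_sub_one]
      exact hTΦ d
    have := Submodule.finrank_mono hle
    omega
  -- (ii) every summand is invariant
  have hinv : ∀ j, ∀ v ∈ D j, T v ∈ D j := by
    intro j v hv
    have h1 : T v ∈ (D j).map T := Submodule.mem_map_of_mem hv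
    rw [hσ, hfixed] at h1
    exact h1
  have hmodj : ∀ j, a % c ≤ Module.finrank F ↥(D j ⊓ LinearMap.ker (T - 1)) := by
    intro j
    obtain ⟨a', ha'⟩ := hfim (D j) (hinv j)
    rw [hD j] at ha'
    rw [ha', Nat.add_mul_mod_self_right]
    exact Nat.mod_le _ _
  have hindE : iSupIndep (fun j => D j ⊓ LinearMap.ker (T - 1)) :=
    hind.mono (fun j => inf_le_left)
  have hsum := sum_finrank_le_of_iSupIndep (fun j => D j ⊓ LinearMap.ker (T - 1)) hindE
    (LinearMap.ker (T - 1)) (fun j => inf_le_right)
  have hlow : t * (a % c) ≤ ∑ j : Fin t, Module.finrank F ↥(D j ⊓ LinearMap.ker (T - 1)) := by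
    calc t * (a % c) = ∑ _j : Fin t, a % c := by simp
      _ ≤ _ := Finset.sum_le_sum (fun j _ => hmodj j)
  have hlt : t * (a % c) < c := by omega
  calc (a * t) % c = ((a % c) * t) % c := by
        rw [Nat.mul_mod, Nat.mul_mod (a % c) t c, Nat.mod_mod]
    _ = (t * (a % c)) % c := by rw [mul_comm]
    _ = t * (a % c) := Nat.mod_eq_of_lt hlt

end Cfsg.Agent.H24.Dec
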