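import Mathlib
import Cfsg.Agent.H84.DihDefs
import Cfsg.Agent.H24.DihBASIC

set_option autoImplicit false
set_option linter.unusedSectionVars false

/-!
# S4482-CORE2: a normal subgroup of odd order and index `2 ^ n` in `C(J)` is a `Core`
-/

namespace Cfsg.Agent.H24.Dih

open Cfsg.Agent.H84.Dih

universe u

variable {G : Type u} [Group G] [Finite G] {n : ℕ} {P : Sylow 2 G} {σ τ : G} {X : Subgroup G}

theorem core_of (h : Hyp n P σ τ) (X : Subgroup G)
    (hle : X ≤ Subgroup.centralizer ({σ ^ (2 ^ (n - 2))} : Set G))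
    (hnorm : ∀ g ∈ Subgroup.centralizer ({σ ^ (2 ^ (n - 2))} : Set G), ∀ x ∈ X, g * x * g⁻¹ ∈ X)
    (hodd : Odd (Nat.card X))
    (hcard : Nat.card (Subgroup.centralizer ({σ ^ (2 ^ (n - 2))} : Set G)) = Nat.card X * 2 ^ n) :
    Core n P σ X := by
  have : Fact (Nat.Prime 2) := ⟨Nat.prime_two⟩
  have hPle := P_le h
  have hXpos : 0 < Nat.card X := Nat.card_pos
  -- `|P| = 2 ^ n`
  have hPcard : Nat.card (P : Subgroup G) = 2 ^ n := by
    obtain ⟨k, hk⟩ := IsPGroup.iff_card.mp P.2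
    have h1 : 2 ^ k ∣ Nat.card X * 2 ^ n := by
      rw [← hk, ← hcard]
      exact Subgroup.card_dvd_of_le hPle
    have hcop : Nat.Coprime (2 ^ k) (Nat.card X) :=
      Nat.Coprime.pow_left k (Nat.coprime_two_left.mpr hodd)
    have h2 : 2 ^ k ∣ 2 ^ n := hcop.dvd_of_dvd_mul_left h1
    have h3 : k ≤ n := (Nat.pow_dvd_pow_iff_le_right (by norm_num)).mp h2
    have h4 : 2 ^ n ∣ Nat.card G := by
      have h5 : 2 ^ n ∣ Nat.card (Subgroup.centralizer ({σ ^ (2 ^ (n - 2))} : Set G)) := by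
        rw [hcard]
        exact dvd_mul_left _ _
      exact h5.trans (Subgroup.card_subgroup_dvd_card _)
    have h6 : 2 ^ n ∣ 2 ^ k := by
      rw [← hk]
      exact P.pow_dvd_card_of_pow_dvd_card h4
    have h7 : n ≤ k := (Nat.pow_dvd_pow_iff_le_right (by norm_num)).mp h6
    rw [hk, le_antisymm h3 h7]
  have hdisj : X ⊓ (P : Subgroup G) = ⊥ := by
    apply disjoint_iff.mp
    apply Subgroup.disjoint_of_coprime_natCard
    rw [hPcard]
    exact (Nat.Coprime.pow_left n (Nat.coprime_two_left.mpr hodd)).symm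
  refine ⟨hle, hnorm, hodd, hcard, ?_, ?_⟩
  · -- `C(J) = X P`
    obtain ⟨f, hf⟩ : ∃ f : X × (P : Subgroup G) →
        Subgroup.centralizer ({σ ^ (2 ^ (n - 2))} : Set G),
        ∀ xp, ((f xp : Subgroup.centralizer ({σ ^ (2 ^ (n - 2))} : Set G)) : G)
          = (xp.1 : G) * (xp.2 : G) :=
      ⟨fun xp => ⟨(xp.1 : G) * (xp.2 : G), mul_mem (hle xp.1.2) (hPle xp.2.2)⟩, fun _ => rfl⟩
    have hinj : Function.Injective f := by
      rintro ⟨x, p⟩ ⟨x', p'⟩ hxp
      have e : (x : G) * p = x' * p' := by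
        have := congrArg Subtype.val hxp
        rw [hf, hf] at this
        exact this
      have e1 : (x' : G)⁻¹ * x = p' * (p : G)⁻¹ := by
        rw [inv_mul_eq_iff_eq_mul, ← mul_assoc, ← e, mul_inv_cancel_right]
      have hmem : (x' : G)⁻¹ * x ∈ X ⊓ (P : Subgroup G) :=
        ⟨X.mul_mem (X.inv_mem x'.2) x.2, by rw [e1]; exact (P : Subgroup G).mul_mem p'.2 ((P : Subgroup G).inv_mem p.2)⟩
      rw [hdisj, Subgroup.mem_bot, inv_mul_eq_one] at hmem
      have hp : (p : G) = p' := by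
        rw [← hmem] at e
        exact mul_left_cancel e
      exact Prod.ext (Subtype.ext hmem.symm) (Subtype.ext hp)
    have hbij := hinj.bijective_of_nat_card_le (by rw [Nat.card_prod, hcard, hPcard])
    intro g hg
    obtain ⟨⟨x, p⟩, hxp⟩ := hbij.2 ⟨g, hg⟩
    refine ⟨x, x.2, p, p.2, ?_⟩
    have := congrArg Subtype.val hxp
    rw [hf] at this
    exact this.symm
  · -- elements of odd order of `C(J)` lie in `X`
    intro c hc hco
    have hnormal : (X.subgroupOf (Subgroup.centralizer ({σ ^ (2 ^ (n - 2))} : Set G))).Normal := by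
      constructor
      intro x hx g
      rw [Subgroup.mem_subgroupOf] at hx ⊢
      exact hnorm g g.2 x hx
    have hXC : Nat.card (X.subgroupOf (Subgroup.centralizer ({σ ^ (2 ^ (n - 2))} : Set G)))
        = Nat.card X := Nat.card_congr (Subgroup.subgroupOfEquivOfLe hle).toEquiv
    have hq : Nat.card (Subgroup.centralizer ({σ ^ (2 ^ (n - 2))} : Set G) ⧸
        X.subgroupOf (Subgroup.centralizer ({σ ^ (2 ^ (n - 2))} : Set G))) = 2 ^ n := by
      have h1 := Subgroup.card_eq_card_quotient_mul_card_subgroup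
        (X.subgroupOf (Subgroup.centralizer ({σ ^ (2 ^ (n - 2))} : Set G)))
      rw [hXC, hcard, mul_comm] at h1
      exact (Nat.eq_of_mul_eq_mul_right hXpos h1).symm
    have hpow : c ^ (2 ^ n) ∈ X := by
      have h1 := pow_card_eq_one' (G := Subgroup.centralizer ({σ ^ (2 ^ (n - 2))} : Set G) ⧸
        X.subgroupOf (Subgroup.centralizer ({σ ^ (2 ^ (n - 2))} : Set G)))
        (x := QuotientGroup.mk ⟨c, hc⟩)
      rw [hq, ← QuotientGroup.mk_pow, QuotientGroup.eq_one_iff, Subgroup.mem_subgroupOf] at h1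
      exact h1
    have hcop : Nat.Coprime (2 ^ n) (orderOf c) :=
      Nat.Coprime.pow_left n (Nat.coprime_two_left.mpr hco)
    obtain ⟨m, hm⟩ := exists_pow_eq_self_of_coprime hcop
    rw [← hm]
    exact X.pow_mem hpow m

end Cfsg.Agent.H24.Dih
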