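import Cfsg.Agent.H24.InvDecomp

set_option autoImplicit false

namespace Cfsg.Agent.H24

/-- A four-group `⟨x, y⟩` acting on a group `N` of odd order: every element of `N` is a product
`c1 * (c2 * j * c2)` with `c1`, `c2`, `j` in `N` centralised by `x`, `y`, `x * y` respectively. -/
theorem fourGroup_decomp {M : Type*} [Group M] [Finite M] (N : Subgroup M)
    (hodd : Odd (Nat.card N)) (x y : M) (hx2 : x * x = 1) (hy2 : y * y = 1)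
    (hxy : x * y = y * x) (hxN : ∀ n ∈ N, x * n * x⁻¹ ∈ N) (hyN : ∀ n ∈ N, y * n * y⁻¹ ∈ N) :
    ∀ n ∈ N, ∃ c1 c2 j : M, c1 * x = x * c1 ∧ c2 * y = y * c2 ∧ j * (x * y) = (x * y) * j ∧
      n = c1 * (c2 * j * c2) := by
  obtain ⟨hex, -⟩ := invDecomp_aux x hx2 N hodd hxN
  obtain ⟨m, hm⟩ := hodd
  have hpow : ∀ w ∈ N, w ^ (2 * m + 1) = 1 := by
    intro w hw
    have h1 : (⟨w, hw⟩ : N) ^ Nat.card N = 1 := pow_card_eq_one'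
    rw [hm] at h1
    have h2 := congrArg Subtype.val h1
    simpa using h2
  have hsq : ∀ w ∈ N, (w * w) ^ (m + 1) = w := by
    intro w hw
    have h1 : (w * w) ^ (m + 1) = w ^ (2 * m + 1) * w := by
      rw [← pow_two, ← pow_mul, ← pow_succ]; congr 1
    rw [h1, hpow w hw, one_mul]
  have hsqinj : ∀ u ∈ N, ∀ v ∈ N, u * u = v * v → u = v := by
    intro u hu v hv h
    rw [← hsq u hu, ← hsq v hv, h]
  have hsqrt : ∀ w ∈ N, ∃ v ∈ N, v * v = w ∧ (∀ g : M, g * w * g⁻¹ = w → g * v * g⁻¹ = v) ∧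
      (∀ g : M, g * w * g⁻¹ = w⁻¹ → g * v * g⁻¹ = v⁻¹) := by
    intro w hw
    refine ⟨w ^ (m + 1), pow_mem hw _, ?_, ?_, ?_⟩
    · rw [← pow_add]
      have h1 : m + 1 + (m + 1) = 2 * m + 1 + 1 := by ring
      rw [h1, pow_succ, hpow w hw, one_mul]
    · intro g hg
      rw [← conj_pow, hg]
    · intro g hg
      rw [← conj_pow, hg, inv_pow]
  have hxinv : x⁻¹ = x := inv_eq_of_mul_eq_one_left hx2
  have hyinv : y⁻¹ = y := inv_eq_of_mul_eq_one_left hy2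
  intro n hn
  obtain ⟨c1, P, hc1, hP, rfl⟩ := hex n hn
  have hc1x : c1 * x = x * c1 :=
    ((Subgroup.mem_centralizer_iff.mp (Subgroup.mem_inf.mp hc1).2) x rfl).symm
  have hPN : P ∈ N := hP.1
  have hPx : x * P * x⁻¹ = P⁻¹ := hP.2
  obtain ⟨R, hR⟩ : ∃ R, R = y * P * y⁻¹ := ⟨_, rfl⟩
  have hRN : R ∈ N := by rw [hR]; exact hyN P hPN
  obtain ⟨p, hpN, hpp, -, -⟩ := hsqrt P hPN
  obtain ⟨q, hqN, hqq, -, -⟩ := hsqrt (p⁻¹ * R * p⁻¹)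
    (mul_mem (mul_mem (inv_mem hpN) hRN) (inv_mem hpN))
  obtain ⟨c, hc⟩ : ∃ c, c = p * q * p := ⟨_, rfl⟩
  have hcN : c ∈ N := by rw [hc]; exact mul_mem (mul_mem hpN hqN) hpN
  have hcPc : c * P⁻¹ * c = R := by
    calc c * P⁻¹ * c = p * q * (p * (p * p)⁻¹ * p) * q * p := by rw [hc, hpp]; group
      _ = p * (q * q) * p := by group
      _ = R := by rw [hqq]; group
  have huniq : ∀ c' ∈ N, c' * P⁻¹ * c' = R → c' = c := by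
    intro c' hc' h
    have h1 : (p⁻¹ * c' * p⁻¹) * (p⁻¹ * c' * p⁻¹) = q * q := by
      calc (p⁻¹ * c' * p⁻¹) * (p⁻¹ * c' * p⁻¹) = p⁻¹ * (c' * (p * p)⁻¹ * c') * p⁻¹ := by group
        _ = p⁻¹ * R * p⁻¹ := by rw [hpp, h]
        _ = q * q := by rw [hqq]
    have h2 := hsqinj _ (mul_mem (mul_mem (inv_mem hpN) hc') (inv_mem hpN)) q hqN h1
    calc c' = p * (p⁻¹ * c' * p⁻¹) * p := by group
      _ = c := by rw [h2, hc]
  have hyR : y * R * y⁻¹ = P := by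
    rw [hR]
    calc y * (y * P * y⁻¹) * y⁻¹ = (y * y) * P * (y * y)⁻¹ := by group
      _ = P := by rw [hy2]; group
  have hyRinv : y⁻¹ * R⁻¹ * y = P⁻¹ := by
    rw [hR]; group
  have hyc : y * c * y⁻¹ = c := by
    apply huniq _ (hyN c hcN)
    have h1 : (y * c * y⁻¹) * R⁻¹ * (y * c * y⁻¹) = P := by
      calc (y * c * y⁻¹) * R⁻¹ * (y * c * y⁻¹) = y * (c * (y⁻¹ * R⁻¹ * y) * c) * y⁻¹ := by group
        _ = y * (c * P⁻¹ * c) * y⁻¹ := by rw [hyRinv]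
        _ = P := by rw [hcPc, hyR]
    calc (y * c * y⁻¹) * P⁻¹ * (y * c * y⁻¹)
        = (y * c * y⁻¹) * ((y * c * y⁻¹) * R⁻¹ * (y * c * y⁻¹))⁻¹ * (y * c * y⁻¹) := by rw [h1]
      _ = R := by group
  have hxR : x * R * x⁻¹ = R⁻¹ := by
    rw [hR]
    calc x * (y * P * y⁻¹) * x⁻¹ = (x * y) * P * (x * y)⁻¹ := by group
      _ = (y * x) * P * (y * x)⁻¹ := by rw [hxy]
      _ = y * (x * P * x⁻¹) * y⁻¹ := by group
      _ = (y * P * y⁻¹)⁻¹ := by rw [hPx]; group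
  have hPx' : x⁻¹ * P * x = P⁻¹ := by
    have h1 : x⁻¹ * P * x = x * P * x⁻¹ := by rw [hxinv]
    rw [h1, hPx]
  have hxc : (x * c * x⁻¹)⁻¹ = c := by
    apply huniq _ (inv_mem (hxN c hcN))
    have h1 : (x * c * x⁻¹) * P * (x * c * x⁻¹) = R⁻¹ := by
      calc (x * c * x⁻¹) * P * (x * c * x⁻¹) = x * (c * (x⁻¹ * P * x) * c) * x⁻¹ := by group
        _ = x * (c * P⁻¹ * c) * x⁻¹ := by rw [hPx']
        _ = R⁻¹ := by rw [hcPc, hxR]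
    calc (x * c * x⁻¹)⁻¹ * P⁻¹ * (x * c * x⁻¹)⁻¹
        = ((x * c * x⁻¹) * P * (x * c * x⁻¹))⁻¹ := by group
      _ = R := by rw [h1, inv_inv]
  have hxc' : x * c * x⁻¹ = c⁻¹ := inv_eq_iff_eq_inv.mp hxc
  obtain ⟨d, hdN, hdd, hdfix, hdinv⟩ := hsqrt c hcN
  have hyd : y * d * y⁻¹ = d := hdfix y hyc
  have hxd : x * d * x⁻¹ = d⁻¹ := hdinv x hxc'
  have hyj : y * (d⁻¹ * P * d⁻¹) * y⁻¹ = (d⁻¹ * P * d⁻¹)⁻¹ := by
    calc y * (d⁻¹ * P * d⁻¹) * y⁻¹ = (y * d * y⁻¹)⁻¹ * (y * P * y⁻¹) * (y * d * y⁻¹)⁻¹ := by group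
      _ = d⁻¹ * (c * P⁻¹ * c) * d⁻¹ := by rw [hyd, ← hR, hcPc]
      _ = d⁻¹ * ((d * d) * P⁻¹ * (d * d)) * d⁻¹ := by rw [hdd]
      _ = (d⁻¹ * P * d⁻¹)⁻¹ := by group
  have hxj : x * (d⁻¹ * P * d⁻¹) * x⁻¹ = (d⁻¹ * P * d⁻¹)⁻¹ := by
    calc x * (d⁻¹ * P * d⁻¹) * x⁻¹ = (x * d * x⁻¹)⁻¹ * (x * P * x⁻¹) * (x * d * x⁻¹)⁻¹ := by group
      _ = (d⁻¹ * P * d⁻¹)⁻¹ := by rw [hxd, hPx]; group
  refine ⟨c1, d, d⁻¹ * P * d⁻¹, hc1x, ?_, ?_, by group⟩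
  · calc d * y = (y * d * y⁻¹) * y := by rw [hyd]
      _ = y * d := by group
  · have h1 : (x * y) * (d⁻¹ * P * d⁻¹) * (x * y)⁻¹ = d⁻¹ * P * d⁻¹ := by
      calc (x * y) * (d⁻¹ * P * d⁻¹) * (x * y)⁻¹ = x * (y * (d⁻¹ * P * d⁻¹) * y⁻¹) * x⁻¹ := by
            group
        _ = (x * (d⁻¹ * P * d⁻¹) * x⁻¹)⁻¹ := by rw [hyj]; group
        _ = d⁻¹ * P * d⁻¹ := by rw [hxj, inv_inv]
    calc (d⁻¹ * P * d⁻¹) * (x * y) = ((x * y) * (d⁻¹ * P * d⁻¹) * (x * y)⁻¹) * (x * y) := by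
          rw [h1]
      _ = (x * y) * (d⁻¹ * P * d⁻¹) := by group

end Cfsg.Agent.H24
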