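import Mathlib
import Cfsg.Prelude.Def_FusionSystem
import Cfsg.Prelude.Def_CaseTheorems
import Cfsg.Agent.H88.Basic
import Cfsg.Agent.H26.GZ
import Cfsg.Agent.H24.ZStarA

/-!
# The centre of the 2-fusion system of a finite group is `S ∩ Z*(G)` (helper24)

Parametrised by `H26.ZStarHyp` (the statement of Glauberman's Z*-theorem, S0215).
-/

set_option autoImplicit false
set_option linter.style.haveILetI false

namespace Cfsg.Agent.H24.FusC

open Cfsg
open scoped Pointwise

universe u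

variable {G : Type u} [Group G]

/-- `y ∈ S` and every `G`-conjugate of `y` inside `S` is `y` itself. -/
def WC (S : Subgroup G) (y : G) : Prop :=
  y ∈ S ∧ ∀ g : G, g * y * g⁻¹ ∈ S → g * y * g⁻¹ = y

/-- Elements of the centre of `F_S(G)` are weakly closed elementwise. -/
theorem wc_of_mem_center (S : Subgroup G) [Finite S] {y : G}
    (hy : y ∈ (groupFusionSystem S).center) : WC S y := by
  have hc := H88.isCentral_center (groupFusionSystem S)
  have hyS : y ∈ S := hc.1 hy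
  refine ⟨hyS, fun g hg => ?_⟩
  have hP : Subgroup.zpowers y ≤ S := (Subgroup.zpowers_le).mpr hyS
  have hφS : ∀ x : Subgroup.zpowers y, conjHom (Subgroup.zpowers y) g x ∈ S := by
    rintro ⟨x, hx⟩
    obtain ⟨k, rfl⟩ := Subgroup.mem_zpowers_iff.mp hx
    have h1 : g * y ^ k * g⁻¹ = (g * y * g⁻¹) ^ k := (conj_zpow).symm
    show g * y ^ k * g⁻¹ ∈ S
    rw [h1]; exact S.zpow_mem hg k
  have hφ : conjHom (Subgroup.zpowers y) g ∈ (groupFusionSystem S).Hom (Subgroup.zpowers y) :=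
    ⟨hP, hφS, g, fun x => rfl⟩
  obtain ⟨ψ, -, hψP, hψQ⟩ := hc.2 _ _ hφ
  have h1 := hψP ⟨y, Subgroup.mem_zpowers y⟩
  have h2 := hψQ ⟨y, hy⟩
  have h3 : Subgroup.inclusion le_sup_left (⟨y, Subgroup.mem_zpowers y⟩ : Subgroup.zpowers y) =
      Subgroup.inclusion le_sup_right (⟨y, hy⟩ : (groupFusionSystem S).center) := rfl
  rw [h3, h2] at h1
  exact h1.symm

/-- Two `p`-subgroups of a subgroup `C` can be moved simultaneously into a Sylow `p`-subgroup of
`G`, the second one after conjugation inside `C`. -/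
theorem exists_conj_two [Finite G] {p : ℕ} [Fact p.Prime] (S : Sylow p G) (C A B : Subgroup G)
    (hA : A ≤ C) (hB : B ≤ C) (hpA : IsPGroup p A) (hpB : IsPGroup p B) :
    ∃ c ∈ C, ∃ k : G, (∀ a ∈ A, k * a * k⁻¹ ∈ (S : Subgroup G)) ∧
      ∀ b ∈ B, k * (c * b * c⁻¹) * k⁻¹ ∈ (S : Subgroup G) := by
  have hpA' : IsPGroup p (A.subgroupOf C) := hpA.comap_subtype
  have hpB' : IsPGroup p (B.subgroupOf C) := hpB.comap_subtype
  obtain ⟨T, hT⟩ := hpA'.exists_le_sylow
  obtain ⟨c, hc⟩ := ZStar.exists_conj_le_sylow T _ hpB'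
  obtain ⟨k, hk⟩ := ZStar.exists_conj_le_sylow S ((T : Subgroup C).map C.subtype)
    (T.isPGroup'.map _)
  refine ⟨c, c.2, k, fun a ha => ?_, fun b hb => ?_⟩
  · apply hk
    exact ⟨⟨a, hA ha⟩, hT (Subgroup.mem_subgroupOf.mpr ha), rfl⟩
  · apply hk
    have h1 := hc ⟨b, hB hb⟩ (Subgroup.mem_subgroupOf.mpr hb)
    exact ⟨_, h1, rfl⟩

/-- A subgroup of a Sylow `p`-subgroup all of whose elements are weakly closed elementwise is
central in `F_S(G)`. -/
theorem isCentral_of_wc [Finite G] {p : ℕ} [Fact p.Prime] (S : Sylow p G) (Q : Subgroup G)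
    (hQ : ∀ y ∈ Q, WC (S : Subgroup G) y) :
    (groupFusionSystem (S : Subgroup G)).IsCentral Q := by
  have hQS : Q ≤ (S : Subgroup G) := fun y hy => (hQ y hy).1
  refine ⟨hQS, ?_⟩
  rintro P φ ⟨hP, hφS, g, hg⟩
  -- `Q` centralizes `S`
  have hQc : ∀ y ∈ Q, ∀ s ∈ (S : Subgroup G), s * y * s⁻¹ = y := by
    intro y hy s hs
    exact (hQ y hy).2 s ((S : Subgroup G).mul_mem ((S : Subgroup G).mul_mem hs (hQS hy))
      ((S : Subgroup G).inv_mem hs))
  have hA : Q ≤ Subgroup.centralizer (P : Set G) := by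
    intro y hy
    rw [Subgroup.mem_centralizer_iff]
    intro x hx
    have h1 := hQc y hy x (hP hx)
    calc x * y = (x * y * x⁻¹) * x := by group
      _ = y * x := by rw [h1]
  have hB : Q.comap (MulAut.conj g).toMonoidHom ≤ Subgroup.centralizer (P : Set G) := by
    intro b hb
    rw [Subgroup.mem_comap] at hb
    have hb' : g * b * g⁻¹ ∈ Q := by simpa [MulAut.conj_apply] using hb
    rw [Subgroup.mem_centralizer_iff]
    intro x hx
    have hgx : g * x * g⁻¹ ∈ (S : Subgroup G) := by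
      have := hφS ⟨x, hx⟩
      rw [hg] at this
      exact this
    have h1 := hQc _ hb' _ hgx
    -- (g x g⁻¹) (g b g⁻¹) (g x g⁻¹)⁻¹ = g b g⁻¹
    have h2 : g * (x * b * x⁻¹) * g⁻¹ = g * b * g⁻¹ := by
      rw [← h1]; group
    have h3 : x * b * x⁻¹ = b := mul_left_cancel (mul_right_cancel h2)
    calc x * b = (x * b * x⁻¹) * x := by group
      _ = b * x := by rw [h3]
  have hpA : IsPGroup p Q := S.isPGroup'.to_le hQS
  have hpB : IsPGroup p (Q.comap (MulAut.conj g).toMonoidHom) :=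
    hpA.comap_of_injective _ (MulAut.conj g).injective
  obtain ⟨c, hcC, k, hkA, hkB⟩ := exists_conj_two S _ Q _ hA hB hpA hpB
  -- `k` centralizes `Q`
  have hk1 : ∀ y ∈ Q, k * y * k⁻¹ = y := fun y hy => (hQ y hy).2 k (hkA y hy)
  -- `k c g⁻¹` centralizes `Q`
  have hk2 : ∀ y ∈ Q, c * (g⁻¹ * y * g) * c⁻¹ = y := by
    intro y hy
    have hmem : g⁻¹ * y * g ∈ Q.comap (MulAut.conj g).toMonoidHom := by
      rw [Subgroup.mem_comap]
      have : (MulAut.conj g).toMonoidHom (g⁻¹ * y * g) = y := by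
        simp [MulAut.conj_apply, mul_assoc]
      rw [this]; exact hy
    have h1 := hkB _ hmem
    have h2 : k * (c * (g⁻¹ * y * g) * c⁻¹) * k⁻¹ = (k * c * g⁻¹) * y * (k * c * g⁻¹)⁻¹ := by
      group
    rw [h2] at h1
    have h3 := (hQ y hy).2 _ h1
    rw [← h2] at h3
    have h4 := hk1 y hy
    rw [← h4] at h3
    have h5 := mul_left_cancel (mul_right_cancel h3)
    rw [h4] at h5
    exact h5
  -- the element `h = g c⁻¹`
  have hh1 : ∀ y ∈ Q, (g * c⁻¹) * y * (g * c⁻¹)⁻¹ = y := by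
    intro y hy
    have h1 := hk2 y hy
    have h2 : (g * c⁻¹) * (c * (g⁻¹ * y * g) * c⁻¹) * (g * c⁻¹)⁻¹ = y := by group
    rw [h1] at h2
    exact h2
  have hh2 : ∀ x ∈ P, (g * c⁻¹) * x * (g * c⁻¹)⁻¹ = g * x * g⁻¹ := by
    intro x hx
    have h1 := Subgroup.mem_centralizer_iff.mp hcC x hx
    have h2 : c⁻¹ * x * c = x := by
      calc c⁻¹ * x * c = c⁻¹ * (x * c) := by group
        _ = c⁻¹ * (c * x) := by rw [h1]
        _ = x := by group
    calc (g * c⁻¹) * x * (g * c⁻¹)⁻¹ = g * (c⁻¹ * x * c) * g⁻¹ := by group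
      _ = g * x * g⁻¹ := by rw [h2]
  have hle : P ⊔ Q ≤ (S : Subgroup G) := sup_le hP hQS
  have hψS : ∀ x : (P ⊔ Q : Subgroup G), conjHom (P ⊔ Q) (g * c⁻¹) x ∈ (S : Subgroup G) := by
    have hsub : P ⊔ Q ≤ (S : Subgroup G).comap (MulAut.conj (g * c⁻¹)).toMonoidHom := by
      apply sup_le
      · intro x hx
        rw [Subgroup.mem_comap]
        have : (MulAut.conj (g * c⁻¹)).toMonoidHom x = g * x * g⁻¹ := hh2 x hx
        rw [this]
        have h1 := hφS ⟨x, hx⟩
        rw [hg] at h1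
        exact h1
      · intro y hy
        rw [Subgroup.mem_comap]
        have : (MulAut.conj (g * c⁻¹)).toMonoidHom y = y := hh1 y hy
        rw [this]; exact hQS hy
    intro x
    exact hsub x.2
  refine ⟨conjHom (P ⊔ Q) (g * c⁻¹), ⟨hle, hψS, g * c⁻¹, fun x => rfl⟩, fun x => ?_, fun y => ?_⟩
  · rw [hg]
    exact hh2 x x.2
  · exact hh1 y y.2

/-- Elements of a Sylow 2-subgroup that are central modulo `O(G)` are weakly closed elementwise. -/
theorem wc_of_mem_zstar [Finite G] (S : Sylow 2 G) {y : G} (hyS : y ∈ (S : Subgroup G))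
    (hy : y ∈ (Subgroup.center (G ⧸ oddCore G)).comap (QuotientGroup.mk' (oddCore G))) :
    WC (S : Subgroup G) y := by
  refine ⟨hyS, fun g hg => ?_⟩
  rw [Subgroup.mem_comap, Subgroup.mem_center_iff] at hy
  have h1 := hy (QuotientGroup.mk' (oddCore G) g)
  have h2 : (g * y * g⁻¹) * y⁻¹ ∈ oddCore G := by
    rw [← QuotientGroup.eq_one_iff]
    have : ((g * y * g⁻¹ * y⁻¹ : G) : G ⧸ oddCore G) =
        (QuotientGroup.mk' (oddCore G) g * QuotientGroup.mk' (oddCore G) y) *
          (QuotientGroup.mk' (oddCore G) g)⁻¹ * (QuotientGroup.mk' (oddCore G) y)⁻¹ := by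
      simp
    rw [this, h1]; group
  have h3 : (g * y * g⁻¹) * y⁻¹ ∈ (S : Subgroup G) :=
    (S : Subgroup G).mul_mem hg ((S : Subgroup G).inv_mem hyS)
  have h4 := H26.eq_one_of_mem_sylow_of_mem_core S h3 h2
  exact mul_inv_eq_one.mp h4

/-- **Glauberman's Z\*-theorem in fusion language**, from the Z\*-theorem. -/
theorem fus_center_eq (hZ : H26.ZStarHyp.{u}) [Finite G] (S : Sylow 2 G) :
    (groupFusionSystem (S : Subgroup G)).center =
      (S : Subgroup G) ⊓
        (Subgroup.center (G ⧸ oddCore G)).comap (QuotientGroup.mk' (oddCore G)) := by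
  haveI : Fact (Nat.Prime 2) := ⟨Nat.prime_two⟩
  apply le_antisymm
  · intro y hy
    have hw := wc_of_mem_center (S : Subgroup G) hy
    refine Subgroup.mem_inf.mpr ⟨hw.1, ?_⟩
    rw [Subgroup.mem_comap, Subgroup.mem_center_iff]
    intro q
    obtain ⟨g, rfl⟩ := QuotientGroup.mk'_surjective (oddCore G) q
    have hxc : ∀ s ∈ (S : Subgroup G), y * s = s * y := by
      intro s hs
      have h1 := hw.2 s ((S : Subgroup G).mul_mem ((S : Subgroup G).mul_mem hs hw.1)
        ((S : Subgroup G).inv_mem hs))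
      calc y * s = (s * y * s⁻¹) * s := by rw [h1]
        _ = s * y := by group
    have hiso : ∀ (i : ℕ) (g : G), g * y ^ i * g⁻¹ ∈ S →
        g * y ^ i * g⁻¹ ∈ Subgroup.zpowers (y ^ i) := by
      intro i g hg
      have hyi : y ^ i ∈ (groupFusionSystem (S : Subgroup G)).center := Subgroup.pow_mem _ hy i
      have := (wc_of_mem_center (S : Subgroup G) hyi).2 g hg
      rw [this]; exact Subgroup.mem_zpowers _
    have h1 := H26.gz hZ S y hw.1 hxc hiso g
    have h2 : ((y * g * y⁻¹ * g⁻¹ : G) : G ⧸ oddCore G) = 1 :=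
      (QuotientGroup.eq_one_iff _).mpr h1
    have h3 : QuotientGroup.mk' (oddCore G) y * QuotientGroup.mk' (oddCore G) g *
        (QuotientGroup.mk' (oddCore G) y)⁻¹ * (QuotientGroup.mk' (oddCore G) g)⁻¹ = 1 := by
      simpa using h2
    calc QuotientGroup.mk' (oddCore G) g * QuotientGroup.mk' (oddCore G) y
        = (QuotientGroup.mk' (oddCore G) y * QuotientGroup.mk' (oddCore G) g *
          (QuotientGroup.mk' (oddCore G) y)⁻¹ * (QuotientGroup.mk' (oddCore G) g)⁻¹)⁻¹ *
          (QuotientGroup.mk' (oddCore G) y * QuotientGroup.mk' (oddCore G) g) := by group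
      _ = QuotientGroup.mk' (oddCore G) y * QuotientGroup.mk' (oddCore G) g := by
          rw [h3, inv_one, one_mul]
  · apply le_sSup
    apply isCentral_of_wc S
    intro y hy
    exact wc_of_mem_zstar S (Subgroup.mem_inf.mp hy).1 (Subgroup.mem_inf.mp hy).2

end Cfsg.Agent.H24.FusC
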