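import Mathlib
import Cfsg.Agent.H58.FzDefs
import Cfsg.Agent.H66.HHB
import Cfsg.Agent.H66.HHLin
import Cfsg.Agent.H87.Syl
import Cfsg.Agent.H73.FzHHBLin

set_option autoImplicit false
set_option maxHeartbeats 800000
set_option linter.style.haveILetI false

/-!
Piece HHB of the project S4306: the consequence of Hall–Higman's Theorem B used in the fixed-point-free
action of a nonabelian group of order `pq`, in internal form.
-/

namespace Cfsg.Agent.H24.Fz

open Cfsg.Agent.H58.Fz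
open scoped TensorProduct

universe u

theorem hhb_abs (K : Type) [Field K] [IsAlgClosed K] {E : Type u} [Group E] [Finite E] {M : Type u}
    [CommGroup M] [Finite M]
    (v r p a : ℕ) [Fact v.Prime] [Fact r.Prime] [Algebra (ZMod v) K] [CharP K v] (hp : p.Prime)
    (hvr : v ≠ r)
    (hM : ∀ m : M, m ^ v = 1) (act : E →* MulAut M) (R : Subgroup E) (hR : IsPGroup r R) (c x : E)
    (hcR : c ∈ Subgroup.normalizer (R : Set E)) (hcv : c ^ v = 1) (hxp : x ^ p = 1)
    (hxc : x * c * x⁻¹ = c ^ a) (ha1 : ¬ a ≡ 1 [MOD v]) (hap : a ^ p ≡ 1 [MOD v])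
    (hne : ∃ ρ ∈ R, act (c * ρ * c⁻¹ * ρ⁻¹) ≠ 1) :
    ∃ m : M, m ≠ 1 ∧ act x m = m := by
  classical
  have hv : v.Prime := Fact.out
  have hexp' : ∀ a : Additive M, v • a = 0 := fun a => by
    have := hM (Additive.toMul a)
    exact congrArg Additive.ofMul this
  haveI : Module (ZMod v) (Additive M) := AddCommGroup.zmodModule hexp'
  obtain ⟨T, hTdef⟩ : ∃ T : E →* Module.End (ZMod v) (Additive M), T = H66.zmodLinHom v act :=
    ⟨_, rfl⟩
  have hT : ∀ e (m : M), T e (Additive.ofMul m) = Additive.ofMul (act e m) := by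
    intro e m; rw [hTdef]; rfl
  obtain ⟨ρ₀, hρ₀⟩ : ∃ ρ₀ : E →* Module.End K (K ⊗[ZMod v] Additive M),
      ρ₀ = ((Module.End.baseChangeHom (ZMod v) K (Additive M) :
          Module.End (ZMod v) (Additive M) →ₐ[ZMod v] Module.End K (K ⊗[ZMod v] Additive M)) :
          Module.End (ZMod v) (Additive M) →* Module.End K (K ⊗[ZMod v] Additive M)).comp T :=
    ⟨_, rfl⟩
  have hρapply : ∀ e, ρ₀ e = Module.End.baseChangeHom (ZMod v) K (Additive M) (T e) := by
    intro e; rw [hρ₀]; rfl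
  have hker : ∀ e, ρ₀ e = 1 → act e = 1 := by
    intro e he
    rw [hρapply] at he
    have h1 : T e = 1 := by
      have h0 : Module.End.baseChangeHom (ZMod v) K (Additive M) (T e) =
          Module.End.baseChangeHom (ZMod v) K (Additive M) 1 := by rw [he, map_one]
      exact LinearMap.baseChangeHom_injective (ZMod v) (Additive M) K h0
    ext m
    have h2 := hT e m
    rw [h1] at h2
    exact (congrArg Additive.toMul h2).symm
  have hinj : Function.Injective (QuotientGroup.lift ρ₀.ker ρ₀ le_rfl) := by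
    intro a b hab
    obtain ⟨a, rfl⟩ := QuotientGroup.mk_surjective a
    obtain ⟨b, rfl⟩ := QuotientGroup.mk_surjective b
    have hab' : ρ₀ a = ρ₀ b := hab
    rw [QuotientGroup.eq, MonoidHom.mem_ker, map_mul, ← hab', ← map_mul, inv_mul_cancel, map_one]
  have hQ : IsPGroup r (R.map (QuotientGroup.mk' ρ₀.ker)) := hR.map _
  have hg : (QuotientGroup.mk' ρ₀.ker c) ^ v ^ (0 + 1) = 1 := by
    rw [zero_add, pow_one, ← map_pow, hcv, map_one]
  have hgQ : QuotientGroup.mk' ρ₀.ker c ∈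
      Subgroup.normalizer ((R.map (QuotientGroup.mk' ρ₀.ker) : Subgroup (E ⧸ ρ₀.ker)) :
        Set (E ⧸ ρ₀.ker)) :=
    Subgroup.le_normalizer_map _ ⟨c, hcR, rfl⟩
  have hh : ∃ a' ∈ R.map (QuotientGroup.mk' ρ₀.ker),
      (QuotientGroup.mk' ρ₀.ker c) ^ v ^ 0 * a' ≠ a' * (QuotientGroup.mk' ρ₀.ker c) ^ v ^ 0 := by
    obtain ⟨ρ', hρ'R, hρ'⟩ := hne
    refine ⟨QuotientGroup.mk' ρ₀.ker ρ', ⟨ρ', hρ'R, rfl⟩, fun hcomm => hρ' (hker _ ?_)⟩
    rw [pow_zero, pow_one] at hcomm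
    have h1 : QuotientGroup.mk' ρ₀.ker (c * ρ' * c⁻¹ * ρ'⁻¹) = 1 := by
      rw [map_mul, map_mul, map_mul, hcomm, map_inv, map_inv]; group
    exact MonoidHom.mem_ker.1 ((QuotientGroup.eq_one_iff _).1 h1)
  obtain ⟨N, hN, hNcase⟩ := H66.hhB_aux (K := K) v r hvr _ (E ⧸ ρ₀.ker)
    (K ⊗[ZMod v] Additive M) rfl (QuotientGroup.lift ρ₀.ker ρ₀ le_rfl) hinj _ hQ _ 0 hg hgQ hh
  have hρc : QuotientGroup.lift ρ₀.ker ρ₀ le_rfl (QuotientGroup.mk' ρ₀.ker c) = ρ₀ c := rfl
  have hC : (ρ₀ c - 1) ^ (v - 2) ≠ 0 := by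
    have h2 : 2 ≤ v := hv.two_le
    rcases hNcase with hN1 | ⟨n₀, m, hn1, hn2, -, -, -, hN2⟩
    · intro h0
      apply hN
      rw [hN1, hρc, zero_add, pow_one, show v - 1 = (v - 2) + 1 by omega, pow_add, h0, zero_mul]
    · have hn0 : n₀ = 1 := by omega
      subst hn0
      rw [zero_add, Nat.sub_self, pow_zero, one_mul, pow_one] at hN2
      rw [hN2, hρc, show v - 1 - 1 = v - 2 by omega] at hN
      exact hN
  have hX : (ρ₀ x) ^ p = 1 := by rw [← map_pow, hxp, map_one]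
  have hCv : (ρ₀ c) ^ v = 1 := by rw [← map_pow, hcv, map_one]
  have hXC : ρ₀ x * ρ₀ c = (ρ₀ c) ^ a * ρ₀ x := by
    rw [← map_pow, ← map_mul, ← map_mul, ← hxc]; congr 1; group
  obtain ⟨w, hw0, hw⟩ := Cfsg.Agent.H73.Fz.hhb_lin v p a hp ha1 hap (ρ₀ c) (ρ₀ x) hX hCv hXC hC
  have hbc : ρ₀ x - 1 = Module.End.baseChangeHom (ZMod v) K (Additive M) (T x - 1) := by
    rw [map_sub, map_one, hρapply]
  have hnotinj : ¬ Function.Injective ⇑(T x - 1 : Module.End (ZMod v) (Additive M)) := by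
    intro hinj'
    have hbij : Function.Bijective ⇑(T x - 1 : Module.End (ZMod v) (Additive M)) :=
      ⟨hinj', LinearMap.injective_iff_surjective.1 hinj'⟩
    have hunit : IsUnit (T x - 1) := (Module.End.isUnit_iff _).2 hbij
    have hunit' : IsUnit (ρ₀ x - 1) := by rw [hbc]; exact hunit.map _
    have hinj'' := ((Module.End.isUnit_iff _).1 hunit').1
    apply hw0
    apply hinj''
    rw [map_zero, LinearMap.sub_apply, hw, Module.End.one_apply, sub_self]
  rw [injective_iff_map_eq_zero] at hnotinj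
  push Not at hnotinj
  obtain ⟨m₀, hm₀, hm₀0⟩ := hnotinj
  have h1 : T x m₀ = m₀ := by
    rw [LinearMap.sub_apply, Module.End.one_apply, sub_eq_zero] at hm₀; exact hm₀
  refine ⟨Additive.toMul m₀, ?_, ?_⟩
  · intro h
    apply hm₀0
    have := congrArg Additive.ofMul h
    rwa [ofMul_toMul] at this
  · have h2 := hT x (Additive.toMul m₀)
    rw [ofMul_toMul, h1] at h2
    exact (congrArg Additive.toMul h2).symm

open scoped IsMulCommutative in
theorem hhb_holds {X : Type u} [Group X] [Finite X] : Cfsg.Agent.H58.Fz.HHB X := by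
  intro W R c x v r p a hv hr hp hrv hpv hWc hWe hR hRW hcW hxW hcR hcv hxp hxc hxcne hρ
  haveI : Fact v.Prime := ⟨hv⟩
  haveI : Fact r.Prime := ⟨hr⟩
  haveI : IsMulCommutative ↥W := ⟨⟨fun a b => Subtype.ext (hWc a a.2 b b.2)⟩⟩
  obtain ⟨ρ', hρ'R, hρ'⟩ := hρ
  have hc1 : c ≠ 1 := by
    rintro rfl
    apply hρ'
    have : (1 : X) * ρ' * 1⁻¹ * ρ'⁻¹ = 1 := by group
    rw [this]; exact Subgroup.one_mem _
  have hord : orderOf c = v := orderOf_eq_prime hcv hc1
  have ha1 : ¬ a ≡ 1 [MOD v] := by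
    intro h
    apply hxcne
    rw [hxc]
    have h2 := (pow_eq_pow_iff_modEq (x := c) (n := a) (m := 1)).2 (by rw [hord]; exact h)
    rw [h2, pow_one]
  have hap : a ^ p ≡ 1 [MOD v] := by
    have hk : ∀ k : ℕ, x ^ k * c * (x ^ k)⁻¹ = c ^ (a ^ k) := by
      intro k
      induction k with
      | zero => simp
      | succ k ih =>
        have h1 : x ^ (k + 1) * c * (x ^ (k + 1))⁻¹ = x * (x ^ k * c * (x ^ k)⁻¹) * x⁻¹ := by
          rw [pow_succ']; group
        rw [h1, ih, ← conj_pow, hxc, ← pow_mul, pow_succ']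
    have h3 := hk p
    rw [hxp, one_mul, inv_one, mul_one] at h3
    have h4 := (pow_eq_pow_iff_modEq (x := c) (n := a ^ p) (m := 1)).1 (by rw [pow_one]; exact h3.symm)
    rwa [hord] at h4
  have hM : ∀ m : ↥W, m ^ v = 1 := fun m => Subtype.ext (by
    rw [Subgroup.coe_pow]; exact hWe m m.2)
  have hR' : IsPGroup r ↥(R.subgroupOf (Subgroup.normalizer (W : Set X))) := hR.comap_subtype
  have hcR' : (⟨c, hcW⟩ : ↥(Subgroup.normalizer (W : Set X))) ∈
      Subgroup.normalizer ((R.subgroupOf (Subgroup.normalizer (W : Set X)) :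
        Subgroup ↥(Subgroup.normalizer (W : Set X))) : Set ↥(Subgroup.normalizer (W : Set X))) := by
    rw [Subgroup.mem_normalizer_iff]
    intro h
    rw [Subgroup.mem_subgroupOf, Subgroup.mem_subgroupOf]
    exact Subgroup.mem_normalizer_iff.1 hcR (h : X)
  obtain ⟨m, hm1, hm⟩ := hhb_abs (AlgebraicClosure (ZMod v)) v r p a hp hrv.symm hM
    (Cfsg.Agent.H87.normConj W) (R.subgroupOf (Subgroup.normalizer (W : Set X))) hR'
    ⟨c, hcW⟩ ⟨x, hxW⟩ hcR' (Subtype.ext (by simpa using hcv)) (Subtype.ext (by simpa using hxp))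
    (Subtype.ext (by simpa using hxc)) ha1 hap
    ⟨⟨ρ', hRW hρ'R⟩, Subgroup.mem_subgroupOf.2 hρ'R, fun hact => hρ' (by
      rw [Subgroup.mem_centralizer_iff]
      intro w hw
      have h5 := congrArg (fun α : MulAut ↥W => ((α ⟨w, hw⟩ : ↥W) : X)) hact
      simp only [Cfsg.Agent.H87.normConj_apply_coe, MulAut.one_apply] at h5
      have h6 : (c * ρ' * c⁻¹ * ρ'⁻¹) * w * (c * ρ' * c⁻¹ * ρ'⁻¹)⁻¹ = w := by
        simpa using h5
      calc w * (c * ρ' * c⁻¹ * ρ'⁻¹)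
          = (c * ρ' * c⁻¹ * ρ'⁻¹) * w * (c * ρ' * c⁻¹ * ρ'⁻¹)⁻¹ * (c * ρ' * c⁻¹ * ρ'⁻¹) := by
            rw [h6]
        _ = (c * ρ' * c⁻¹ * ρ'⁻¹) * w := by group)⟩
  refine ⟨m, m.2, fun h => hm1 (Subtype.ext h), ?_⟩
  have h7 := congrArg (fun y : ↥W => (y : X)) hm
  simp only [Cfsg.Agent.H87.normConj_apply_coe] at h7
  calc x * (m : X) = x * m * x⁻¹ * x := by group
    _ = m * x := by rw [h7]

end Cfsg.Agent.H24.Fz
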