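import Mathlib

set_option autoImplicit false

/-!
# An envelope of `GL_n(L)` with `p`-divisible, `p`-torsion-free centre (S2399-MAT)

`E' := GL_n(AlgebraicClosure L)`: its centre is the group of invertible scalar matrices, in which
`p`-th roots exist (algebraically closed) and are unique (characteristic `p`).
-/

namespace Cfsg.Agent.H24.GLEnv

open Matrix

universe u

/-- A matrix over `L` whose image over an extension is a scalar matrix is central in `GL`. -/
theorem mem_center_of_map_mem_center {L M : Type*} [Field L] [Field M] (f : L →+* M) (n : ℕ)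
    (g : GL (Fin n) L)
    (h : Matrix.GeneralLinearGroup.map f g ∈ Subgroup.center (GL (Fin n) M)) :
    g ∈ Subgroup.center (GL (Fin n) L) := by
  rcases Nat.eq_zero_or_pos n with hn | hn
  · subst hn
    have : Subsingleton (GL (Fin 0) L) := ⟨fun a b => Units.ext (Subsingleton.elim _ _)⟩
    rw [Subsingleton.elim g 1]
    exact Subgroup.one_mem _
  · rw [Matrix.GeneralLinearGroup.mem_center_iff_val_mem_range_scalar] at h ⊢
    obtain ⟨c, hc⟩ := h
    have hinj : Function.Injective f := f.injective
    refine ⟨g.val ⟨0, hn⟩ ⟨0, hn⟩, ?_⟩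
    ext i j
    have hij := congrFun (congrFun hc i) j
    have h00 := congrFun (congrFun hc ⟨0, hn⟩) ⟨0, hn⟩
    have e1 : (Matrix.GeneralLinearGroup.map f g).val i j = f (g.val i j) := rfl
    have e2 : (Matrix.GeneralLinearGroup.map f g).val ⟨0, hn⟩ ⟨0, hn⟩
        = f (g.val ⟨0, hn⟩ ⟨0, hn⟩) := rfl
    rw [e1] at hij
    rw [e2] at h00
    simp only [Matrix.scalar_apply, Matrix.diagonal_apply] at hij h00 ⊢
    simp only [if_true] at h00
    by_cases hd : i = j
    · subst hd
      simp only [if_true] at hij ⊢
      exact hinj (by rw [← h00, ← hij])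
    · simp only [hd, if_false] at hij ⊢
      exact (hinj (by rw [← hij, map_zero])).symm

theorem exists_gl_envelope {L : Type u} [Field L] (p : ℕ) [Fact p.Prime] [CharP L p] (n : ℕ) :
    ∃ (E' : Type u) (_ : Group E') (ι : GL (Fin n) L →* E'), Function.Injective ι ∧
      (∀ g : GL (Fin n) L, ι g ∈ Subgroup.center E' ↔ g ∈ Subgroup.center (GL (Fin n) L)) ∧
      (∀ a ∈ Subgroup.center E', ∃ b ∈ Subgroup.center E', b ^ p = a) ∧
      (∀ a ∈ Subgroup.center E', a ^ p = 1 → a = 1) := by
  have hp : p.Prime := Fact.out
  have hcharM : CharP (AlgebraicClosure L) p :=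
    charP_of_injective_algebraMap (algebraMap L (AlgebraicClosure L)).injective p
  refine ⟨GL (Fin n) (AlgebraicClosure L), inferInstance,
    Matrix.GeneralLinearGroup.map (algebraMap L (AlgebraicClosure L)), ?_, ?_, ?_, ?_⟩
  · intro g h hgh
    apply Units.ext
    ext i j
    have := congrArg (fun x : GL (Fin n) (AlgebraicClosure L) => x.val i j) hgh
    exact (algebraMap L (AlgebraicClosure L)).injective this
  · intro g
    refine ⟨fun h => mem_center_of_map_mem_center _ n g h, fun h => ?_⟩
    exact Matrix.GeneralLinearGroup.map_center_le (algebraMap L (AlgebraicClosure L)) h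
  · intro a ha
    rw [Matrix.GeneralLinearGroup.center_eq_range_scalar] at ha
    obtain ⟨c, rfl⟩ := ha
    obtain ⟨z, hz⟩ := IsAlgClosed.exists_pow_nat_eq (c : AlgebraicClosure L) hp.pos
    have hz0 : z ≠ 0 := by
      rintro rfl
      rw [zero_pow hp.ne_zero] at hz
      exact c.ne_zero hz.symm
    refine ⟨Matrix.GeneralLinearGroup.scalar (Fin n) (Units.mk0 z hz0), ?_, ?_⟩
    · rw [Matrix.GeneralLinearGroup.center_eq_range_scalar]
      exact ⟨_, rfl⟩
    · rw [← map_pow]
      congr 1
      apply Units.ext
      simpa using hz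
  · intro a ha hap
    rcases Nat.eq_zero_or_pos n with hn | hn
    · subst hn
      have : Subsingleton (GL (Fin 0) (AlgebraicClosure L)) :=
        ⟨fun a b => Units.ext (Subsingleton.elim _ _)⟩
      exact Subsingleton.elim _ _
    · rw [Matrix.GeneralLinearGroup.center_eq_range_scalar] at ha
      obtain ⟨c, rfl⟩ := ha
      rw [← map_pow] at hap
      have h00 := congrArg (fun x : GL (Fin n) (AlgebraicClosure L) => x.val ⟨0, hn⟩ ⟨0, hn⟩) hap
      simp only [Matrix.GeneralLinearGroup.coe_scalar, Matrix.scalar_apply,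
        Matrix.diagonal_apply_eq, Units.val_pow_eq_pow_val, Units.val_one, Matrix.one_apply_eq]
        at h00
      have hc1 : (c : AlgebraicClosure L) = 1 := by
        have h1 : ((c : AlgebraicClosure L) - 1) ^ p = 0 := by
          rw [sub_pow_char, h00, one_pow, sub_self]
        exact sub_eq_zero.mp (pow_eq_zero_iff hp.ne_zero |>.mp h1)
      have : c = 1 := Units.ext hc1
      rw [this, map_one]

end Cfsg.Agent.H24.GLEnv
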