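import Mathlib
import Cfsg.Agent.H48.GUCDefs
import Cfsg.Agent.S0277

set_option autoImplicit false

/-!
# GUC-GUORD (S2646 team project of helper48): the order of `GU_a(q)` as an integer
-/

namespace Cfsg.Agent.H24.GUC

open Finset Cfsg.Agent.H48.GUC

universe u

theorem guord : GUOrdStmt.{u} := by
  intro K _ _ q hK a
  have hq : 1 ≤ q := by
    rcases Nat.eq_zero_or_pos q with h0 | h0
    · exfalso
      rw [h0] at hK
      have h1 : 0 < Fintype.card K := Fintype.card_pos
      rw [hK] at h1
      norm_num at h1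
    · exact h0
  rw [Cfsg.Agent.S0277.result hK a, Nat.cast_mul, Nat.cast_pow, Nat.cast_prod, Finset.prod_range]
  congr 1
  apply Finset.prod_congr rfl
  intro j _
  by_cases hj : Even (j : ℕ)
  · rw [if_pos hj]
    have hodd : Odd ((j : ℕ) + 1) := hj.add_one
    rw [hodd.neg_one_pow]
    push_cast
    ring
  · rw [if_neg hj]
    have heven : Even ((j : ℕ) + 1) := by
      rw [Nat.not_even_iff_odd] at hj
      exact hj.add_one
    rw [heven.neg_one_pow]
    have h1 : 1 ≤ q ^ ((j : ℕ) + 1) := Nat.one_le_pow _ _ hq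
    rw [Nat.cast_sub h1]
    push_cast
    ring

example : Cfsg.Agent.H48.GUC.GUOrdStmt.{u} := guord

end Cfsg.Agent.H24.GUC
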