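import Mathlib
import Cfsg.Agent.H48.GUCDefs

set_option autoImplicit false

/-!
# GUC-ZRFIX (S2646 team project of helper48): the number of `σ`-symmetric functions on the free
parameters
-/

namespace Cfsg.Agent.H24.GUC

open Finset Cfsg.Agent.H61 Cfsg.Agent.H97.Herm Cfsg.Agent.H48.GUC

universe u

/-- For a semilinear involution of the form `h ↦ σ ∘ h ∘ τ` on a function space over a field with
an involutive automorphism `σ ≠ id`, the square of the number of fixed points is the number of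
all functions. -/
theorem card_fix_sq {K : Type u} [Field K] [Fintype K] {X : Type*} [Fintype X]
    (σ : K →+* K) (hσ : ∀ x, σ (σ x) = x) (ω₀ : K) (hω : σ ω₀ ≠ ω₀) (τ : X → X)
    (hτ : ∀ x, τ (τ x) = x) :
    Nat.card {h : X → K // ∀ z, h (τ z) = σ (h z)} *
      Nat.card {h : X → K // ∀ z, h (τ z) = σ (h z)} = Nat.card (X → K) := by
  classical
  rw [← Nat.card_prod]
  apply Nat.card_congr
  have hε : ω₀ - σ ω₀ ≠ 0 := sub_ne_zero.mpr (Ne.symm hω)
  refine Equiv.ofBijective (fun p => fun z => p.1.1 z + ω₀ * p.2.1 z) ⟨?_, ?_⟩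
  · rintro ⟨⟨a, ha⟩, ⟨b, hb⟩⟩ ⟨⟨a', ha'⟩, ⟨b', hb'⟩⟩ h
    have h1 : ∀ z, a z + ω₀ * b z = a' z + ω₀ * b' z := fun z => congrFun h z
    have h2 : ∀ z, a z + σ ω₀ * b z = a' z + σ ω₀ * b' z := by
      intro z
      have h3 := congrArg σ (h1 (τ z))
      rw [map_add, map_add, map_mul, map_mul, ha, hb, ha', hb', hσ, hσ, hσ, hσ] at h3
      exact h3
    have hb_eq : ∀ z, b z = b' z := by
      intro z
      have h3 : (ω₀ - σ ω₀) * (b z - b' z) = 0 := by linear_combination h1 z - h2 z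
      rcases mul_eq_zero.mp h3 with h4 | h4
      · exact absurd h4 hε
      · exact sub_eq_zero.mp h4
    have ha_eq : ∀ z, a z = a' z := by
      intro z
      have h3 := h1 z
      rw [hb_eq z] at h3
      exact add_right_cancel h3
    have e1 : a = a' := funext ha_eq
    have e2 : b = b' := funext hb_eq
    subst e1
    subst e2
    rfl
  · intro w
    have hσε : σ (ω₀ - σ ω₀) = -(ω₀ - σ ω₀) := by
      rw [map_sub, hσ]
      ring
    obtain ⟨b, hbdef⟩ : ∃ b : X → K, b = fun z => (ω₀ - σ ω₀)⁻¹ * (w z - σ (w (τ z))) :=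
      ⟨_, rfl⟩
    have hb : ∀ z, b (τ z) = σ (b z) := by
      intro z
      rw [hbdef]
      show (ω₀ - σ ω₀)⁻¹ * (w (τ z) - σ (w (τ (τ z)))) =
        σ ((ω₀ - σ ω₀)⁻¹ * (w z - σ (w (τ z))))
      rw [hτ, map_mul, map_inv₀, hσε, map_sub, hσ]
      field_simp
      ring
    have ha : ∀ z, w (τ z) - ω₀ * b (τ z) = σ (w z - ω₀ * b z) := by
      intro z
      rw [map_sub, map_mul, ← hb z, hbdef]
      show w (τ z) - ω₀ * ((ω₀ - σ ω₀)⁻¹ * (w (τ z) - σ (w (τ (τ z))))) =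
        σ (w z) - σ ω₀ * ((ω₀ - σ ω₀)⁻¹ * (w (τ z) - σ (w (τ (τ z)))))
      rw [hτ]
      field_simp
      ring
    refine ⟨(⟨fun z => w z - ω₀ * b z, ha⟩, ⟨b, hb⟩), ?_⟩
    funext z
    show w z - ω₀ * b z + ω₀ * b z = w z
    ring

theorem tauZR_tauZR {t : ℕ} (d : Fin t → ℕ) (z : ZR d) : tauZR d (tauZR d z) = z := by
  apply Subtype.ext
  apply Prod.ext
  · rw [JI_ext_iff]
    refine ⟨rfl, ?_⟩
    show (z.1.1.2.val + d z.1.2 - d z.1.1.1) + d z.1.1.1 - d z.1.2 = z.1.1.2.val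
    have h1 := z.2.1
    omega
  · rfl

theorem zrfix : ZRFixStmt.{u} := by
  intro K _ _ q t hK σ hσ ω₀ hω d
  classical
  have h := card_fix_sq σ hσ ω₀ hω (tauZR d) (tauZR_tauZR d)
  have h2 : Nat.card (ZR d → K) = (q ^ Fintype.card (ZR d)) ^ 2 := by
    rw [Nat.card_eq_fintype_card, Fintype.card_fun, hK, ← pow_mul, ← pow_mul, mul_comm]
  rw [h2, ← pow_two] at h
  exact Nat.pow_left_injective (two_ne_zero) h

example : Cfsg.Agent.H48.GUC.ZRFixStmt.{u} := zrfix

end Cfsg.Agent.H24.GUC
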