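import Mathlib
import Cfsg.Agent.H66.GYDefs
import Cfsg.Agent.H66.PLength

set_option autoImplicit false

/-!
# S3798-LIFT (team project of helper66): if `O_p(G / O_{p'}(G))` has index prime to `p` then
`G` has `p`-length at most `1`
-/

namespace Cfsg.Agent.H24.GY

open Cfsg Cfsg.Agent.H66.GY

universe u

theorem lift_holds : LiftStatement.{u} := by
  intro G _ _ p _ hcop
  rw [Cfsg.Agent.H66.pLengthLE_iff_plenRel]
  have hAn : (pPrimeCore p G).Normal := Cfsg.Agent.H14.pPrimeCore_normal p G
  have hQn : (pCore p (G ⧸ pPrimeCore p G)).Normal := Cfsg.Agent.H14.pCore_normal p _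
  have hBn : ((pCore p (G ⧸ pPrimeCore p G)).comap
      (QuotientGroup.mk' (pPrimeCore p G))).Normal := inferInstance
  refine ⟨pPrimeCore p G,
    (pCore p (G ⧸ pPrimeCore p G)).comap (QuotientGroup.mk' (pPrimeCore p G)),
    inferInstance, hAn, bot_le, ?_, ?_, ?_, hBn, inferInstance, le_top, ?_⟩
  · rw [Subgroup.relIndex_bot_left]
    exact Cfsg.Agent.H14.pPrimeCore_coprime p G
  · intro x hx
    rw [Subgroup.mem_comap]
    have h1 : QuotientGroup.mk' (pPrimeCore p G) x = 1 := (QuotientGroup.eq_one_iff x).mpr hx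
    rw [h1]
    exact one_mem _
  · rw [Cfsg.Agent.H66.relIndex_comap_mk']
    exact (IsPGroup.iff_card).mp (Cfsg.Agent.H14.pCore_isPGroup p _)
  · rw [Subgroup.relIndex_top_right,
      Subgroup.index_comap_of_surjective _ (QuotientGroup.mk'_surjective _),
      Subgroup.index_eq_card]
    exact hcop

example : Cfsg.Agent.H66.GY.LiftStatement.{u} := lift_holds

end Cfsg.Agent.H24.GY
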