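import Mathlib
import Cfsg.Agent.H66.GYDefs
import Cfsg.Agent.H3.OmegaAut

set_option autoImplicit false

/-!
# S3798-OMAUT (team project of helper66): a `p'`-element centralizing all elements of order
dividing `p` of a normal `p`-subgroup centralizes it (`p` odd)
-/

namespace Cfsg.Agent.H24.GY

open Cfsg Cfsg.Agent.H66.GY

universe u

theorem omAut_holds : OmAutStatement.{u} := by
  intro G _ _ p _ hp2 P hPn hP k hk hx x hxP
  have hP' : IsPGroup p ↥P := hP
  have hdvd : orderOf (MulAut.conjNormal (H := P) k) ∣ orderOf k :=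
    orderOf_map_dvd (MulAut.conjNormal (H := P)) k
  have hcop : Nat.Coprime (orderOf (MulAut.conjNormal (H := P) k)) p :=
    Nat.Coprime.coprime_dvd_left hdvd hk
  have hfix : ∀ y : ↥P, y ^ p = 1 → (MulAut.conjNormal (H := P) k) y = y := by
    intro y hy
    apply Subtype.ext
    rw [MulAut.conjNormal_apply]
    have hy' : (y : G) ^ p = 1 := by
      have h := congrArg (fun z : ↥P => (z : G)) hy
      simpa using h
    rw [hx (y : G) y.2 hy', mul_inv_cancel_right]
  have h1 := Cfsg.Agent.H3.coprime_aut_trivial_of_omega hp2 hP' (MulAut.conjNormal (H := P) k)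
    hcop hfix
  have h2 : (MulAut.conjNormal (H := P) k) ⟨x, hxP⟩ = ⟨x, hxP⟩ := by
    rw [h1]
    rfl
  have h3 := congrArg (fun z : ↥P => (z : G)) h2
  simp only [MulAut.conjNormal_apply] at h3
  -- `k * x * k⁻¹ = x`
  calc k * x = k * x * k⁻¹ * k := by rw [inv_mul_cancel_right]
    _ = x * k := by rw [h3]

example : Cfsg.Agent.H66.GY.OmAutStatement.{u} := omAut_holds

end Cfsg.Agent.H24.GY
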