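import Mathlib
import Cfsg.Agent.H66.GYDefs
import Cfsg.Agent.H66.HHA
import Cfsg.Agent.H11.Cores

set_option autoImplicit false

/-!
# S3798-RED (team project of helper66): transitivity of `Aut(G)` on the subgroups of order `p`
passes to `G / O_{p'}(G)`
-/

namespace Cfsg.Agent.H24.GY

open Cfsg Cfsg.Agent.H66.GY

universe u

/-- A subgroup of prime order is generated by each of its nontrivial elements. -/
theorem zpowers_eq_of_card_prime {G : Type u} [Group G] [Finite G] (p : ℕ) [Fact p.Prime]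
    (U : Subgroup G) (hU : Nat.card U = p) (u : G) (hu : u ∈ U) (hu1 : u ≠ 1) :
    Subgroup.zpowers u = U ∧ orderOf u = p := by
  have hp : p.Prime := Fact.out
  have hle : Subgroup.zpowers u ≤ U := by
    rw [Subgroup.zpowers_le]
    exact hu
  have hdvd : orderOf u ∣ p := by
    rw [← hU, ← Nat.card_zpowers]
    exact Subgroup.card_dvd_of_le hle
  have ho : orderOf u = p := by
    rcases (Nat.dvd_prime hp).mp hdvd with h | h
    · exact absurd (orderOf_eq_one_iff.mp h) hu1
    · exact h
  refine ⟨?_, ho⟩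
  apply Subgroup.eq_of_le_of_card_ge hle
  rw [hU, Nat.card_zpowers, ho]

/-- Subgroups of order `p` of `G / O_{p'}(G)` lift to subgroups of order `p` of `G`. -/
theorem exists_lift_card_prime (G : Type u) [Group G] [Finite G] (p : ℕ) [Fact p.Prime]
    (Ub : Subgroup (G ⧸ pPrimeCore p G)) (hUb : Nat.card Ub = p) :
    ∃ U : Subgroup G, Nat.card U = p ∧ U.map (QuotientGroup.mk' (pPrimeCore p G)) = Ub := by
  have hp : p.Prime := Fact.out
  have hnt : Nontrivial Ub := by
    rw [← Finite.one_lt_card_iff_nontrivial, hUb]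
    exact hp.one_lt
  obtain ⟨⟨ub, hub⟩, hub1⟩ := exists_ne (1 : Ub)
  have hub1' : ub ≠ 1 := by
    intro h
    apply hub1
    exact Subtype.ext h
  obtain ⟨hzb, hob⟩ := zpowers_eq_of_card_prime p Ub hUb ub hub hub1'
  have hubp : ub ^ p = 1 := by
    have h := pow_orderOf_eq_one ub
    rw [hob] at h
    exact h
  obtain ⟨u, ⟨j, huj⟩, hu⟩ := Cfsg.Agent.H66.exists_pelement_lift
    (QuotientGroup.mk' (pPrimeCore p G)) (QuotientGroup.mk'_surjective _) p ub
    ⟨1, by rw [pow_one]; exact hubp⟩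
  -- `u ^ p ∈ O_{p'}(G)` is a `p`-element of a `p'`-group
  have hupN : u ^ p ∈ pPrimeCore p G := by
    rw [← QuotientGroup.eq_one_iff, ← QuotientGroup.mk'_apply, map_pow, hu]
    exact hubp
  have hup : u ^ p = 1 := by
    have h1 : orderOf (u ^ p) ∣ p ^ j := by
      apply orderOf_dvd_of_pow_eq_one
      rw [← pow_mul, mul_comm, pow_mul, huj, one_pow]
    have h2 : orderOf (u ^ p) ∣ Nat.card (pPrimeCore p G) := by
      have h3 : orderOf (⟨u ^ p, hupN⟩ : pPrimeCore p G) ∣ Nat.card (pPrimeCore p G) :=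
        orderOf_dvd_natCard _
      rw [← Subgroup.orderOf_coe] at h3
      exact h3
    have hcop : (Nat.card (pPrimeCore p G)).Coprime (p ^ j) :=
      Nat.Coprime.pow_right j (Cfsg.Agent.H14.pPrimeCore_coprime p G)
    have h4 : orderOf (u ^ p) = 1 := Nat.eq_one_of_dvd_coprimes hcop h2 h1
    exact orderOf_eq_one_iff.mp h4
  have hu1 : u ≠ 1 := by
    intro h
    apply hub1'
    rw [← hu, h, map_one]
  have hou : orderOf u = p := by
    rcases (Nat.dvd_prime hp).mp (orderOf_dvd_of_pow_eq_one hup) with h | h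
    · exact absurd (orderOf_eq_one_iff.mp h) hu1
    · exact h
  refine ⟨Subgroup.zpowers u, ?_, ?_⟩
  · rw [Nat.card_zpowers, hou]
  · rw [MonoidHom.map_zpowers, hu, hzb]

theorem red_holds : RedStatement.{u} := by
  intro G _ _ p _ hT Ub Vb hUb hVb
  obtain ⟨U, hU, rfl⟩ := exists_lift_card_prime G p Ub hUb
  obtain ⟨V, hV, rfl⟩ := exists_lift_card_prime G p Vb hVb
  obtain ⟨a, ha⟩ := hT U V hU hV
  have hchar : (pPrimeCore p G).Characteristic := Cfsg.Agent.H11.pPrimeCore_characteristic p
  have hmap : (pPrimeCore p G).map a.toMonoidHom = pPrimeCore p G :=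
    Subgroup.characteristic_iff_map_eq.mp hchar a
  refine ⟨QuotientGroup.congr (pPrimeCore p G) (pPrimeCore p G) a hmap, ?_⟩
  rw [← ha, Subgroup.map_map, Subgroup.map_map]
  congr 1

example : Cfsg.Agent.H66.GY.RedStatement.{u} := red_holds

end Cfsg.Agent.H24.GY
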