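import Mathlib

/-!
# A Hall–Higman type lemma for abelian `p'`-groups

Let `R` be a ring of characteristic `p` (a `ZMod p`-algebra), `ρ : Z →* R` a representation,
`h ∈ Z` with `h ^ p = 1` and `(ρ h - 1) ^ (p - 1) = 0`.

* `hh_abstract`: if `B` is a finite `p'`-subgroup normalized by `h` with `C_B(h) = 1`, then `ρ`
  is trivial on `B`.
* `centralizes_of_pow_zero`: if `K` is a normal abelian `p'`-subgroup on which `ρ` is faithful,
  then `h` centralizes `K`.
-/

set_option autoImplicit false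

namespace Cfsg.Agent.H24.HH

open Polynomial

variable {p : ℕ} [Fact p.Prime]

/-- `∑_{j<p} X^j = (X-1)^(p-1)` over `ZMod p`. -/
theorem poly_geom :
    (∑ j ∈ Finset.range p, (X : (ZMod p)[X]) ^ j) = (X - 1) ^ (p - 1) := by
  have hp : p.Prime := Fact.out
  have h1 : ((X : (ZMod p)[X]) - 1) * ∑ j ∈ Finset.range p, (X : (ZMod p)[X]) ^ j = X ^ p - 1 :=
    mul_geom_sum X p
  have h2 : ((X : (ZMod p)[X]) - 1) ^ p = X ^ p - 1 := by
    rw [sub_pow_char, one_pow]
  have h3 : ((X : (ZMod p)[X]) - 1) * (X - 1) ^ (p - 1) = X ^ p - 1 := by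
    rw [← pow_succ', Nat.sub_add_cancel hp.one_le, h2]
  have h4 : (X : (ZMod p)[X]) - 1 ≠ 0 := by
    have := X_sub_C_ne_zero (1 : ZMod p)
    simpa using this
  exact mul_left_cancel₀ h4 (h1.trans h3.symm)

variable {R : Type*} [Ring R] [Algebra (ZMod p) R]

theorem geom_eq (θ : R) : (∑ j ∈ Finset.range p, θ ^ j) = (θ - 1) ^ (p - 1) := by
  have := congrArg (Polynomial.aeval θ) (poly_geom (p := p))
  simpa using this

theorem sub_one_pow_char_pow (θ : R) (n : ℕ) : θ ^ (p ^ n) - 1 = (θ - 1) ^ (p ^ n) := by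
  have h : ((X : (ZMod p)[X])) ^ (p ^ n) - 1 = (X - 1) ^ (p ^ n) := by
    rw [sub_pow_char_pow, one_pow]
  have := congrArg (Polynomial.aeval θ) h
  simpa using this

theorem natCast_isUnit {n : ℕ} (hn : n.Coprime p) : IsUnit (n : R) := by
  have h1 : IsUnit (n : ZMod p) := (ZMod.isUnit_iff_coprime n p).mpr hn
  have h2 := h1.map (algebraMap (ZMod p) R)
  rwa [map_natCast] at h2

theorem hh_abstract {Z : Type*} [Group Z] (ρ : Z →* R) (h : Z) (hhp : h ^ p = 1)
    (hq : (ρ h - 1) ^ (p - 1) = 0) (B : Subgroup Z) [Finite B]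
    (hBh : ∀ b ∈ B, h * b * h⁻¹ ∈ B) (hBc : (Nat.card B).Coprime p)
    (hfix : ∀ b ∈ B, h * b * h⁻¹ = b → b = 1) : ∀ a ∈ B, ρ a = 1 := by
  classical
  have hp : p.Prime := Fact.out
  have := Fintype.ofFinite B
  have hgeom : ∑ j ∈ Finset.range p, ρ h ^ j = 0 := by rw [geom_eq, hq]
  have hconj : ∀ b : Z,
      ∑ j ∈ Finset.range p, ρ (b * h ^ j * b⁻¹ * (h ^ j)⁻¹) * ρ h ^ j = 0 := by
    intro b
    have h1 : ∑ j ∈ Finset.range p, ρ (b * h ^ j * b⁻¹ * (h ^ j)⁻¹) * ρ h ^ j =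
        ρ b * (∑ j ∈ Finset.range p, ρ h ^ j) * ρ (b⁻¹) := by
      rw [Finset.mul_sum, Finset.sum_mul]
      refine Finset.sum_congr rfl fun j _ => ?_
      rw [← map_pow, ← map_mul, ← map_mul, ← map_mul]
      congr 1
      group
    rw [h1, hgeom, mul_zero, zero_mul]
  have hpow_fix : ∀ j, 0 < j → j < p → ∀ b ∈ B, h ^ j * b * (h ^ j)⁻¹ = b → b = 1 := by
    intro j hj0 hjp b hb hbj
    have hcop : Nat.Coprime j p := (Nat.coprime_of_lt_prime hj0.ne' hjp hp).symm
    obtain ⟨i, -, hi⟩ := Nat.exists_mul_mod_eq_one_of_coprime hcop hp.one_lt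
    have hc : Commute (h ^ j) b := by
      have : h ^ j * b = b * h ^ j := by
        calc h ^ j * b = (h ^ j * b * (h ^ j)⁻¹) * h ^ j := by group
          _ = b * h ^ j := by rw [hbj]
      exact this
    have hc2 : Commute ((h ^ j) ^ i) b := hc.pow_left i
    have hh : (h ^ j) ^ i = h := by
      rw [← pow_mul, pow_eq_pow_mod (j * i) hhp, hi, pow_one]
    rw [hh] at hc2
    apply hfix b hb
    calc h * b * h⁻¹ = b * h * h⁻¹ := by rw [hc2.eq]
      _ = b := by group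
  have hpowmem : ∀ (j : ℕ) (b : Z), b ∈ B → h ^ j * b * (h ^ j)⁻¹ ∈ B := by
    intro j
    induction j with
    | zero => intro b hb; simpa using hb
    | succ j ih =>
      intro b hb
      have := hBh _ (ih b hb)
      have h2 : h ^ (j + 1) * b * (h ^ (j + 1))⁻¹ = h * (h ^ j * b * (h ^ j)⁻¹) * h⁻¹ := by
        rw [pow_succ']; group
      rw [h2]; exact this
  have hmem : ∀ (j : ℕ) (b : B), (b : Z) * h ^ j * (b : Z)⁻¹ * (h ^ j)⁻¹ ∈ B := by
    intro j b
    have h1 : (b : Z) * h ^ j * (b : Z)⁻¹ * (h ^ j)⁻¹ = (b : Z) * (h ^ j * (b : Z)⁻¹ * (h ^ j)⁻¹) := by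
      group
    rw [h1]
    exact B.mul_mem b.2 (hpowmem j _ (B.inv_mem b.2))
  let φ : ℕ → B → B := fun j b => ⟨(b : Z) * h ^ j * (b : Z)⁻¹ * (h ^ j)⁻¹, hmem j b⟩
  have hφ : ∀ j, 0 < j → j < p → Function.Bijective (φ j) := by
    intro j hj0 hjp
    apply Finite.injective_iff_bijective.mp
    intro b b' hbb
    have h1 : (b : Z) * h ^ j * (b : Z)⁻¹ * (h ^ j)⁻¹ = (b' : Z) * h ^ j * (b' : Z)⁻¹ * (h ^ j)⁻¹ :=
      congrArg Subtype.val hbb
    have h2 : h ^ j * ((b' : Z)⁻¹ * b) * (h ^ j)⁻¹ = (b' : Z)⁻¹ * b := by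
      have h3 : (b : Z) * h ^ j * (b : Z)⁻¹ = (b' : Z) * h ^ j * (b' : Z)⁻¹ :=
        mul_right_cancel h1
      calc h ^ j * ((b' : Z)⁻¹ * b) * (h ^ j)⁻¹
          = (b' : Z)⁻¹ * ((b' : Z) * h ^ j * (b' : Z)⁻¹) * b * (h ^ j)⁻¹ := by group
        _ = (b' : Z)⁻¹ * ((b : Z) * h ^ j * (b : Z)⁻¹) * b * (h ^ j)⁻¹ := by rw [h3]
        _ = (b' : Z)⁻¹ * b := by group
    have h4 := hpow_fix j hj0 hjp _ (B.mul_mem (B.inv_mem b'.2) b.2) h2
    apply Subtype.ext
    exact (inv_mul_eq_one.mp h4).symm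
  set s : R := ∑ b : B, ρ (b : Z) with hs
  have hsum : ∀ j, 0 < j → j < p → ∑ b : B, ρ ((φ j b : B) : Z) = s := fun j h1 h2 =>
    (Equiv.ofBijective _ (hφ j h1 h2)).sum_comp (fun b : B => ρ (b : Z))
  have htot : (Nat.card B : R) + s * ∑ j ∈ Finset.Ico 1 p, ρ h ^ j = 0 := by
    have h1 : ∑ b : B, ∑ j ∈ Finset.range p, ρ ((φ j b : B) : Z) * ρ h ^ j = 0 :=
      Finset.sum_eq_zero fun b _ => hconj b
    rw [Finset.sum_comm] at h1
    rw [Finset.range_eq_Ico, Finset.sum_eq_sum_Ico_succ_bot hp.pos] at h1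
    have h2 : ∑ b : B, ρ ((φ 0 b : B) : Z) * ρ h ^ 0 = (Nat.card B : R) := by
      have : ∀ b : B, ρ ((φ 0 b : B) : Z) * ρ h ^ 0 = 1 := by
        intro b
        simp [φ]
      rw [Finset.sum_congr rfl fun b _ => this b]
      simp [Nat.card_eq_fintype_card]
    have h3 : ∑ j ∈ Finset.Ico (0 + 1) p, ∑ b : B, ρ ((φ j b : B) : Z) * ρ h ^ j =
        s * ∑ j ∈ Finset.Ico 1 p, ρ h ^ j := by
      rw [Finset.mul_sum]
      refine Finset.sum_congr rfl fun j hj => ?_
      rw [Finset.mem_Ico] at hj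
      rw [← Finset.sum_mul, hsum j (by omega) hj.2]
    rw [h2, h3] at h1
    exact h1
  intro a ha
  have hsa : ρ a * s = s := by
    rw [hs, Finset.mul_sum]
    have h1 : ∀ b : B, ρ a * ρ (b : Z) = ρ (((⟨a, ha⟩ : B) * b : B) : Z) := by
      intro b
      rw [Subgroup.coe_mul, map_mul]
    rw [Finset.sum_congr rfl fun b _ => h1 b]
    exact Equiv.sum_comp (Equiv.mulLeft (⟨a, ha⟩ : B)) (fun b : B => ρ (b : Z))
  have h5 : (ρ a - 1) * (Nat.card B : R) = 0 := by
    have h6 : (ρ a - 1) * ((Nat.card B : R) + s * ∑ j ∈ Finset.Ico 1 p, ρ h ^ j) = 0 := by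
      rw [htot, mul_zero]
    have h8 : (ρ a - 1) * s = 0 := by rw [sub_mul, hsa, one_mul, sub_self]
    rw [mul_add, ← mul_assoc, h8, zero_mul, add_zero] at h6
    exact h6
  have h7 : ρ a - 1 = 0 := (natCast_isUnit (R := R) hBc).mul_left_eq_zero.mp h5
  exact sub_eq_zero.mp h7

/-- An element `h` with `h ^ p = 1` and `(ρ h - 1) ^ (p - 1) = 0` centralizes every normal
abelian `p'`-subgroup `K` on which `ρ` is faithful. -/
theorem centralizes_of_pow_zero {Z : Type*} [Group Z] [Finite Z] (ρ : Z →* R) (h : Z)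
    (hhp : h ^ p = 1) (hq : (ρ h - 1) ^ (p - 1) = 0) (K : Subgroup Z) [hKn : K.Normal]
    (hKc : (Nat.card K).Coprime p) (hab : ∀ x ∈ K, ∀ y ∈ K, x * y = y * x)
    (hfaith : ∀ k ∈ K, ρ k = 1 → k = 1) : ∀ k ∈ K, h * k * h⁻¹ = k := by
  classical
  have hp : p.Prime := Fact.out
  let _ : CommGroup K :=
    { (inferInstance : Group K) with mul_comm := fun a b => Subtype.ext (hab a a.2 b b.2) }
  let σ : MulAut K := MulAut.conjNormal h
  have hσ : ∀ k : K, ((σ k : K) : Z) = h * k * h⁻¹ := fun k => MulAut.conjNormal_apply h k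
  have hσp : σ ^ p = 1 := by
    show (MulAut.conjNormal h : MulAut K) ^ p = 1
    rw [← map_pow, hhp, map_one]
  let N : K →* K := ∏ j ∈ Finset.range p, ((σ ^ j : MulAut K) : K ≃* K).toMonoidHom
  have hN : ∀ k, N k = ∏ j ∈ Finset.range p, (σ ^ j) k := by
    intro k
    simp [N, MonoidHom.finsetProd_apply]
  have hσN : ∀ k, σ (N k) = N k := by
    intro k
    rw [hN, map_prod]
    have h1 : ∀ j, σ ((σ ^ j) k) = (σ ^ (j + 1)) k := fun j => by rw [pow_succ']; rfl
    simp_rw [h1]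
    have h2 := Finset.prod_range_succ (fun j => (σ ^ j) k) p
    have h3 := Finset.prod_range_succ' (fun j => (σ ^ j) k) p
    rw [h2] at h3
    simp only [hσp, pow_zero] at h3
    exact (mul_right_cancel h3).symm
  have hNσ : ∀ k, N (σ k) = σ (N k) := by
    intro k
    rw [hN, hN, map_prod]
    refine Finset.prod_congr rfl fun j _ => ?_
    have : (σ ^ j) (σ k) = (σ ^ j * σ) k := rfl
    rw [this, ← pow_succ, pow_succ']
    rfl
  have hcop : ∀ k : K, k ^ p = 1 → k = 1 := by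
    intro k hk
    have h1 : orderOf k ∣ p := orderOf_dvd_of_pow_eq_one hk
    have h2 : orderOf k ∣ Nat.card K := orderOf_dvd_natCard k
    exact orderOf_eq_one_iff.mp (Nat.eq_one_of_dvd_coprimes hKc h2 h1)
  set B' : Subgroup Z := N.ker.map K.subtype with hB'
  have hall : ∀ a ∈ B', ρ a = 1 := by
    apply hh_abstract ρ h hhp hq B'
    · rintro _ ⟨k, hk, rfl⟩
      have hk' : N k = 1 := MonoidHom.mem_ker.mp hk
      refine ⟨σ k, MonoidHom.mem_ker.mpr ?_, hσ k⟩
      rw [hNσ, hk', map_one]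
    · have h1 : Nat.card B' ∣ Nat.card K :=
        Subgroup.card_dvd_of_le (Subgroup.map_subtype_le _)
      exact Nat.Coprime.coprime_dvd_left h1 hKc
    · rintro _ ⟨k, hk, rfl⟩ hfix
      have h1 : σ k = k := Subtype.ext ((hσ k).trans hfix)
      have h2 : ∀ j : ℕ, (σ ^ j) k = k := by
        intro j
        induction j with
        | zero => rfl
        | succ j ih =>
          rw [pow_succ]
          show (σ ^ j) (σ k) = k
          rw [h1, ih]
      have h3 : N k = k ^ p := by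
        rw [hN, Finset.prod_congr rfl fun j _ => h2 j]
        simp
      have hk' : N k = 1 := MonoidHom.mem_ker.mp hk
      rw [hk'] at h3
      have := hcop k h3.symm
      rw [this]; rfl
  have hker : N.ker = ⊥ := by
    rw [eq_bot_iff]
    intro k hk
    have h1 : (k : Z) ∈ B' := ⟨k, hk, rfl⟩
    have h2 := hfaith _ k.2 (hall _ h1)
    rw [Subgroup.mem_bot]
    exact Subtype.ext h2
  have hinj : Function.Injective N := (MonoidHom.ker_eq_bot_iff N).mp hker
  have hsurj : Function.Surjective N := Finite.injective_iff_surjective.mp hinj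
  intro k hk
  obtain ⟨k', hk'⟩ := hsurj ⟨k, hk⟩
  have h1 := hσN k'
  rw [hk'] at h1
  have h2 := hσ ⟨k, hk⟩
  rw [h1] at h2
  exact h2.symm

end Cfsg.Agent.H24.HH
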