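import Mathlib
import Cfsg.Agent.H66.HKKDefs

set_option autoImplicit false

/-!
Piece K1 of the Higman–Kreknin–Kostrikin project (S3779): Kreknin's theorem in family form. A
`ZMod n`-indexed bracket-closed family of additive subgroups of a Lie ring with trivial `0`-component has
trivial derived family of index `2 ^ (n - 1) - 1`.
-/

namespace Cfsg.Agent.H24.HKK

open Cfsg.Agent.H66.HKK

variable {L : Type*} [LieRing L] {n : ℕ}

/-- Homogeneous elements of the bracket-closed family generated by `Y`. -/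
inductive GHom (Y : ZMod n → AddSubgroup L) : ZMod n → L → Prop
  | base {i : ZMod n} {y : L} : y ∈ Y i → GHom Y i y
  | zero {i : ZMod n} : GHom Y i 0
  | add {i : ZMod n} {u v : L} : GHom Y i u → GHom Y i v → GHom Y i (u + v)
  | neg {i : ZMod n} {u : L} : GHom Y i u → GHom Y i (-u)
  | bracket {i j : ZMod n} {u v : L} : GHom Y i u → GHom Y j v → GHom Y (i + j) ⁅u, v⁆

/-- The bracket-closed family generated by `Y`. -/
def gen (Y : ZMod n → AddSubgroup L) (i : ZMod n) : AddSubgroup L where
  carrier := {y | GHom Y i y}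
  add_mem' := fun ha hb => GHom.add ha hb
  zero_mem' := GHom.zero
  neg_mem' := fun ha => GHom.neg ha

lemma mem_gen {Y : ZMod n → AddSubgroup L} {i : ZMod n} {y : L} : y ∈ gen Y i ↔ GHom Y i y :=
  Iff.rfl

/-- The part of the family with index (as a natural number) larger than `k`. -/
def res (X : ZMod n → AddSubgroup L) (k : ℕ) : ZMod n → AddSubgroup L :=
  fun j => if k < j.val then X j else ⊥

lemma ghom_cast {Y : ZMod n → AddSubgroup L} {i j : ZMod n} {y : L} (h : i = j)
    (hy : GHom Y i y) : GHom Y j y := h ▸ hy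

lemma ghom_mono {Y Z : ZMod n → AddSubgroup L} (h : ∀ j, ∀ y ∈ Y j, GHom Z j y) :
    ∀ {i : ZMod n} {y : L}, GHom Y i y → GHom Z i y := by
  intro i y hy
  induction hy with
  | base hy => exact h _ _ hy
  | zero => exact GHom.zero
  | add _ _ ih1 ih2 => exact GHom.add ih1 ih2
  | neg _ ih => exact GHom.neg ih
  | bracket _ _ ih1 ih2 => exact GHom.bracket ih1 ih2

lemma ghom_bot {i : ZMod n} {y : L} (hy : GHom (fun _ => (⊥ : AddSubgroup L)) i y) : y = 0 := by
  induction hy with
  | base hy => exact (AddSubgroup.mem_bot).1 hy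
  | zero => rfl
  | add _ _ ih1 ih2 => rw [ih1, ih2, add_zero]
  | neg _ ih => rw [ih, neg_zero]
  | bracket _ _ ih1 ih2 => rw [ih1, ih2, lie_zero]

lemma ghom_le {X : ZMod n → AddSubgroup L} (hX : IsGr X) {Y : ZMod n → AddSubgroup L}
    (hY : ∀ j, Y j ≤ X j) : ∀ {i : ZMod n} {y : L}, GHom Y i y → y ∈ X i := by
  intro i y hy
  induction hy with
  | base hy => exact hY _ hy
  | zero => exact zero_mem _
  | add _ _ ih1 ih2 => exact add_mem ih1 ih2
  | neg _ ih => exact neg_mem ih
  | bracket _ _ ih1 ih2 => exact hX _ _ _ ih1 _ ih2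

lemma res_le (X : ZMod n → AddSubgroup L) (k : ℕ) (j : ZMod n) : res X k j ≤ X j := by
  unfold res
  split_ifs
  · exact le_rfl
  · exact bot_le

lemma fbr_mono {Y Z Y' Z' : ZMod n → AddSubgroup L} (h : ∀ i, Y i ≤ Z i)
    (h' : ∀ i, Y' i ≤ Z' i) (i : ZMod n) : fbr Y Y' i ≤ fbr Z Z' i := by
  apply AddSubgroup.closure_mono
  rintro z ⟨a, b, hab, u, hu, v, hv, rfl⟩
  exact ⟨a, b, hab, u, h a hu, v, h' b hv, rfl⟩

lemma fder_mono {Y Z : ZMod n → AddSubgroup L} (h : ∀ i, Y i ≤ Z i) :
    ∀ (m : ℕ) (i : ZMod n), fder Y m i ≤ fder Z m i := by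
  intro m
  induction m with
  | zero => exact h
  | succ m ih => exact fun i => fbr_mono ih ih i

lemma fder_add (X : ZMod n → AddSubgroup L) (a b : ℕ) :
    fder X (a + b) = fder (fder X a) b := by
  induction b with
  | zero => rfl
  | succ b ih =>
    show fbr (fder X (a + b)) (fder X (a + b)) = fbr (fder (fder X a) b) (fder (fder X a) b)
    rw [ih]

lemma fbr_le_of_isGr {R : ZMod n → AddSubgroup L} (hR : IsGr R) (i : ZMod n) :
    fbr R R i ≤ R i := by
  apply (AddSubgroup.closure_le _).2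
  rintro z ⟨a, b, rfl, u, hu, v, hv, rfl⟩
  exact hR a b u hu v hv

lemma fbr_isGr {R : ZMod n → AddSubgroup L} (hR : IsGr R) : IsGr (fbr R R) := by
  intro i j u hu v hv
  exact AddSubgroup.subset_closure
    ⟨i, j, rfl, u, fbr_le_of_isGr hR i hu, v, fbr_le_of_isGr hR j hv, rfl⟩

lemma lemK [NeZero n] {X : ZMod n → AddSubgroup L} (hX : IsGr X) (h0 : X 0 = ⊥) (k : ℕ) :
    ∀ {b : ZMod n} {v : L}, GHom (res X k) b v → ∀ (a : ZMod n), ∀ x ∈ X a,
      (a + b).val = k + 1 → GHom (res X (k + 1)) (a + b) ⁅x, v⁆ := by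
  intro b v hv
  induction hv with
  | @base b v hv =>
    intro a x hx hab
    unfold res at hv
    split_ifs at hv with hkb
    · by_cases ha : a = 0
      · subst ha
        rw [h0] at hx
        rw [(AddSubgroup.mem_bot).1 hx, zero_lie]
        exact GHom.zero
      · have ha1 : 1 ≤ a.val := by
          rcases Nat.eq_zero_or_pos a.val with h | h
          · exact absurd ((ZMod.val_eq_zero a).1 h) ha
          · exact h
        have han : a.val < n := ZMod.val_lt a
        have hbn : b.val < n := ZMod.val_lt b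
        rw [ZMod.val_add] at hab
        have hge : n ≤ a.val + b.val := by
          by_contra hlt
          rw [Nat.mod_eq_of_lt (not_le.1 hlt)] at hab
          omega
        rw [Nat.mod_eq_sub_mod hge, Nat.mod_eq_of_lt (by omega)] at hab
        have hxa : x ∈ res X (k + 1) a := by
          unfold res; rw [if_pos (by omega)]; exact hx
        have hvb : v ∈ res X (k + 1) b := by
          unfold res; rw [if_pos (by omega)]; exact hv
        exact GHom.bracket (GHom.base hxa) (GHom.base hvb)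
    · rw [(AddSubgroup.mem_bot).1 hv, lie_zero]
      exact GHom.zero
  | zero => intro a x hx hab; rw [lie_zero]; exact GHom.zero
  | add _ _ ih1 ih2 =>
    intro a x hx hab; rw [lie_add]; exact GHom.add (ih1 a x hx hab) (ih2 a x hx hab)
  | neg _ ih => intro a x hx hab; rw [lie_neg]; exact GHom.neg (ih a x hx hab)
  | @bracket c c' w w' hw hw' ih1 ih2 =>
    intro a x hx hab
    have hwX : w ∈ X c := ghom_le hX (res_le X k) hw
    have hw'X : w' ∈ X c' := ghom_le hX (res_le X k) hw'
    rw [leibniz_lie]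
    refine GHom.add ?_ ?_
    · have h1 := ih2 (a + c) ⁅x, w⁆ (hX a c x hx w hwX) (by rw [add_assoc]; exact hab)
      exact ghom_cast (add_assoc a c c') h1
    · have h2 := ih1 (a + c') ⁅x, w'⁆ (hX a c' x hx w' hw'X)
        (by rw [add_assoc, add_comm c' c]; exact hab)
      have h3 : ⁅w, ⁅x, w'⁆⁆ = -⁅⁅x, w'⁆, w⁆ := (lie_skew _ _).symm
      rw [h3]
      exact ghom_cast (by rw [add_assoc, add_comm c' c]) (GHom.neg h2)

theorem kreknin_aux [NeZero n] (k : ℕ) : ∀ (X : ZMod n → AddSubgroup L), IsGr X → X 0 = ⊥ →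
    ∀ i, ∀ y ∈ fder X (2 ^ k - 1) i, GHom (res X k) i y := by
  induction k with
  | zero =>
    intro X hX h0 i y hy
    have hy' : y ∈ X i := hy
    by_cases hi : 0 < i.val
    · exact GHom.base (by unfold res; rw [if_pos hi]; exact hy')
    · have hi0 : i = 0 := (ZMod.val_eq_zero i).1 (by omega)
      subst hi0
      rw [h0] at hy'
      rw [(AddSubgroup.mem_bot).1 hy']
      exact GHom.zero
  | succ k ih =>
    intro X hX h0 i y hy
    have hRX : ∀ j, gen (res X k) j ≤ X j := fun j y hy => ghom_le hX (res_le X k) hy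
    have hRgr : IsGr (gen (res X k)) := fun i j u hu v hv => GHom.bracket hu hv
    have hR0 : gen (res X k) 0 = ⊥ := by rw [eq_bot_iff, ← h0]; exact hRX 0
    have hF4 : ∀ j, fder X (2 ^ k - 1) j ≤ gen (res X k) j := fun j y hy => ih X hX h0 j y hy
    have hpow : 1 ≤ 2 ^ k := Nat.one_le_two_pow
    have e1 : 2 ^ (k + 1) - 1 = (2 ^ k - 1) + (1 + (2 ^ k - 1)) := by rw [pow_succ]; omega
    rw [e1, fder_add] at hy
    have h1 : y ∈ fder (gen (res X k)) (1 + (2 ^ k - 1)) i := fder_mono hF4 _ i hy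
    rw [fder_add] at h1
    have hR'gr : IsGr (fbr (gen (res X k)) (gen (res X k))) := fbr_isGr hRgr
    have hR'0 : fbr (gen (res X k)) (gen (res X k)) 0 = ⊥ := by
      rw [eq_bot_iff, ← hR0]; exact fbr_le_of_isGr hRgr 0
    have h2 := ih (fbr (gen (res X k)) (gen (res X k))) hR'gr hR'0 i y h1
    refine ghom_mono ?_ h2
    intro j z hz
    unfold res at hz
    split_ifs at hz with hkj
    · by_cases hj : k + 1 < j.val
      · refine GHom.base ?_
        unfold res; rw [if_pos hj]
        exact hRX j (fbr_le_of_isGr hRgr j hz)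
      · have hjv : j.val = k + 1 := by omega
        refine AddSubgroup.closure_induction (p := fun z _ => GHom (res X (k + 1)) j z)
          ?_ ?_ ?_ ?_ hz
        · rintro z ⟨a, b, rfl, u, hu, v, hv, rfl⟩
          exact lemK hX h0 k (mem_gen.1 hv) a u (hRX a hu) hjv
        · exact GHom.zero
        · intro u v _ _ hu hv; exact GHom.add hu hv
        · intro u _ hu; exact GHom.neg hu
    · rw [(AddSubgroup.mem_bot).1 hz]; exact GHom.zero

theorem kreknin {L : Type*} [LieRing L] {n : ℕ} [NeZero n] (X : ZMod n → AddSubgroup L)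
    (hX : IsGr X) (h0 : X 0 = ⊥) : ∀ i, fder X (2 ^ (n - 1) - 1) i = ⊥ := by
  intro i
  rw [eq_bot_iff]
  intro y hy
  have h1 := kreknin_aux (n - 1) X hX h0 i y hy
  have h2 : GHom (fun _ => (⊥ : AddSubgroup L)) i y := by
    refine ghom_mono ?_ h1
    intro j z hz
    unfold res at hz
    rw [if_neg (by have := ZMod.val_lt j; omega)] at hz
    rw [(AddSubgroup.mem_bot).1 hz]; exact GHom.zero
  exact (AddSubgroup.mem_bot).2 (ghom_bot h2)

end Cfsg.Agent.H24.HKK
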