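import Mathlib
import Cfsg.Agent.H20.HtDefs

set_option autoImplicit false

/-!
# S3371-DIH (helper20): the cyclic structure of a dihedral 2-group of order `2 n ≥ 16`
-/

namespace Cfsg.Agent.H24.Ht

open Cfsg.Agent.H20.Ht DihedralGroup

universe u

/-- `CycStr` is transported along a group isomorphism. -/
theorem cycStr_comap {G H : Type*} [Group G] [Group H] (e : G ≃* H) (A : Subgroup H) (z : H)
    (k : ℕ) (h : CycStr A z k) : CycStr (A.comap e.toMonoidHom) (e.symm z) k := by
  obtain ⟨hcyc, hidx, hz, hz1, hz2, hcen, hconj, hcard⟩ := h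
  have hmem : ∀ t : G, t ∈ A.comap e.toMonoidHom ↔ e t ∈ A := fun t => Iff.rfl
  refine ⟨?_, ?_, ?_, ?_, ?_, ?_, ?_, ?_⟩
  · have := hcyc
    apply isCyclic_of_injective (e.toMonoidHom.subgroupComap A)
    intro a b hab
    apply Subtype.ext
    apply e.injective
    exact congrArg Subtype.val hab
  · rw [Subgroup.index_comap_of_surjective A e.surjective, hidx]
  · rw [hmem, MulEquiv.apply_symm_apply]
    exact hz
  · intro h1
    apply hz1
    have := congrArg e h1
    rwa [MulEquiv.apply_symm_apply, map_one] at this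
  · rw [← map_pow, hz2, map_one]
  · intro g
    apply e.injective
    rw [map_mul, map_mul, MulEquiv.apply_symm_apply, hcen]
  · intro t ht ht2
    have ht' : e t ∉ A := fun h' => ht ((hmem t).2 h')
    have ht2' : e t ^ 2 = 1 := by rw [← map_pow, ht2, map_one]
    obtain ⟨g, hg⟩ := hconj (e t) ht' ht2'
    refine ⟨e.symm g, ?_⟩
    apply e.injective
    rw [map_mul, map_mul, map_inv, MulEquiv.apply_symm_apply, hg, map_mul,
      MulEquiv.apply_symm_apply]
  · rw [← hcard]
    apply Nat.card_congr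
    refine e.toEquiv.subtypeEquiv ?_
    intro t
    rw [hmem]
    show _ ↔ (e t ∉ A ∧ e t ^ 2 = 1)
    rw [← map_pow]
    constructor
    · rintro ⟨h1, h2⟩
      exact ⟨h1, by rw [h2, map_one]⟩
    · rintro ⟨h1, h2⟩
      refine ⟨h1, ?_⟩
      apply e.injective
      rw [h2, map_one]

/-- the cyclic structure of the dihedral group of order `2 n`, `4 ∣ n`, `n ≠ 0` -/
theorem cycStr_dihedral (n : ℕ) (hn0 : n ≠ 0) (h4 : 4 ∣ n) :
    CycStr (Subgroup.zpowers (r 1 : DihedralGroup n)) (r ((n / 2 : ℕ) : ZMod n)) n := by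
  have : NeZero n := ⟨hn0⟩
  obtain ⟨m, rfl⟩ := h4
  have hm0 : m ≠ 0 := by
    rintro rfl
    exact hn0 rfl
  have hhalf : (4 * m) / 2 = 2 * m := by omega
  rw [hhalf]
  have hzz : ((2 * m : ℕ) : ZMod (4 * m)) + ((2 * m : ℕ) : ZMod (4 * m)) = 0 := by
    rw [← Nat.cast_add, show 2 * m + 2 * m = 4 * m by ring, ZMod.natCast_self]
  have hneg : -((2 * m : ℕ) : ZMod (4 * m)) = ((2 * m : ℕ) : ZMod (4 * m)) :=
    neg_eq_of_add_eq_zero_left hzz
  have hmm : ((m : ℕ) : ZMod (4 * m)) + ((m : ℕ) : ZMod (4 * m)) = ((2 * m : ℕ) : ZMod (4 * m)) := by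
    rw [← Nat.cast_add, two_mul]
  have hrmem : ∀ i : ZMod (4 * m), (r i : DihedralGroup (4 * m)) ∈
      Subgroup.zpowers (r 1 : DihedralGroup (4 * m)) := by
    intro i
    refine ⟨(i.val : ℤ), ?_⟩
    show (r 1 : DihedralGroup (4 * m)) ^ (i.val : ℤ) = r i
    rw [r_one_zpow]
    congr 1
    rw [Int.cast_natCast, ZMod.natCast_zmod_val]
  have hsrmem : ∀ i : ZMod (4 * m), (sr i : DihedralGroup (4 * m)) ∉
      Subgroup.zpowers (r 1 : DihedralGroup (4 * m)) := by
    rintro i ⟨k, hk⟩
    have hk' : (r 1 : DihedralGroup (4 * m)) ^ k = sr i := hk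
    rw [r_one_zpow] at hk'
    exact absurd hk' (by simp)
  refine ⟨inferInstance, ?_, hrmem _, ?_, ?_, ?_, ?_, ?_⟩
  · have h1 := Subgroup.card_mul_index (Subgroup.zpowers (r 1 : DihedralGroup (4 * m)))
    rw [Nat.card_zpowers, orderOf_r_one, DihedralGroup.nat_card] at h1
    have h2 : 4 * m * (Subgroup.zpowers (r 1 : DihedralGroup (4 * m))).index = 4 * m * 2 := by
      rw [h1]; ring
    exact Nat.eq_of_mul_eq_mul_left (by omega) h2
  · intro h1
    rw [one_def] at h1
    have h2 : ((2 * m : ℕ) : ZMod (4 * m)) = 0 := by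
      injection h1
    rw [ZMod.natCast_eq_zero_iff] at h2
    have := Nat.le_of_dvd (by omega) h2
    omega
  · rw [pow_two, r_mul_r, hzz, r_zero]
  · intro g
    cases g with
    | r i => rw [r_mul_r, r_mul_r, add_comm]
    | sr i => rw [sr_mul_r, r_mul_sr, sub_eq_add_neg, hneg]
  · intro t ht _
    cases t with
    | r i => exact absurd (hrmem i) ht
    | sr i =>
      refine ⟨r ((m : ℕ) : ZMod (4 * m)), ?_⟩
      rw [r_mul_sr, r_mul_sr]
      have hinv : (r ((m : ℕ) : ZMod (4 * m)) : DihedralGroup (4 * m))⁻¹ =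
          r (-((m : ℕ) : ZMod (4 * m))) := by
        apply inv_eq_of_mul_eq_one_left
        rw [r_mul_r, neg_add_cancel, r_zero]
      rw [hinv, sr_mul_r]
      congr 1
      rw [← hmm]
      ring
  · have e : {t : DihedralGroup (4 * m) // t ∉ Subgroup.zpowers (r 1 : DihedralGroup (4 * m)) ∧
        t ^ 2 = 1} ≃ ZMod (4 * m) :=
      { toFun := fun t => match t.1 with
          | r _ => 0
          | sr i => i
        invFun := fun i => ⟨sr i, hsrmem i, by rw [pow_two, sr_mul_self]⟩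
        left_inv := by
          rintro ⟨t, ht, ht2⟩
          cases t with
          | r i => exact absurd (hrmem i) ht
          | sr i => rfl
        right_inv := fun i => rfl }
    rw [Nat.card_congr e, Nat.card_zmod]

theorem dih : StmtDih.{u} := by
  intro G _ _ n hG hn ⟨e⟩
  have hn0 : n ≠ 0 := by omega
  have hcard : Nat.card G = 2 * n := by
    rw [Nat.card_congr e.toEquiv, DihedralGroup.nat_card]
  obtain ⟨k, hk⟩ := hG.exists_card_eq
  rw [hcard] at hk
  have h4 : 4 ∣ n := by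
    have hk3 : 4 ≤ k := by
      by_contra hlt
      push Not at hlt
      have : 2 ^ k ≤ 2 ^ 3 := Nat.pow_le_pow_right (by norm_num) (by omega)
      omega
    obtain ⟨j, rfl⟩ : ∃ j, k = j + 3 := ⟨k - 3, by omega⟩
    have e2 : n = 4 * 2 ^ j := by
      have : 2 * n = 2 * (4 * 2 ^ j) := by rw [hk]; ring
      omega
    exact ⟨2 ^ j, e2⟩
  exact ⟨_, _, cycStr_comap e _ _ n (cycStr_dihedral n hn0 h4)⟩

example : StmtDih.{u} := dih

end Cfsg.Agent.H24.Ht
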