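import Mathlib
import Cfsg.Agent.H20.HtDefs

set_option autoImplicit false

/-!
# S3371-QD (helper20): the cyclic structure of a quasi-dihedral group of order `2 ^ (n + 1)`
-/

namespace Cfsg.Agent.H24.Ht

open Cfsg.Agent.H20.Ht

universe u

theorem qd : StmtQD.{u} := by
  intro G _ _ n hn hcard x y hx hy hyx
  obtain ⟨k, rfl⟩ : ∃ k, n = k + 3 := ⟨n - 3, by omega⟩
  obtain ⟨L, hL⟩ : ∃ L, L = 2 ^ k := ⟨_, rfl⟩
  have hLpos : 1 ≤ L := by rw [hL]; exact Nat.one_le_two_pow
  have e1 : 2 ^ (k + 3) = 8 * L := by rw [hL]; ring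
  have e2 : 2 ^ (k + 3 - 1) = 4 * L := by
    rw [show k + 3 - 1 = k + 2 by omega, hL]; ring
  have e3 : 2 ^ (k + 3 + 1) = 16 * L := by rw [hL]; ring
  rw [e1] at hx
  rw [e2] at hyx ⊢
  rw [e3] at hcard
  have hxN : x ^ (8 * L) = 1 := by rw [← hx]; exact pow_orderOf_eq_one x
  have hyy : y * y = 1 := by rw [← pow_two, ← hy]; exact pow_orderOf_eq_one y
  have hyinv : y⁻¹ = y := inv_eq_of_mul_eq_one_left hyy
  have hconj : ∀ i : ℕ, x ^ i * y = y * x ^ ((4 * L - 1) * i) := by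
    intro i
    have h1 : y * x ^ i * y⁻¹ = x ^ ((4 * L - 1) * i) := by
      rw [← conj_pow, hyx, ← pow_mul]
    rw [← h1, hyinv, ← mul_assoc, ← mul_assoc, hyy, one_mul]
  obtain ⟨z, hz⟩ : ∃ z, z = x ^ (4 * L) := ⟨_, rfl⟩
  have hzz : z * z = 1 := by
    rw [hz, ← pow_add, show 4 * L + 4 * L = 8 * L by ring, hxN]
  have hz1 : z ≠ 1 := by
    intro h1
    rw [hz] at h1
    have h2 := orderOf_dvd_of_pow_eq_one h1
    rw [hx] at h2
    have h3 := Nat.le_of_dvd (by omega) h2
    omega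
  have hzx : ∀ i : ℕ, z * x ^ i = x ^ i * z := by
    intro i
    rw [hz, ← pow_add, ← pow_add, add_comm]
  have hzy : z * y = y * z := by
    rw [hz, hconj (4 * L)]
    congr 1
    have h1 : (4 * L - 1) * (4 * L) = 4 * L + 8 * L * (2 * L - 1) := by
      obtain ⟨j, rfl⟩ : ∃ j, L = j + 1 := ⟨L - 1, by omega⟩
      have h1 : 4 * (j + 1) - 1 = 4 * j + 3 := by omega
      have h2 : 2 * (j + 1) - 1 = 2 * j + 1 := by omega
      rw [h1, h2]
      ring
    rw [h1, pow_add, pow_mul x (8 * L), hxN, one_pow, mul_one]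
  have hA : ∀ a ∈ Subgroup.zpowers x, ∃ i : ℕ, a = x ^ i := by
    intro a ha
    rw [← mem_powers_iff_mem_zpowers] at ha
    obtain ⟨i, hi⟩ := ha
    exact ⟨i, hi.symm⟩
  have hidx : (Subgroup.zpowers x).index = 2 := by
    have h1 := Subgroup.card_mul_index (Subgroup.zpowers x)
    rw [Nat.card_zpowers, hx, hcard] at h1
    have h2 : 8 * L * (Subgroup.zpowers x).index = 8 * L * 2 := by rw [h1]; ring
    exact Nat.eq_of_mul_eq_mul_left (by omega) h2
  have hyA : y ∉ Subgroup.zpowers x := by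
    intro hy'
    obtain ⟨i, hi⟩ := hA y hy'
    have hc : y * x = x * y := by rw [hi, ← pow_succ, ← pow_succ']
    have h1 : x ^ (4 * L - 1) = x := by
      rw [← hyx, hc, mul_assoc, mul_inv_cancel, mul_one]
    have h2 : x ^ (4 * L - 2) = 1 := by
      have h3 : x ^ (4 * L - 1) = x ^ (4 * L - 2) * x := by
        rw [← pow_succ]
        congr 1
        omega
      rw [h3] at h1
      exact mul_right_cancel (h1.trans (one_mul x).symm)
    have h4 := orderOf_dvd_of_pow_eq_one h2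
    rw [hx] at h4
    have h5 := Nat.le_of_dvd (by omega) h4
    omega
  have hout : ∀ t : G, t ∉ Subgroup.zpowers x → ∃ i : ℕ, t = y * x ^ i := by
    intro t ht
    have h1 : y * t ∈ Subgroup.zpowers x := by
      rw [Subgroup.mul_mem_iff_of_index_two hidx]
      exact ⟨fun h => absurd h hyA, fun h => absurd h ht⟩
    obtain ⟨i, hi⟩ := hA _ h1
    exact ⟨i, by rw [← hi, ← mul_assoc, hyy, one_mul]⟩
  have hsq : ∀ i : ℕ, y * x ^ i * (y * x ^ i) = z ^ i := by
    intro i
    calc y * x ^ i * (y * x ^ i) = y * (x ^ i * y) * x ^ i := by simp only [mul_assoc]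
      _ = y * (y * x ^ ((4 * L - 1) * i)) * x ^ i := by rw [hconj i]
      _ = x ^ ((4 * L - 1) * i) * x ^ i := by rw [← mul_assoc, hyy, one_mul]
      _ = z ^ i := by
        rw [← pow_add, hz, ← pow_mul]
        congr 1
        have h1 : 4 * L - 1 + 1 = 4 * L := by omega
        calc (4 * L - 1) * i + i = (4 * L - 1 + 1) * i := by ring
          _ = 4 * L * i := by rw [h1]
  have hcen : ∀ g : G, g * z = z * g := by
    intro g
    by_cases hg : g ∈ Subgroup.zpowers x
    · obtain ⟨i, rfl⟩ := hA g hg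
      exact (hzx i).symm
    · obtain ⟨i, rfl⟩ := hout g hg
      rw [mul_assoc, ← hzx i, ← mul_assoc, ← hzy, mul_assoc]
  have hconjz : ∀ t : G, t ∉ Subgroup.zpowers x → t ^ 2 = 1 →
      ∃ g : G, g * t * g⁻¹ = z * t := by
    intro t ht _
    obtain ⟨i, rfl⟩ := hout t ht
    refine ⟨x ^ (2 * L), ?_⟩
    have hk : x ^ ((4 * L - 1) * (2 * L)) = z * x ^ (2 * L) := by
      rw [hz, ← pow_add]
      have h1 : (4 * L - 1) * (2 * L) = 4 * L + 2 * L + 8 * L * (L - 1) := by
        obtain ⟨j, rfl⟩ : ∃ j, L = j + 1 := ⟨L - 1, by omega⟩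
        have h1 : 4 * (j + 1) - 1 = 4 * j + 3 := by omega
        have h2 : j + 1 - 1 = j := by omega
        rw [h1, h2]
        ring
      rw [h1, pow_add, pow_mul x (8 * L), hxN, one_pow, mul_one]
    have hcomm : x ^ (2 * L) * x ^ i = x ^ i * x ^ (2 * L) := Commute.pow_pow_self x _ _
    calc x ^ (2 * L) * (y * x ^ i) * (x ^ (2 * L))⁻¹
        = (x ^ (2 * L) * y) * x ^ i * (x ^ (2 * L))⁻¹ := by simp only [mul_assoc]
      _ = y * (z * x ^ (2 * L)) * x ^ i * (x ^ (2 * L))⁻¹ := by rw [hconj, hk]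
      _ = y * z * (x ^ (2 * L) * x ^ i) * (x ^ (2 * L))⁻¹ := by simp only [mul_assoc]
      _ = y * z * (x ^ i * x ^ (2 * L)) * (x ^ (2 * L))⁻¹ := by rw [hcomm]
      _ = y * z * x ^ i := by
          rw [mul_assoc (y * z), mul_assoc (x ^ i), mul_inv_cancel, mul_one]
      _ = z * (y * x ^ i) := by rw [← hzy, mul_assoc]
  have hzord : orderOf z = 2 := orderOf_eq_prime (by rw [pow_two]; exact hzz) hz1
  have hB1 : ∀ t : G, t ∉ Subgroup.zpowers x → t ^ 2 = 1 →
      y * t ∈ Subgroup.zpowers (x ^ 2) := by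
    intro t ht ht2
    obtain ⟨i, rfl⟩ := hout t ht
    rw [pow_two, hsq i] at ht2
    have h2 : 2 ∣ i := by
      rw [← hzord]
      exact orderOf_dvd_of_pow_eq_one ht2
    obtain ⟨j, rfl⟩ := h2
    rw [← mul_assoc, hyy, one_mul, pow_mul]
    exact Subgroup.pow_mem _ (Subgroup.mem_zpowers _) j
  have hB2 : ∀ b ∈ Subgroup.zpowers (x ^ 2),
      y * b ∉ Subgroup.zpowers x ∧ (y * b) ^ 2 = 1 := by
    intro b hb
    rw [← mem_powers_iff_mem_zpowers] at hb
    obtain ⟨j, hj⟩ := hb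
    have hb' : b = x ^ (2 * j) := by
      rw [← hj]
      exact (pow_mul x 2 j).symm
    subst hb'
    constructor
    · rw [Subgroup.mul_mem_iff_of_index_two hidx]
      intro h
      exact hyA (h.2 (Subgroup.pow_mem _ (Subgroup.mem_zpowers x) _))
    · rw [pow_two, hsq, pow_mul, pow_two, hzz, one_pow]
  have hcardB : Nat.card (Subgroup.zpowers (x ^ 2)) = 4 * L := by
    rw [Nat.card_zpowers, orderOf_pow_of_dvd (by norm_num) (by rw [hx]; exact ⟨4 * L, by ring⟩),
      hx]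
    omega
  refine ⟨Subgroup.zpowers x, z, inferInstance, hidx, ?_, hz1, by rw [pow_two]; exact hzz, hcen,
    hconjz, ?_⟩
  · rw [hz]
    exact Subgroup.pow_mem _ (Subgroup.mem_zpowers x) _
  · rw [← hcardB]
    apply Nat.card_congr
    exact
      { toFun := fun t => ⟨y * t.1, hB1 t.1 t.2.1 t.2.2⟩
        invFun := fun b => ⟨y * b.1, hB2 b.1 b.2⟩
        left_inv := fun t => Subtype.ext (by
          show y * (y * t.1) = t.1
          rw [← mul_assoc, hyy, one_mul])
        right_inv := fun b => Subtype.ext (by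
          show y * (y * b.1) = b.1
          rw [← mul_assoc, hyy, one_mul]) }

example : StmtQD.{u} := qd

end Cfsg.Agent.H24.Ht
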