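import Cfsg.Agent.H28.JkDefs
import Cfsg.Agent.H61.JkBasic
import Cfsg.Agent.H92.TsNJ
import Cfsg.Agent.H94.TsOV
import Cfsg.Agent.H54.UqO2SN

set_option autoImplicit false

/-!
JK-A (helper24, for helper28: JZ-KILL route 28 of S2951/S2952): for a `Base` configuration,
`L ∈ ℒ(T)`, `O₂(K) ≤ O₂(L)` and `N_G(L) ≤ L`.

`T` is Sylow in `L` and `K` is subnormal in `L` (S2950, via helper61's `base_facts`);
`N_G(J(T)) ≤ M` (helper92's `nj`) and `L ⊄ M` give `L ∈ ℒ(T)` (helper94's `ov`); helper54's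
`o2sn`; `N_G(L) ≤ N_G(O₂(L)) = L` by maximality of `L`.
-/

namespace Cfsg.Agent.H24.Jk

open Cfsg
open Cfsg.Agent.H64.Jz Cfsg.Agent.H28.Jk

universe u

theorem ka : Cfsg.Agent.H28.Jk.StKA.{u} := by
  intro G _ _ S M T K L hB
  obtain ⟨hsub, hsyl⟩ := Cfsg.Agent.H61.Jk.base_facts S M T K L hB
  obtain ⟨hZN, -, -, hMJ, hT, -, hK, hLmax, hKJL⟩ := id hB
  obtain ⟨hchar, -, -⟩ := id hZN
  have hKL : K ≤ L := le_sup_left.trans hKJL
  have hK' : K ∈ jComponentsZero T ∧ ¬ K ≤ M ∧ pCoreOf 2 (K ⊔ T) ≠ ⊥ := hK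
  have hLM : ¬ L ≤ M := fun h => hK'.2.1 (hKL.trans h)
  have hNJ : Subgroup.normalizer (thompsonSubgroupOf 2 T : Set G) ≤ M :=
    Cfsg.Agent.H92.Ts.nj S M hMJ T hT
  have hLov : L ∈ jOvergroups T := Cfsg.Agent.H94.Ts.ov hchar M T L hLmax.1 hLM hsyl hNJ
  refine ⟨hLov, Cfsg.Agent.H54.Uq.o2sn K L hKL hsub, ?_⟩
  have hLov' : IsSylowTwoIn T L ∧ ¬ thompsonSubgroupOf 2 T ≤ pCoreOf 2 L ∧
      Subgroup.centralizer (pCoreOf 2 L : Set G) ≤ pCoreOf 2 L := hLov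
  have hQne : pCoreOf 2 L ≠ ⊥ := by
    intro h
    apply hLov'.2.1
    intro x _
    have hx : x ∈ Subgroup.centralizer (pCoreOf 2 L : Set G) := by
      rw [h, Subgroup.mem_centralizer_iff]
      intro y hy
      have hy1 : y = 1 := Subgroup.mem_bot.mp hy
      rw [hy1, one_mul, mul_one]
    exact hLov'.2.2 hx
  have hQ2 : IsPGroup 2 ↥(pCoreOf 2 L) := Cfsg.Agent.H31.X.H54.isPGroup_pCoreOf L
  have hNloc : IsTwoLocal (Subgroup.normalizer (pCoreOf 2 L : Set G)) :=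
    ⟨pCoreOf 2 L, hQ2, hQne, rfl⟩
  have hLN : L ≤ Subgroup.normalizer (pCoreOf 2 L : Set G) :=
    Cfsg.Agent.H31.X.H54.le_normalizer_pCoreOf L
  have hNeq : Subgroup.normalizer (pCoreOf 2 L : Set G) = L := hLmax.2 _ hNloc hLN
  calc Subgroup.normalizer (L : Set G) ≤ Subgroup.normalizer (pCoreOf 2 L : Set G) :=
        Cfsg.Agent.H31.X.H54.normalizer_le_normalizer_pCoreOf L
    _ = L := hNeq

example : ∀ {G : Type u} [Group G] [Finite G] (S : Sylow 2 G) (M T K L : Subgroup G),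
  Base S M T K L →
  L ∈ jOvergroups T ∧ pCoreOf 2 K ≤ pCoreOf 2 L ∧ Subgroup.normalizer (L : Set G) ≤ L := ka

end Cfsg.Agent.H24.Jk
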