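import Mathlib
import Cfsg.Agent.H52.JwDefs
import Cfsg.Agent.S2951

set_option autoImplicit false

/-!
W-NJ (helper24, for helper52: team project JW = S2953): for a `Base` configuration with `T = S`,
`N_G(J(S)) ≤ N_G(S)`.

S2951 with `T = S` gives `Ω₁Z(S) = Ω₁Z(J(S))` in each of its clauses; an element `n` of
`N_G(J(S))` normalizes `Ω₁Z(J(S)) = Ω₁Z(S)`, so `S^n` centralizes `Ω₁Z(S)` and lies in `N_G(S)`
(hypothesis hZ); a 2-subgroup of `N_G(S)` lies in the Sylow 2-subgroup `S`, so `S^n = S`.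
-/

namespace Cfsg.Agent.H24.Jw

open Cfsg
open Cfsg.Agent.H64.Jz Cfsg.Agent.H52.Jw

universe u

/-- `Ω₁Z(X) ≤ X ∩ C_G(X)`. -/
theorem omegaCenterLe {G : Type u} [Group G] (X : Subgroup G) :
    omegaCenterOf X ≤ X ⊓ Subgroup.centralizer (X : Set G) := by
  unfold omegaCenterOf omegaOne
  rw [Subgroup.closure_le]
  intro x hx
  exact hx.1

/-- `Ω₁Z(X)` is normalized by `N_G(X)`. -/
theorem conjMemOmegaCenter {G : Type u} [Group G] {X : Subgroup G} {g : G}
    (hg : g ∈ Subgroup.normalizer (X : Set G)) {y : G} (hy : y ∈ omegaCenterOf X) :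
    g * y * g⁻¹ ∈ omegaCenterOf X := by
  unfold omegaCenterOf omegaOne at hy ⊢
  induction hy using Subgroup.closure_induction with
  | mem z hz =>
    obtain ⟨hz, hz2⟩ := hz
    apply Subgroup.subset_closure
    obtain ⟨hzX, hzC⟩ := Subgroup.mem_inf.mp hz
    refine ⟨Subgroup.mem_inf.mpr ⟨(Subgroup.mem_normalizer_iff.mp hg z).mp hzX, ?_⟩, ?_⟩
    · rw [Subgroup.mem_centralizer_iff]
      intro h hh
      have h1 : g⁻¹ * h * g ∈ X := by
        apply (Subgroup.mem_normalizer_iff.mp hg _).mpr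
        have e : g * (g⁻¹ * h * g) * g⁻¹ = h := by group
        rw [e]
        exact hh
      have h2 := Subgroup.mem_centralizer_iff.mp hzC _ h1
      calc h * (g * z * g⁻¹) = g * ((g⁻¹ * h * g) * z) * g⁻¹ := by group
        _ = g * (z * (g⁻¹ * h * g)) * g⁻¹ := by rw [h2]
        _ = g * z * g⁻¹ * h := by group
    · show (g * z * g⁻¹) ^ 2 = 1
      have e : (g * z * g⁻¹) ^ 2 = g * z ^ 2 * g⁻¹ := by
        rw [pow_two, pow_two]
        group
      rw [e, hz2]
      group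
  | one =>
    have e : g * 1 * g⁻¹ = 1 := by group
    rw [e]
    exact Subgroup.one_mem _
  | mul a b _ _ ha hb =>
    have e : g * (a * b) * g⁻¹ = (g * a * g⁻¹) * (g * b * g⁻¹) := by group
    rw [e]
    exact Subgroup.mul_mem _ ha hb
  | inv a _ ha =>
    have e : g * a⁻¹ * g⁻¹ = (g * a * g⁻¹)⁻¹ := by group
    rw [e]
    exact Subgroup.inv_mem _ ha

/-- A 2-subgroup of `N_G(S)` lies in the Sylow 2-subgroup `S`. -/
theorem leSylowOfLeNormalizer {G : Type u} [Group G] (S : Sylow 2 G) (P : Subgroup G)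
    (hP : IsPGroup 2 ↥P) (hPN : P ≤ Subgroup.normalizer ((S : Subgroup G) : Set G)) :
    P ≤ (S : Subgroup G) := by
  have hsup : IsPGroup 2 ↥(P ⊔ (S : Subgroup G)) :=
    IsPGroup.to_sup_of_normal_right' hP S.isPGroup' hPN
  have h := S.is_maximal' hsup le_sup_right
  calc P ≤ P ⊔ (S : Subgroup G) := le_sup_left
    _ = (S : Subgroup G) := h

theorem nj : StNJ.{u} := by
  intro G _ _ S M K L hB n hn
  obtain ⟨hZN, hO, hM, hMJ, hT, hTS, hK, hLmax, hKJL⟩ := id hB
  obtain ⟨hchar, hsolv, hz⟩ := id hZN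
  have h51 := (Cfsg.Agent.S2951.result hchar hsolv hz hO S M hM hMJ (S : Subgroup G) hT hTS K hK
    L hLmax hKJL _ _ rfl rfl).2
  have hZeq : omegaCenterOf (S : Subgroup G) =
      omegaCenterOf (thompsonSubgroupOf 2 (S : Subgroup G)) := by
    rcases h51 with h | h | h
    · exact h.1
    · exact h.1
    · exact h.1
  have hn' : n⁻¹ ∈ Subgroup.normalizer (thompsonSubgroupOf 2 (S : Subgroup G) : Set G) :=
    Subgroup.inv_mem _ hn
  -- `S^n` centralizes `Ω₁Z(S)`
  have hPC : (S : Subgroup G).map (MulAut.conj n).toMonoidHom ≤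
      Subgroup.centralizer (omegaCenterOf (S : Subgroup G) : Set G) := by
    rintro _ ⟨s, hs, rfl⟩
    show n * s * n⁻¹ ∈ Subgroup.centralizer (omegaCenterOf (S : Subgroup G) : Set G)
    rw [Subgroup.mem_centralizer_iff]
    intro z hz'
    have hz0 : z ∈ omegaCenterOf (thompsonSubgroupOf 2 (S : Subgroup G)) := by
      rw [← hZeq]; exact hz'
    have hz1 : n⁻¹ * z * n⁻¹⁻¹ ∈ omegaCenterOf (thompsonSubgroupOf 2 (S : Subgroup G)) :=
      conjMemOmegaCenter hn' hz0
    rw [← hZeq] at hz1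
    have hzc : n⁻¹ * z * n⁻¹⁻¹ ∈ Subgroup.centralizer ((S : Subgroup G) : Set G) :=
      (Subgroup.mem_inf.mp (omegaCenterLe _ hz1)).2
    have h2 := Subgroup.mem_centralizer_iff.mp hzc s hs
    calc z * (n * s * n⁻¹) = n * ((n⁻¹ * z * n⁻¹⁻¹) * s) * n⁻¹ := by group
      _ = n * (s * (n⁻¹ * z * n⁻¹⁻¹)) * n⁻¹ := by rw [← h2]
      _ = n * s * n⁻¹ * z := by group
  have hP2 : IsPGroup 2 ↥((S : Subgroup G).map (MulAut.conj n).toMonoidHom) :=
    S.isPGroup'.map _
  have hPS : (S : Subgroup G).map (MulAut.conj n).toMonoidHom ≤ (S : Subgroup G) :=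
    leSylowOfLeNormalizer S _ hP2 (hPC.trans (hz S))
  have hcard : Nat.card ↥((S : Subgroup G).map (MulAut.conj n).toMonoidHom) =
      Nat.card ↥(S : Subgroup G) :=
    Subgroup.card_map_of_injective (MulAut.conj n).injective
  have hPeq : (S : Subgroup G).map (MulAut.conj n).toMonoidHom = (S : Subgroup G) :=
    Subgroup.eq_of_le_of_card_ge hPS (le_of_eq hcard.symm)
  rw [Subgroup.mem_normalizer_iff]
  intro h
  constructor
  · intro hh
    exact hPS ⟨h, hh, rfl⟩
  · intro hh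
    have h3 : n * h * n⁻¹ ∈ (S : Subgroup G).map (MulAut.conj n).toMonoidHom := by
      rw [hPeq]; exact hh
    obtain ⟨s, hs, he⟩ := h3
    have he' : n * s * n⁻¹ = n * h * n⁻¹ := he
    have hsh : s = h := by
      have h4 : n⁻¹ * (n * s * n⁻¹) * n = n⁻¹ * (n * h * n⁻¹) * n := by rw [he']
      calc s = n⁻¹ * (n * s * n⁻¹) * n := by group
        _ = n⁻¹ * (n * h * n⁻¹) * n := h4
        _ = h := by group
    rw [← hsh]; exact hs

example : ∀ {G : Type u} [Group G] [Finite G] (S : Sylow 2 G) (M K L : Subgroup G),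
  Base S M (S : Subgroup G) K L →
  Subgroup.normalizer (thompsonSubgroupOf 2 (S : Subgroup G) : Set G) ≤
    Subgroup.normalizer ((S : Subgroup G) : Set G) := nj

end Cfsg.Agent.H24.Jw
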