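import Mathlib
import Cfsg.Agent.H52.JwDefs
import Cfsg.Agent.S2949
import Cfsg.Agent.S2950
import Cfsg.Agent.Helper55.JzMax

set_option autoImplicit false

/-!
W-REBASE (helper24, for helper52: team project JW = S2953): for a `Base` configuration with
`T = S`, `N_G(S) ≤ L` and a 2-local over `S` outside `L`, the maximal 2-local `L` is a legal base
and has a configuration `(S, K₂, L₂)` with `L₂ ≠ L`.

`N_G(J(S)) ≤ N_G(S) ≤ L` (W-NJ, taken as the hypothesis `hNJ`); `S` straddles `L`, and a Sylow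
2-subgroup of `G` is maximal for (a, |J|, order) among all 2-subgroups (conjugate into `S`;
helper55's `a_conj`, `card_J_conj`, `a_mono`, `J_le_J_of`); S2949 and S2950 with base `L`.
-/

namespace Cfsg.Agent.H24.Jw

open Cfsg
open Cfsg.Agent.H64.Jz Cfsg.Agent.H52.Jw

universe u

/-- A Sylow 2-subgroup of `G` is maximal for (a, |J|, order) among all 2-subgroups of `G`. -/
theorem sylowLexMax {G : Type u} [Group G] [Finite G] (S : Sylow 2 G) (T : Subgroup G)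
    (hT2 : IsPGroup 2 ↥T) :
    maxElemAbelianOrder T ≤ maxElemAbelianOrder (S : Subgroup G) ∧
    (maxElemAbelianOrder T = maxElemAbelianOrder (S : Subgroup G) →
      Nat.card ↥(thompsonSubgroupOf 2 T) ≤ Nat.card ↥(thompsonSubgroupOf 2 (S : Subgroup G)) ∧
      (Nat.card ↥(thompsonSubgroupOf 2 T) = Nat.card ↥(thompsonSubgroupOf 2 (S : Subgroup G)) →
        Nat.card ↥T ≤ Nat.card ↥(S : Subgroup G))) := by
  obtain ⟨g, -, hg⟩ := Cfsg.Agent.Helper55.J48.exists_sylow_conj S ⊤ le_top T hT2 le_top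
  have hT1 : T.map (MulAut.conj g⁻¹).toMonoidHom ≤ (S : Subgroup G) := by
    rintro _ ⟨t, ht, rfl⟩
    have h1 := hg ht
    rw [Sylow.coe_subgroup_smul, Subgroup.mem_pointwise_smul_iff_inv_smul_mem] at h1
    simpa [MulAut.smul_def, MulAut.conj_apply] using h1
  have ha : maxElemAbelianOrder T ≤ maxElemAbelianOrder (S : Subgroup G) := by
    rw [← Cfsg.Agent.Helper55.JzMax.a_conj T g⁻¹]
    exact Cfsg.Agent.Helper55.ThJ.a_mono hT1
  refine ⟨ha, fun hae => ?_⟩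
  have hJ1 : thompsonSubgroupOf 2 (T.map (MulAut.conj g⁻¹).toMonoidHom) ≤
      thompsonSubgroupOf 2 (S : Subgroup G) := by
    apply Cfsg.Agent.Helper55.ThJ.J_le_J_of ((Cfsg.Agent.Helper55.ThJ.J_le _).trans hT1)
    rw [Cfsg.Agent.Helper55.JzMax.a_conj, hae]
  have hJc : Nat.card ↥(thompsonSubgroupOf 2 T) ≤
      Nat.card ↥(thompsonSubgroupOf 2 (S : Subgroup G)) := by
    rw [← Cfsg.Agent.Helper55.JzMax.card_J_conj T g⁻¹]
    exact Subgroup.card_le_of_le hJ1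
  refine ⟨hJc, fun _ => ?_⟩
  rw [← Cfsg.Agent.Helper55.JzMax.card_map_conj T g⁻¹]
  exact Subgroup.card_le_of_le hT1

theorem rebase (hNJ : StNJ.{u}) : StRebase.{u} := by
  intro G _ _ S M K L hB hNS hX
  obtain ⟨X, hXloc, hSX, hXL⟩ := hX
  obtain ⟨hZN, hO, hM, hMJ, hT, hTS, hK, hLmax, hKJL⟩ := id hB
  obtain ⟨hchar, hsolv, hz⟩ := id hZN
  have hS2 : IsPGroup 2 ↥(S : Subgroup G) := S.isPGroup'
  have hSL : (S : Subgroup G) ≤ L := Subgroup.le_normalizer.trans hNS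
  have hJL : Subgroup.normalizer (thompsonSubgroupOf 2 (S : Subgroup G) : Set G) ≤ L :=
    (hNJ S M K L hB).trans hNS
  have hT' : (S : Subgroup G) ∈ straddlingTwoSubgroups M := hT.1
  have hT'' : IsPGroup 2 ↥(S : Subgroup G) ∧ (S : Subgroup G) ≠ ⊥ ∧ (S : Subgroup G) ≤ M ∧
      ∃ L : Subgroup G, IsTwoLocal L ∧ (S : Subgroup G) ≤ L ∧ ¬ L ≤ M := hT'
  have hSne : (S : Subgroup G) ≠ ⊥ := hT''.2.1
  have hstr : (S : Subgroup G) ∈ straddlingTwoSubgroups L :=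
    ⟨hS2, hSne, hSL, X, hXloc, hSX, hXL⟩
  have hmax : (S : Subgroup G) ∈ maxStraddlingTwoSubgroups L := by
    refine ⟨hstr, ?_⟩
    intro T₁ hT₁
    have hT₁' : IsPGroup 2 ↥T₁ ∧ T₁ ≠ ⊥ ∧ T₁ ≤ L ∧
        ∃ L' : Subgroup G, IsTwoLocal L' ∧ T₁ ≤ L' ∧ ¬ L' ≤ L := hT₁
    exact sylowLexMax S T₁ hT₁'.1
  obtain ⟨K₂, hK₂⟩ := Cfsg.Agent.S2949.result hchar hsolv hz hO S L hLmax.1 hJL
    (S : Subgroup G) hmax
  obtain ⟨L₂, hL₂max, hKL₂, -⟩ := Cfsg.Agent.S2950.result hchar hsolv hz hO S L hLmax.1 hJL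
    (S : Subgroup G) hmax K₂ hK₂
  refine ⟨K₂, L₂, ⟨hZN, hO, hLmax.1, hJL, hmax, le_refl _, hK₂, hL₂max, hKL₂⟩, ?_⟩
  intro h
  have hK₂' : K₂ ∈ jComponentsZero (S : Subgroup G) ∧ ¬ K₂ ≤ L ∧
      pCoreOf 2 (K₂ ⊔ (S : Subgroup G)) ≠ ⊥ := hK₂
  apply hK₂'.2.1
  rw [← h]
  exact le_sup_left.trans hKL₂

example (hNJ : StNJ.{u}) : ∀ {G : Type u} [Group G] [Finite G] (S : Sylow 2 G)
    (M K L : Subgroup G), Base S M (S : Subgroup G) K L →
  Subgroup.normalizer ((S : Subgroup G) : Set G) ≤ L →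
  (∃ X : Subgroup G, IsTwoLocal X ∧ (S : Subgroup G) ≤ X ∧ ¬ X ≤ L) →
  ∃ K₂ L₂ : Subgroup G, Base S L (S : Subgroup G) K₂ L₂ ∧ L₂ ≠ L := rebase hNJ

end Cfsg.Agent.H24.Jw
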