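import Cfsg.Agent.H24.JwNJ
import Cfsg.Agent.H24.JwRebase

set_option autoImplicit false

/-!
W-REBASE, hypothesis-free (helper24, for helper52: team project JW = S2953): `rebase` of
`JwRebase.lean` with its hypothesis W-NJ discharged by `nj` of `JwNJ.lean`.
-/

namespace Cfsg.Agent.H24.Jw

open Cfsg
open Cfsg.Agent.H64.Jz Cfsg.Agent.H52.Jw

universe u

theorem rebaseF : StRebase.{u} := rebase nj

example : Cfsg.Agent.H52.Jw.StRebase.{u} := rebaseF
example : Cfsg.Agent.H52.Jw.StNJ.{u} := nj

end Cfsg.Agent.H24.Jw
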