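import Mathlib
import Cfsg.Agent.H52.JxDefs
import Cfsg.Agent.H97.JyPFacts
import Cfsg.Agent.H52.JzKill
import Cfsg.Agent.H64.JzFinal
import Cfsg.Agent.H24.JkA
import Cfsg.Agent.H51.Local

set_option autoImplicit false

/-!
JX P-SIDE (helper24, for helper52: JY-KILL2 of S2953): for a `Base` configuration, with
`D := O₂(K ⊔ T)`: two elements of `T ∖ D` have their product in `D`; an element of `T ∖ D`
inverts `K` modulo `D`; and `K` has an element of order 3 outside `M`.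

`T ≤ N_G(K)` (S2951 + helper61's NORM, through helper52's `JzKill.norm`), `O₂(K) ≤ O₂(L) ≤ T`
(`ka`), then helper97's abstract `pfacts` gives a subgroup `D₁ ≤ T` normalized by `K` and `T`
with these properties; `D₁ ≤ O₂(K ⊔ T)`, which is all that is needed.
-/

namespace Cfsg.Agent.H24.Jx

open Cfsg
open Cfsg.Agent.H64.Jz

universe u

/-- helper52's `StPSide` (post 11203), stated inline. -/
def StPSide : Prop := ∀ {G : Type u} [Group G] [Finite G] (S : Sylow 2 G) (M T K L : Subgroup G),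
  Cfsg.Agent.H64.Jz.Base S M T K L →
  (∀ a ∈ T, ∀ b ∈ T, a ∉ pCoreOf 2 (K ⊔ T) → b ∉ pCoreOf 2 (K ⊔ T) →
    a * b ∈ pCoreOf 2 (K ⊔ T)) ∧
  (∀ x ∈ T, x ∉ pCoreOf 2 (K ⊔ T) → ∀ g ∈ K, x * g * x⁻¹ * g ∈ pCoreOf 2 (K ⊔ T)) ∧
  ∃ k ∈ K, k ^ 3 = 1 ∧ k ∉ M

theorem pSide : StPSide.{u} := by
  intro G _ _ S M T K L hB
  obtain ⟨-, hsyl⟩ := Cfsg.Agent.H61.Jk.base_facts S M T K L hB
  have hTK : T ≤ Subgroup.normalizer (K : Set G) :=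
    Cfsg.Agent.H52.JzKill.norm S M T K L hB (Cfsg.Agent.H64.Jz.stMain S M T K L hB)
  obtain ⟨-, hOL, -⟩ := Cfsg.Agent.H24.Jk.ka S M T K L hB
  obtain ⟨hZN, hO, hM, hMJ, hT, hTS, hK, hLmax, hKJL⟩ := id hB
  have hT' : IsPGroup 2 ↥T ∧ T ≠ ⊥ ∧ T ≤ M ∧
      ∃ L : Subgroup G, IsTwoLocal L ∧ T ≤ L ∧ ¬ L ≤ M := hT.1
  have hK' : K ∈ jComponentsZero T ∧ ¬ K ≤ M ∧ pCoreOf 2 (K ⊔ T) ≠ ⊥ := hK
  have hKc : IsJComponent T K := hK'.1.1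
  obtain ⟨hgen, -, hO3, -⟩ := id hKc
  have hOK : pCoreOf 2 K ≤ K := Subgroup.map_subtype_le _
  have hQT : pCoreOf 2 L ≤ T := Cfsg.Agent.Helper55.J48.pCoreOf_le_of_sylowIn hsyl
  have hOT : pCoreOf 2 K ≤ T := hOL.trans hQT
  have hOnK : K ≤ Subgroup.normalizer (pCoreOf 2 K : Set G) :=
    Cfsg.Agent.H31.X.H54.le_normalizer_pCoreOf K
  have hOnT : T ≤ Subgroup.normalizer (pCoreOf 2 K : Set G) :=
    hTK.trans (Cfsg.Agent.H31.X.H54.normalizer_le_normalizer_pCoreOf K)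
  obtain ⟨D, k, hDT, hOD, hKD, hTD, hidx, hinv, -, -, hkK, hkO, hk3, hKgen, -⟩ :=
    Cfsg.Agent.H97.Jy.pfacts K T (pCoreOf 2 K) hT'.1 hTK hOK hOT hO3 hOnK hOnT hgen
  have hDD : D ≤ pCoreOf 2 (K ⊔ T) :=
    Cfsg.Agent.H51.le_pCoreOf 2 (hDT.trans le_sup_right) (sup_le hKD hTD) (hT'.1.to_le hDT)
  refine ⟨?_, ?_, k, hkK, hk3, ?_⟩
  · intro a ha b hb haD hbD
    exact hDD (hidx a ha b hb (fun h => haD (hDD h)) (fun h => hbD (hDD h)))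
  · intro x hx hxD g hg
    exact hDD (hOD (hinv x hx (fun h => hxD (hDD h)) g hg))
  · intro hkM
    apply hK'.2.1
    intro g hg
    obtain ⟨o, ho, i, rfl⟩ := hKgen g hg
    exact M.mul_mem (hT'.2.2.1 (hOT ho)) (M.pow_mem hkM i)

example : ∀ {G : Type u} [Group G] [Finite G] (S : Sylow 2 G) (M T K L : Subgroup G),
  Cfsg.Agent.H64.Jz.Base S M T K L →
  (∀ a ∈ T, ∀ b ∈ T, a ∉ pCoreOf 2 (K ⊔ T) → b ∉ pCoreOf 2 (K ⊔ T) →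
    a * b ∈ pCoreOf 2 (K ⊔ T)) ∧
  (∀ x ∈ T, x ∉ pCoreOf 2 (K ⊔ T) → ∀ g ∈ K, x * g * x⁻¹ * g ∈ pCoreOf 2 (K ⊔ T)) ∧
  ∃ k ∈ K, k ^ 3 = 1 ∧ k ∉ M := pSide

end Cfsg.Agent.H24.Jx
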