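import Mathlib
import Cfsg.Agent.H52.JxDefs
import Cfsg.Agent.H24.JxPSide
import Cfsg.Agent.H82.JvCaseA
import Cfsg.Agent.H87.JxPF
import Cfsg.Agent.H48.JyV
import Cfsg.Agent.Helper55.ThJ

set_option autoImplicit false

/-!
JX KA (helper24, for helper52: JY-KILL2 of S2953): in the residual configuration the case
`V ≤ Q₁` is impossible (`V = Ω₁Z(O₂(L))`, `Q₁ = O₂(K' ⊔ T')`).

Glue for helper82's abstract count `H82.Jv.caseA`: the `V`-facts are helper48's `vfacts`, the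
facts on `Q₁` are helper87's `pf` and `pSide` of `JxPSide.lean` (index 2, inversion, an element
`k` of order 3 of `K'` outside `L = N_G(V)`); `J(T') ⊄ Q₁` (else `K' = [K', J(T')] ≤ Q₁ ≤ L`)
gives `A ∈ 𝒜(T')` and `a ∈ A ∖ Q₁`.
-/

namespace Cfsg.Agent.H24.Jx

open Cfsg
open Cfsg.Agent.H64.Jz Cfsg.Agent.H64.Jy Cfsg.Agent.H52.Jx

universe u

/-- A subgroup of exponent 2 is elementary abelian. -/
theorem elemAbOfExpTwo {G : Type u} [Group G] (B : Subgroup G) (h : ∀ x ∈ B, x * x = 1) :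
    IsElementaryAbelian 2 B := by
  refine ⟨⟨⟨fun a b => ?_⟩⟩, fun a ha => by rw [pow_two]; exact h a ha⟩
  apply Subtype.ext
  show (a : G) * (b : G) = (b : G) * (a : G)
  have h1 := h _ (B.mul_mem a.2 b.2)
  have h2 := h _ a.2
  have h3 := h _ b.2
  calc (a : G) * b = ((a : G) * b)⁻¹ := eq_inv_of_mul_eq_one_left h1
    _ = (b : G)⁻¹ * (a : G)⁻¹ := mul_inv_rev _ _
    _ = (b : G) * (a : G) := by
      rw [← eq_inv_of_mul_eq_one_left h3, ← eq_inv_of_mul_eq_one_left h2]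

theorem ka : Cfsg.Agent.H52.Jx.StKA.{u} := by
  intro G _ _ S M K L T' K' L' hR hVQ
  obtain ⟨hB, hNS, hB', hne⟩ := id hR
  obtain ⟨hV4, hVe, hNV, -, -, hTI⟩ :=
    Cfsg.Agent.H48.Jy.vfacts S M K L T' K' L' hB hNS hB' hne
  obtain ⟨hQT, -, hPQ⟩ := Cfsg.Agent.H87.Jx.pf S L T' K' L' hB'
  obtain ⟨hidx, hinv, k, hkK, hk3, hkL⟩ := Cfsg.Agent.H24.Jx.pSide S L T' K' L' hB'
  obtain ⟨hZN', hO', hM', hMJ', hT', hTS', hK', hLmax', hKJL'⟩ := id hB'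
  have hK'' : K' ∈ jComponentsZero T' ∧ ¬ K' ≤ L ∧ pCoreOf 2 (K' ⊔ T') ≠ ⊥ := hK'
  have hKc : IsJComponent T' K' := hK''.1.1
  obtain ⟨-, hcomm, -⟩ := id hKc
  have hSL : (S : Subgroup G) ≤ L := Subgroup.le_normalizer.trans hNS
  have hT'L : T' ≤ L := hTS'.trans hSL
  -- `J(T') ⊄ Q₁`
  have hJQ : ¬ thompsonSubgroupOf 2 T' ≤ pCoreOf 2 (K' ⊔ T') := by
    intro hJ
    apply hK''.2.1
    have h1 : ⁅K', thompsonSubgroupOf 2 T'⁆ ≤ pCoreOf 2 (K' ⊔ T') := by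
      rw [Subgroup.commutator_le]
      intro g₁ hg₁ g₂ hg₂
      have hn := hPQ (Subgroup.mem_sup_left hg₁)
      have h2 : g₁ * g₂ * g₁⁻¹ ∈ pCoreOf 2 (K' ⊔ T') :=
        (Subgroup.mem_normalizer_iff.mp hn g₂).mp (hJ hg₂)
      rw [commutatorElement_def]
      exact Subgroup.mul_mem _ h2 (Subgroup.inv_mem _ (hJ hg₂))
    rw [hcomm] at h1
    exact (h1.trans hQT).trans hT'L
  -- `A ∈ 𝒜(T')` with `A ⊄ Q₁`
  obtain ⟨A, hAgen, hAQ⟩ : ∃ A ∈ Cfsg.Agent.Helper55.ThJ.gens T',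
      ¬ A ≤ pCoreOf 2 (K' ⊔ T') := by
    by_contra hcon
    apply hJQ
    rw [Cfsg.Agent.Helper55.ThJ.J_spec]
    apply sSup_le
    intro A hA
    by_contra hAQ
    exact hcon ⟨A, hA, hAQ⟩
  obtain ⟨a, haA, haQ⟩ := SetLike.not_le_iff_exists.mp hAQ
  obtain ⟨hAT, hAel, hAcard⟩ := hAgen
  have haT : a ∈ T' := hAT haA
  refine Cfsg.Agent.H82.Jv.caseA T' (pCoreOf 2 (K' ⊔ T')) (Vof L) A k a hQT hVQ hV4 hVe
    ?_ ?_ ?_ hk3 ?_ hAT ?_ ?_ haA ?_ ?_ ?_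
  · intro g hg
    exact hNV.ge (hTI g hg)
  · exact (hQT.trans hT'L).trans hNV.ge
  · exact hPQ (Subgroup.mem_sup_left hkK)
  · exact fun h => hkL (hNV.le h)
  · intro x hx
    have h := hAel.2 x hx
    rwa [pow_two] at h
  · intro B hBT hBe
    rw [hAcard]
    exact Cfsg.Agent.Helper55.ThJ.card_le_a T' hBT (elemAbOfExpTwo B hBe)
  · exact hNV.ge (hT'L haT)
  · exact hinv a haT haQ k hkK
  · intro t ht
    by_cases htQ : t ∈ pCoreOf 2 (K' ⊔ T')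
    · exact Or.inl htQ
    · exact Or.inr (hidx t (hAT ht) a haT htQ haQ)

example : ∀ {G : Type u} [Group G] [Finite G] (S : Sylow 2 G)
    (M K L T' K' L' : Subgroup G), RCtx2 S M K L T' K' L' →
    Vof L ≤ pCoreOf 2 (K' ⊔ T') → False := ka

end Cfsg.Agent.H24.Jx
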