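import Mathlib
import Cfsg.Agent.H64.JzDefs
import Cfsg.Agent.H51.SyFinal
import Cfsg.Agent.H35.UqSylEx
import Cfsg.Agent.H94.TsOV
import Cfsg.Agent.H25.SxSylJ

set_option autoImplicit false

/-!
JZ-OUT2 (helper24, for helper64: S2951/S2952): `T = S`, `N_G(J(S)) ≤ L`, and a 2-local `X` over
`J(S)` not inside `L` give a `J(S)`-component outside `L`.

A Sylow 2-subgroup `S_X` of `X` over `J(S)` has `J(S_X) = J(S)` (helper25's `sylJ` in `G`), `X` is
in the family of `S_X` (helper94's `ov`, with base `L`), and the generation form of EXIST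
(helper51's `existGen_proved`, with `M' := L`) gives a `J(S_X)`-component of `X` outside `L`.
-/

namespace Cfsg.Agent.H24.Jz

open Cfsg
open Cfsg.Agent.H64.Jz

universe u

theorem out2 : StOut2.{u} := by
  intro G _ _ S M T K L hB hTS hJL hX
  obtain ⟨X, hXloc, hJX, hXL⟩ := hX
  obtain ⟨hZN, -⟩ := id hB
  obtain ⟨hchar, hsolv, hz⟩ := id hZN
  have hS2 : IsPGroup 2 ↥(S : Subgroup G) := S.isPGroup'
  have hJS : thompsonSubgroupOf 2 (S : Subgroup G) ≤ (S : Subgroup G) :=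
    Cfsg.Agent.H14.thompsonSubgroupOf_le 2 _
  have hJ2 : IsPGroup 2 ↥(thompsonSubgroupOf 2 (S : Subgroup G)) := hS2.to_le hJS
  -- a Sylow 2-subgroup of `X` over `J(S)`
  obtain ⟨SX, hJSX, hSXsyl⟩ :=
    Cfsg.Agent.H35.Uq.sylEx (thompsonSubgroupOf 2 (S : Subgroup G)) X hJ2 hJX
  obtain ⟨-, hSX2, -⟩ := id hSXsyl
  have hStop : IsSylowTwoIn (S : Subgroup G) ⊤ := by
    refine ⟨le_top, hS2, ?_⟩
    rw [Subgroup.relIndex_top_right]
    have : Fact (Nat.Prime 2) := ⟨Nat.prime_two⟩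
    have h : ¬ 2 ∣ (S : Subgroup G).index := S.not_dvd_index
    exact Nat.odd_iff.mpr (by omega)
  have hJeq : thompsonSubgroupOf 2 SX = thompsonSubgroupOf 2 (S : Subgroup G) :=
    Cfsg.Agent.H25.Sx.sylJ (S : Subgroup G) ⊤ SX hStop le_top hSX2 hJSX
  have hXov : X ∈ jOvergroups SX :=
    Cfsg.Agent.H94.Ts.ov hchar L SX X hXloc hXL hSXsyl (by rw [hJeq]; exact hJL)
  have hSXne : SX ≠ ⊥ := by
    intro h
    have hX' : IsSylowTwoIn SX X ∧ ¬ thompsonSubgroupOf 2 SX ≤ pCoreOf 2 X ∧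
        Subgroup.centralizer (pCoreOf 2 X : Set G) ≤ pCoreOf 2 X := hXov
    apply hX'.2.1
    have h' : thompsonSubgroupOf 2 SX ≤ SX := Cfsg.Agent.H14.thompsonSubgroupOf_le 2 SX
    exact h'.trans (by rw [h]; exact bot_le)
  obtain ⟨K', hK'c, -, hK'L⟩ := Cfsg.Agent.H51.Sy.existGen_proved hchar hsolv hz SX hSX2 hSXne X
    hXov L (by rw [hJeq]; exact inf_le_left.trans hJL) hXL
  refine ⟨K', ?_, hK'L⟩
  have hJT : thompsonSubgroupOf 2 SX = thompsonSubgroupOf 2 T := by rw [hJeq, hTS]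
  exact ((Cfsg.Agent.H58.Uq.k0_congr T SX hJT).2 K').mp hK'c

example : ∀ {G : Type u} [Group G] [Finite G] (S : Sylow 2 G) (M T K L : Subgroup G),
  Base S M T K L → T = (S : Subgroup G) →
  Subgroup.normalizer (thompsonSubgroupOf 2 (S : Subgroup G) : Set G) ≤ L →
  (∃ X : Subgroup G, IsTwoLocal X ∧ thompsonSubgroupOf 2 (S : Subgroup G) ≤ X ∧ ¬ X ≤ L) →
  ∃ K' : Subgroup G, IsJComponent T K' ∧ ¬ K' ≤ L := out2

end Cfsg.Agent.H24.Jz
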