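import Mathlib

set_option autoImplicit false

/-!
# S1022-CAB: a centralizer of order 76 of a Sylow 19-subgroup of order 19 is abelian
-/

namespace Cfsg.Agent.H24.O459

/-- If `w` commutes with `a` and `b⁻¹ * a * b = a * w` then `b⁻¹ * a ^ k * b = a ^ k * w ^ k`. -/
theorem conj_pow_eq {G : Type*} [Group G] (a b w : G) (hw : a * w = w * a)
    (h : b⁻¹ * a * b = a * w) (k : ℕ) : b⁻¹ * a ^ k * b = a ^ k * w ^ k := by
  have hc : Commute a w := hw
  have : b⁻¹ * a ^ k * b = (b⁻¹ * a * b) ^ k := by
    induction k with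
    | zero => simp
    | succ k ih =>
      rw [pow_succ, pow_succ, ← ih]
      group
  rw [this, h, hc.mul_pow]

theorem centralizer_comm_of_card {G : Type*} [Group G] [Finite G] (P : Sylow 19 G)
    (hP : Nat.card (P : Subgroup G) = 19)
    (hC : Nat.card (Subgroup.centralizer ((P : Subgroup G) : Set G)) = 76) :
    ∀ a ∈ Subgroup.centralizer ((P : Subgroup G) : Set G),
      ∀ b ∈ Subgroup.centralizer ((P : Subgroup G) : Set G), a * b = b * a := by
  have : Fact (Nat.Prime 19) := ⟨by norm_num⟩
  have : Fact (Nat.Prime 2) := ⟨by norm_num⟩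
  -- `P` is abelian, so `P ≤ C`
  have hcyc : IsCyclic (P : Subgroup G) := isCyclic_of_prime_card hP
  have hPcomm : ∀ x ∈ (P : Subgroup G), ∀ y ∈ (P : Subgroup G), y * x = x * y := by
    intro x hx y hy
    have h := (IsCyclic.isMulCommutative (α := (P : Subgroup G))).is_comm.comm ⟨y, hy⟩ ⟨x, hx⟩
    exact congrArg Subtype.val h
  have hPC : (P : Subgroup G) ≤ Subgroup.centralizer ((P : Subgroup G) : Set G) := by
    intro x hx
    rw [Subgroup.mem_centralizer_iff]
    intro y hy
    exact hPcomm x hx y hy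
  -- the quotient `C ⧸ P` has order 4
  have hnorm : ((P : Subgroup G).subgroupOf
      (Subgroup.centralizer ((P : Subgroup G) : Set G))).Normal := by
    constructor
    intro n hn g
    rw [Subgroup.mem_subgroupOf] at hn ⊢
    have hg := g.2
    rw [Subgroup.mem_centralizer_iff] at hg
    have : ((g * n * g⁻¹ : Subgroup.centralizer ((P : Subgroup G) : Set G)) : G) = (n : G) := by
      push_cast
      rw [← hg _ hn]
      group
    rw [this]
    exact hn
  have hcardP' : Nat.card ((P : Subgroup G).subgroupOf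
      (Subgroup.centralizer ((P : Subgroup G) : Set G))) = 19 := by
    rw [Nat.card_congr (Subgroup.subgroupOfEquivOfLe hPC).toEquiv, hP]
  have hquot : Nat.card (Subgroup.centralizer ((P : Subgroup G) : Set G) ⧸
      (P : Subgroup G).subgroupOf (Subgroup.centralizer ((P : Subgroup G) : Set G))) = 2 ^ 2 := by
    have h1 := Subgroup.card_eq_card_quotient_mul_card_subgroup
      ((P : Subgroup G).subgroupOf (Subgroup.centralizer ((P : Subgroup G) : Set G)))
    rw [hC, hcardP'] at h1
    omega
  have hqcomm := IsPGroup.commutative_of_card_eq_prime_sq hquot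
  intro a ha b hb
  -- the commutator `w = a⁻¹ b⁻¹ a b` lies in `P`
  have hwP : a⁻¹ * b⁻¹ * a * b ∈ (P : Subgroup G) := by
    have h := hqcomm (QuotientGroup.mk ⟨a, ha⟩) (QuotientGroup.mk ⟨b, hb⟩)
    rw [← QuotientGroup.mk_mul, ← QuotientGroup.mk_mul, eq_comm, QuotientGroup.eq] at h
    rw [Subgroup.mem_subgroupOf] at h
    have e : (((⟨b, hb⟩ * ⟨a, ha⟩ : Subgroup.centralizer ((P : Subgroup G) : Set G))⁻¹ *
        (⟨a, ha⟩ * ⟨b, hb⟩) : Subgroup.centralizer ((P : Subgroup G) : Set G)) : G)
        = a⁻¹ * b⁻¹ * a * b := by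
      push_cast
      group
    rw [e] at h
    exact h
  -- `a ^ 4 ∈ P`
  have ha4 : a ^ 4 ∈ (P : Subgroup G) := by
    have h : (QuotientGroup.mk ⟨a, ha⟩ : Subgroup.centralizer ((P : Subgroup G) : Set G) ⧸
      (P : Subgroup G).subgroupOf (Subgroup.centralizer ((P : Subgroup G) : Set G))) ^ 4 = 1 := by
      have := pow_card_eq_one' (G := Subgroup.centralizer ((P : Subgroup G) : Set G) ⧸
        (P : Subgroup G).subgroupOf (Subgroup.centralizer ((P : Subgroup G) : Set G)))
        (x := QuotientGroup.mk ⟨a, ha⟩)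
      rw [hquot] at this
      exact this
    rw [← QuotientGroup.mk_pow, QuotientGroup.eq_one_iff, Subgroup.mem_subgroupOf] at h
    exact h
  set w := a⁻¹ * b⁻¹ * a * b with hw
  -- `w` commutes with `a`, `a ^ 4` commutes with `b`
  have hwa : a * w = w * a := by
    rw [Subgroup.mem_centralizer_iff] at ha
    exact (ha w hwP).symm
  have ha4b : a ^ 4 * b = b * a ^ 4 := by
    rw [Subgroup.mem_centralizer_iff] at hb
    exact hb _ ha4
  have hconj : b⁻¹ * a * b = a * w := by
    rw [hw]; group
  have h4 := conj_pow_eq a b w hwa hconj 4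
  have hw4 : w ^ 4 = 1 := by
    have : b⁻¹ * a ^ 4 * b = a ^ 4 := by
      rw [mul_assoc, ha4b, inv_mul_cancel_left]
    rw [this] at h4
    exact left_eq_mul.mp h4
  have hw19 : w ^ 19 = 1 := by
    have := pow_card_eq_one' (G := (P : Subgroup G)) (x := ⟨w, hwP⟩)
    rw [hP] at this
    exact congrArg Subtype.val this
  have hw1 : w = 1 := by
    have h20 : w ^ 20 = 1 := by
      rw [show 20 = 4 * 5 from rfl, pow_mul, hw4, one_pow]
    rw [show 20 = 19 + 1 from rfl, pow_add, hw19, one_mul, pow_one] at h20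
    exact h20
  have : a * b = b * a * w := by rw [hw]; group
  rw [this, hw1, mul_one]

end Cfsg.Agent.H24.O459
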