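import Mathlib

set_option autoImplicit false

/-!
# S1022-E1: Burnside transfer + a fixed Sylow 3-subgroup of the normal 19-complement
-/

namespace Cfsg.Agent.H24.O459

open scoped Pointwise

/-- In a group of order 3, every element is `1`, `u` or `u⁻¹`, for any `u ≠ 1`. -/
theorem eq_one_or_of_card_three {Q : Type*} [Group Q] (h : Nat.card Q = 3) (u v : Q)
    (hu : u ≠ 1) : v = 1 ∨ v = u ∨ v = u⁻¹ := by
  have : Fact (Nat.Prime 3) := ⟨by norm_num⟩
  have hv : v ∈ Subgroup.zpowers u := mem_zpowers_of_prime_card h hu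
  obtain ⟨k, rfl⟩ := hv
  change u ^ k = 1 ∨ u ^ k = u ∨ u ^ k = u⁻¹
  have hu3 : u ^ 3 = 1 := by
    have := pow_card_eq_one' (G := Q) (x := u)
    rwa [h] at this
  have hu3' : u ^ (3 : ℤ) = 1 := by exact_mod_cast hu3
  have hk : u ^ k = u ^ (k % 3) := by
    conv_lhs => rw [← Int.emod_add_mul_ediv k 3]
    rw [zpow_add, zpow_mul, hu3', one_zpow, mul_one]
  have h0 : 0 ≤ k % 3 := Int.emod_nonneg _ (by norm_num)
  have h3 : k % 3 < 3 := Int.emod_lt_of_pos _ (by norm_num)
  rw [hk]
  obtain h | h | h : k % 3 = 0 ∨ k % 3 = 1 ∨ k % 3 = 2 := by omega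
  · left; rw [h, zpow_zero]
  · right; left; rw [h, zpow_one]
  · right; right
    rw [h, eq_inv_iff_mul_eq_one]
    have : u ^ (2 : ℤ) * u = u ^ (3 : ℤ) := by
      rw [show (3 : ℤ) = 2 + 1 from rfl, zpow_add, zpow_one]
    rw [this, hu3']

theorem exists_three_of_transfer {G : Type*} [Group G] [Finite G] (H P : Subgroup G)
    (hPH : P ≤ H) (hP : Nat.card P = 19) (a : ℕ) (hH : Nat.card H = 2 ^ a * 3 * 19)
    (hNC : Subgroup.normalizer (P : Set G) ⊓ H ≤ Subgroup.centralizer (P : Set G)) :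
    ∃ u ∈ H, orderOf u = 3 ∧ u ∈ Subgroup.centralizer (P : Set G) := by
  have : Fact (Nat.Prime 19) := ⟨by norm_num⟩
  have : Fact (Nat.Prime 3) := ⟨by norm_num⟩
  have hP'card : Nat.card (P.subgroupOf H) = 19 := by
    rw [Nat.card_congr (Subgroup.subgroupOfEquivOfLe hPH).toEquiv, hP]
  have hPg : IsPGroup 19 (P.subgroupOf H) :=
    IsPGroup.of_card (n := 1) (by rw [hP'card, pow_one])
  have hidx : (P.subgroupOf H).index = 2 ^ a * 3 := by
    have := Subgroup.card_mul_index (P.subgroupOf H)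
    rw [hP'card, hH] at this
    omega
  have h19 : ¬ 19 ∣ 2 ^ a * 3 := by
    intro h
    rcases (Nat.Prime.dvd_mul (by norm_num)).mp h with h | h
    · have := Nat.Prime.dvd_of_dvd_pow (by norm_num) h
      omega
    · omega
  -- `P` as a Sylow 19-subgroup of `H`
  obtain ⟨PS, hPS⟩ : ∃ PS : Sylow 19 H, (PS : Subgroup H) = P.subgroupOf H :=
    ⟨hPg.toSylow (by rw [hidx]; exact h19), rfl⟩
  have hNC' : Subgroup.normalizer ((PS : Subgroup H) : Set H) ≤
      Subgroup.centralizer ((PS : Subgroup H) : Set H) := by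
    intro h hh
    rw [hPS] at hh ⊢
    have hn : (h : G) ∈ Subgroup.normalizer (P : Set G) := by
      rw [Subgroup.mem_normalizer_iff] at hh ⊢
      intro x
      constructor
      · intro hx
        have := (hh ⟨x, hPH hx⟩).mp (by rw [Subgroup.mem_subgroupOf]; exact hx)
        rw [Subgroup.mem_subgroupOf] at this
        exact this
      · intro hx
        have hxH : x ∈ H := by
          have h1 : (h : G) * x * (h : G)⁻¹ ∈ H := hPH hx
          have : x = (h : G)⁻¹ * ((h : G) * x * (h : G)⁻¹) * (h : G) := by group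
          rw [this]
          exact H.mul_mem (H.mul_mem (H.inv_mem h.2) h1) h.2
        have := (hh ⟨x, hxH⟩).mpr (by rw [Subgroup.mem_subgroupOf]; exact hx)
        rw [Subgroup.mem_subgroupOf] at this
        exact this
    have hc := hNC ⟨hn, h.2⟩
    rw [Subgroup.mem_centralizer_iff] at hc ⊢
    intro y hy
    rw [SetLike.mem_coe, Subgroup.mem_subgroupOf] at hy
    exact Subtype.ext (hc _ hy)
  have hcompl := MonoidHom.ker_transferSylow_isComplement' PS hNC'
  obtain ⟨K, hKdef⟩ : ∃ K : Subgroup H, K = (MonoidHom.transferSylow PS hNC').ker := ⟨_, rfl⟩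
  have hKn : K.Normal := by rw [hKdef]; infer_instance
  rw [← hKdef] at hcompl
  have hKcard : Nat.card K = 2 ^ a * 3 := by
    have h1 := hcompl.card_mul_card
    rw [hPS, hP'card, hH] at h1
    omega
  -- Sylow 3-subgroups of `K` have order 3 and index `2 ^ a`
  have hQcard : ∀ Q : Sylow 3 K,
      Nat.card (Q : Subgroup K) = 3 ∧ (Q : Subgroup K).index = 2 ^ a := by
    intro Q
    have h1 := Subgroup.card_mul_index (Q : Subgroup K)
    rw [hKcard] at h1
    have h2 : ¬ 3 ∣ (Q : Subgroup K).index := Q.not_dvd_index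
    obtain ⟨n, hn⟩ := IsPGroup.iff_card.mp Q.2
    rw [hn] at h1 ⊢
    rcases n with _ | _ | n
    · exfalso
      apply h2
      rw [pow_zero, one_mul] at h1
      rw [h1]
      exact dvd_mul_left 3 _
    · rw [zero_add, pow_one] at h1 ⊢
      exact ⟨rfl, by omega⟩
    · exfalso
      have h9 : 3 ∣ 2 ^ a := by
        have : 3 * 3 ∣ 2 ^ a * 3 := by
          rw [← h1, pow_succ, pow_succ]
          exact ⟨3 ^ n * (Q : Subgroup K).index, by ring⟩
        exact Nat.dvd_of_mul_dvd_mul_right (by norm_num) this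
      have := Nat.Prime.dvd_of_dvd_pow (by norm_num) h9
      omega
  have hnd : ¬ 19 ∣ Nat.card (Sylow 3 K) := by
    intro h
    obtain ⟨Q⟩ : Nonempty (Sylow 3 K) := inferInstance
    have h1 := Q.card_dvd_index
    rw [(hQcard Q).2] at h1
    have := Nat.Prime.dvd_of_dvd_pow (by norm_num) (h.trans h1)
    omega
  -- `P` acts on the Sylow 3-subgroups of `K` and fixes one of them
  let act : MulAction (P.subgroupOf H) (Sylow 3 K) :=
    MulAction.compHom (Sylow 3 K)
      ((MulAut.conjNormal (H := K)).comp (P.subgroupOf H).subtype)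
  obtain ⟨Q, hQ⟩ := hPg.nonempty_fixed_point_of_prime_not_dvd_card (Sylow 3 K) hnd
  have hQ' : ∀ (x : H), x ∈ P.subgroupOf H → ∀ v : K, v ∈ (Q : Subgroup K) →
      MulAut.conjNormal x v ∈ (Q : Subgroup K) := by
    intro x hx v hv
    have h1 : (⟨x, hx⟩ : P.subgroupOf H) • Q = Q := hQ ⟨x, hx⟩
    have h2 : ((MulAut.conjNormal x : MulAut K) • Q : Sylow 3 K) = Q := h1
    have h3 : (MulAut.conjNormal x : MulAut K) • (Q : Subgroup K) = (Q : Subgroup K) := by
      rw [← Sylow.pointwise_smul_def, h2]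
    rw [← h3]
    exact Subgroup.smul_mem_pointwise_smul v _ _ hv
  have hQc := (hQcard Q).1
  obtain ⟨u, hu⟩ : ∃ u : (Q : Subgroup K), u ≠ 1 := by
    have : Nontrivial (Q : Subgroup K) :=
      Finite.one_lt_card_iff_nontrivial.mp (by rw [hQc]; norm_num)
    exact exists_ne 1
  have hfix : ∀ y : H, y ∈ P.subgroupOf H → MulAut.conjNormal y (u : K) = (u : K) := by
    intro y hy
    have hz : y ^ 10 ∈ P.subgroupOf H := Subgroup.pow_mem _ hy 10
    have hzu := hQ' (y ^ 10) hz u u.2
    have hy19 : y ^ 19 = 1 := by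
      have := pow_card_eq_one' (G := P.subgroupOf H) (x := ⟨y, hy⟩)
      rw [hP'card] at this
      exact congrArg Subtype.val this
    have hy2 : y ^ 10 * y ^ 10 = y := by
      rw [← pow_add, show 10 + 10 = 19 + 1 from rfl, pow_add, hy19, one_mul, pow_one]
    rcases eq_one_or_of_card_three hQc u ⟨_, hzu⟩ hu with h | h | h
    · exfalso
      have h' : MulAut.conjNormal (y ^ 10) (u : K) = 1 := congrArg Subtype.val h
      have : (u : K) = 1 :=
        (MulAut.conjNormal (y ^ 10) : MulAut K).injective (h'.trans (map_one _).symm)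
      exact hu (Subtype.ext this)
    · have h' : MulAut.conjNormal (y ^ 10) (u : K) = u := congrArg Subtype.val h
      rw [← hy2, map_mul, MulAut.mul_apply, h', h']
    · have h' : MulAut.conjNormal (y ^ 10) (u : K) = (u : K)⁻¹ := congrArg Subtype.val h
      rw [← hy2, map_mul, MulAut.mul_apply, h', map_inv, h', inv_inv]
  refine ⟨((u : K) : H), ((u : K) : H).2, ?_, ?_⟩
  · have h3 : orderOf u = 3 := by
      have hdvd : orderOf u ∣ 3 := (orderOf_dvd_natCard u).trans (dvd_of_eq hQc)
      rcases (Nat.dvd_prime (by norm_num)).mp hdvd with h | h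
      · exact absurd (orderOf_eq_one_iff.mp h) hu
      · exact h
    have e1 : orderOf (((u : K) : H) : G) = orderOf u := by
      rw [Subgroup.orderOf_coe, Subgroup.orderOf_coe, Subgroup.orderOf_coe]
    rw [e1, h3]
  · rw [Subgroup.mem_centralizer_iff]
    intro y hy
    have h1 := hfix ⟨y, hPH hy⟩ (by rw [Subgroup.mem_subgroupOf]; exact hy)
    have h2 := congrArg (fun k : K => ((k : H) : G)) h1
    simp only [MulAut.conjNormal_apply, Subgroup.coe_mul, Subgroup.coe_inv] at h2
    exact mul_inv_eq_iff_eq_mul.mp h2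

end Cfsg.Agent.H24.O459
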