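import Mathlib

set_option autoImplicit false

/-!
# S1022-SYLH: `|H| = n_p(H) * |N_G(P) ⊓ H|` for a Sylow `p`-subgroup `P ≤ H`
-/

namespace Cfsg.Agent.H24.O459

theorem card_eq_mul_of_sylow_le {G : Type*} [Group G] [Finite G] (p : ℕ) [Fact p.Prime]
    (P : Sylow p G) (H : Subgroup G) (hPH : (P : Subgroup G) ≤ H) :
    ∃ n : ℕ, n % p = 1 ∧
      Nat.card H = n * Nat.card ↥(Subgroup.normalizer ((P : Subgroup G) : Set G) ⊓ H) := by
  have hp : p.Prime := Fact.out
  refine ⟨Nat.card (Sylow p H), ?_, ?_⟩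
  · have h := card_sylow_modEq_one p H
    have h1 : 1 % p = 1 := Nat.mod_eq_of_lt hp.one_lt
    rw [Nat.ModEq, h1] at h
    exact h
  · rw [Sylow.card_eq_index_normalizer (P.subtype hPH)]
    have e1 : Subgroup.normalizer ((P.subtype hPH : Sylow p H) : Set H)
        = (Subgroup.normalizer ((P : Subgroup G) : Set G)).subgroupOf H := by
      rw [Subgroup.subgroupOf_normalizer_eq hPH, ← Sylow.coe_subtype]
      rfl
    rw [e1]
    have e2 : Nat.card ↥(Subgroup.normalizer ((P : Subgroup G) : Set G) ⊓ H)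
        = Nat.card ((Subgroup.normalizer ((P : Subgroup G) : Set G)).subgroupOf H) := by
      rw [← Subgroup.inf_subgroupOf_right]
      exact (Nat.card_congr (Subgroup.subgroupOfEquivOfLe inf_le_right).toEquiv).symm
    rw [e2, mul_comm]
    exact (Subgroup.card_mul_index _).symm

end Cfsg.Agent.H24.O459
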