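import Mathlib
import Cfsg.Agent.H95.OhDefs

/-!
# S5992-EXIST (helper95's team project S5992 / S5993)

An element of order `r` of `Ω_{2d+1}(q)` with the smallest possible fixed space, from the
symplectic existence piece `Spd.StEx` and helper14's transport piece `StOTransport`.
-/

set_option autoImplicit false

namespace Cfsg.Agent.H24.Oh

open Cfsg.Agent.H45 Cfsg.Agent.H42.Spd Cfsg.Agent.H42.Ti Cfsg.Agent.H14.Ot Cfsg.Agent.H95.Oh Module

universe u

/-- `cc F r` is even. -/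
theorem exist_cc_even (F : Type u) [Fintype F] (r : ℕ) : Even (cc F r) := by
  unfold cc
  split_ifs with h
  · exact h
  · exact even_two_mul _

/-- `cc F r` is positive when `r` is a prime different from the characteristic. -/
theorem exist_cc_pos (F : Type u) [Field F] [Fintype F] (p : ℕ) [Fact p.Prime] [CharP F p]
    (r : ℕ) (hr : r.Prime) (hrp : r ≠ p) : 0 < cc F r := by
  have : Fact r.Prime := ⟨hr⟩
  obtain ⟨n, hn⟩ : ∃ n : ℕ, Fintype.card F = p ^ n := by
    obtain ⟨⟨n, _⟩, hn⟩ := FiniteField.card F p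
    exact ⟨n, hn.2⟩
  have hne : ((Fintype.card F : ℕ) : ZMod r) ≠ 0 := by
    rw [hn, Nat.cast_pow]
    apply pow_ne_zero
    intro h0
    rw [ZMod.natCast_eq_zero_iff] at h0
    exact hrp ((Nat.prime_dvd_prime_iff_eq hr (Fact.out : p.Prime)).1 h0)
  have hord : 0 < orderOf ((Fintype.card F : ℕ) : ZMod r) := by
    rw [orderOf_pos_iff, isOfFinOrder_iff_pow_eq_one]
    exact ⟨r - 1, Nat.sub_pos_of_lt hr.one_lt, ZMod.pow_card_sub_one_eq_one hne⟩
  unfold cc
  split_ifs with h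
  · exact hord
  · omega

theorem exist (hTr : StOTransport.{u}) (hEx : Cfsg.Agent.H42.Spd.StEx.{u}) : StExist.{u} := by
  intro F _ _ p _ _ r hr hr2 hrp h2 d hcd
  have hce : Even (cc F r) := exist_cc_even F r
  have hcp : 0 < cc F r := exist_cc_pos F p r hr hrp
  obtain ⟨c, hc⟩ : ∃ c, c = cc F r := ⟨_, rfl⟩
  rw [← hc] at hce hcp hcd ⊢
  obtain ⟨c2, hc2⟩ := hce
  -- `A = (2 d + 1) / c`, `e = c * A / 2`
  obtain ⟨A, hA⟩ : ∃ A, A = (2 * d + 1) / c := ⟨_, rfl⟩
  have hdm : c * A + (2 * d + 1) % c = 2 * d + 1 := by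
    rw [hA]; exact Nat.div_add_mod (2 * d + 1) c
  have hmod_lt : (2 * d + 1) % c < c := Nat.mod_lt _ hcp
  have hA1 : 1 ≤ A := by
    rw [hA]; exact (Nat.one_le_div_iff hcp).2 hcd
  obtain ⟨e, he⟩ : ∃ e, e = c2 * A := ⟨_, rfl⟩
  have h2e : 2 * e = c * A := by rw [he, hc2]; ring
  have hed : e ≤ d := by omega
  have he1 : 1 ≤ e := by
    have : c2 ≤ c2 * A := Nat.le_mul_of_pos_right _ hA1
    omega
  -- the symplectic element
  obtain ⟨y, hyr, hyk⟩ := hEx F p r hr hr2 hrp e A (by rw [← hc]; omega)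
  rw [← hc] at hyk
  have hyker : LinearMap.ker
      (Matrix.toLin' (y : Matrix (Fin e ⊕ Fin e) (Fin e ⊕ Fin e) F) - 1) = ⊥ := by
    apply Submodule.finrank_eq_zero.1
    omega
  -- the orthogonal element
  obtain ⟨x, hxΩ, hxr, hxk, -⟩ := hTr F p r hr hr2 hrp h2 d e hed y hyr hyker
  refine ⟨x, hxΩ, ?_, by omega⟩
  have : Fact r.Prime := ⟨hr⟩
  apply orderOf_eq_prime hxr
  intro hx1
  rw [hx1] at hxk
  have hk : LinearMap.ker (Matrix.toLin'
      (((1 : Matrix.GeneralLinearGroup (Unit ⊕ (Fin d ⊕ Fin d)) F) :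
        Matrix (Unit ⊕ (Fin d ⊕ Fin d)) (Unit ⊕ (Fin d ⊕ Fin d)) F)) - 1)
      = (⊤ : Submodule F (Unit ⊕ (Fin d ⊕ Fin d) → F)) := by
    rw [Units.val_one, Matrix.toLin'_one]
    have : (LinearMap.id : (Unit ⊕ (Fin d ⊕ Fin d) → F) →ₗ[F] _) - 1 = 0 := sub_self _
    rw [this, LinearMap.ker_zero]
  rw [hk, finrank_top, Module.finrank_fintype_fun_eq_card] at hxk
  simp only [Fintype.card_sum, Fintype.card_unit, Fintype.card_fin] at hxk
  omega

example (hTr : StOTransport.{u}) (hEx : Cfsg.Agent.H42.Spd.StEx.{u}) : StExist.{u} :=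
  exist hTr hEx

end Cfsg.Agent.H24.Oh
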