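import Cfsg.Agent.H56.OrdDefs

/-!
# S2363 pieces G2 and F4: the arithmetic cores (independent of the Chevalley engine)
-/

set_option autoImplicit false

namespace Cfsg.Agent.H24.Ord

open Cfsg Cfsg.Agent.H56.Ord

theorem pow_sub_one_lt {q : ℕ} (hq : 0 < q) (a : ℕ) : q ^ a - 1 < q ^ a :=
  Nat.sub_lt (pow_pos hq a) one_pos

/-- `G₂`: a group of order `q⁶ (q² - 1)(q⁶ - 1)`, `q = p ^ f`, is `Good p`. -/
theorem g2_core {X : Type*} [Group X] {p f q : ℕ} (hp : p.Prime) (hq : q = p ^ f) (hf : f ≠ 0)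
    (hcard : Nat.card X = q ^ 6 * (q ^ 2 - 1) * (q ^ 6 - 1)) : Good p X := by
  have hq0 : 0 < q := hq ▸ pow_pos hp.pos f
  have hqn : q ≠ 0 := hq0.ne'
  have hM : (q ^ 2 - 1) * (q ^ 6 - 1) < q ^ 8 := by
    calc (q ^ 2 - 1) * (q ^ 6 - 1) < q ^ 2 * q ^ 6 :=
          Nat.mul_lt_mul'' (pow_sub_one_lt hq0 2) (pow_sub_one_lt hq0 6)
      _ = q ^ 8 := by rw [← pow_add]
  refine good_of_eq_q (N := 6) (c := 1) (M := (q ^ 2 - 1) * (q ^ 6 - 1)) hp hq hf ?_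
    (Nat.coprime_one_right q) ?_ ?_ ?_
  · rw [one_mul, hcard, mul_assoc]
  · exact Nat.Coprime.mul_right (coprime_pow_sub_one hqn (by norm_num))
      (coprime_pow_sub_one hqn (by norm_num))
  · exact lt_of_lt_of_le hM (Nat.pow_le_pow_right hq0 (by norm_num))
  · calc ((q ^ 2 - 1) * (q ^ 6 - 1)) ^ 3 < (q ^ 8) ^ 3 := Nat.pow_lt_pow_left hM (by norm_num)
      _ = q ^ 24 := by rw [← pow_mul]
      _ ≤ q ^ (5 * 6) := Nat.pow_le_pow_right hq0 (by norm_num)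

/-- `F₄`: a group of order `q²⁴ (q² - 1)(q⁶ - 1)(q⁸ - 1)(q¹² - 1)`, `q = p ^ f`, is `Good p`. -/
theorem f4_core {X : Type*} [Group X] {p f q : ℕ} (hp : p.Prime) (hq : q = p ^ f) (hf : f ≠ 0)
    (hcard : Nat.card X = q ^ 24 * (q ^ 2 - 1) * (q ^ 6 - 1) * (q ^ 8 - 1) * (q ^ 12 - 1)) :
    Good p X := by
  have hq0 : 0 < q := hq ▸ pow_pos hp.pos f
  have hqn : q ≠ 0 := hq0.ne'
  have hM : (q ^ 2 - 1) * (q ^ 6 - 1) * (q ^ 8 - 1) * (q ^ 12 - 1) < q ^ 28 := by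
    calc (q ^ 2 - 1) * (q ^ 6 - 1) * (q ^ 8 - 1) * (q ^ 12 - 1)
          < q ^ 2 * q ^ 6 * q ^ 8 * q ^ 12 :=
          Nat.mul_lt_mul'' (Nat.mul_lt_mul'' (Nat.mul_lt_mul'' (pow_sub_one_lt hq0 2)
            (pow_sub_one_lt hq0 6)) (pow_sub_one_lt hq0 8)) (pow_sub_one_lt hq0 12)
      _ = q ^ 28 := by rw [← pow_add, ← pow_add, ← pow_add]
  refine good_of_eq_q (N := 24) (c := 1)
    (M := (q ^ 2 - 1) * (q ^ 6 - 1) * (q ^ 8 - 1) * (q ^ 12 - 1)) hp hq hf ?_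
    (Nat.coprime_one_right q) ?_ ?_ ?_
  · rw [one_mul, hcard]; ring
  · exact Nat.Coprime.mul_right (Nat.Coprime.mul_right (Nat.Coprime.mul_right
      (coprime_pow_sub_one hqn (by norm_num)) (coprime_pow_sub_one hqn (by norm_num)))
      (coprime_pow_sub_one hqn (by norm_num))) (coprime_pow_sub_one hqn (by norm_num))
  · exact lt_of_lt_of_le hM (Nat.pow_le_pow_right hq0 (by norm_num))
  · calc ((q ^ 2 - 1) * (q ^ 6 - 1) * (q ^ 8 - 1) * (q ^ 12 - 1)) ^ 3 < (q ^ 28) ^ 3 :=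
          Nat.pow_lt_pow_left hM (by norm_num)
      _ = q ^ 84 := by rw [← pow_mul]
      _ ≤ q ^ (5 * 24) := Nat.pow_le_pow_right hq0 (by norm_num)

end Cfsg.Agent.H24.Ord
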