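import Cfsg.Agent.S1059
import Cfsg.Agent.H24.OrdGFCore

/-!
# S2363-G2 (helper56's team project): `G₂(F)` satisfies the two order bounds
-/

set_option autoImplicit false

namespace Cfsg.Agent.H24.Ord

open Cfsg Cfsg.Agent.H56.Ord

theorem g2 : Cfsg.Agent.H56.Ord.G2Stmt := by
  intro p hp F _ _ _ _
  obtain ⟨f, hf, hq⟩ := card_eq_pow p F
  exact g2_core hp hq hf (Cfsg.Agent.S1059.result rfl)

example : Cfsg.Agent.H56.Ord.G2Stmt := g2

end Cfsg.Agent.H24.Ord
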