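import Cfsg.Agent.H46.OutDefs

/-!
# S2124-DESC (helper46's team project S2124)

Descent of a torus element: an element of `H` over an extension field `K` acting on the fundamental
root subgroups through scalars of `F` is, as a matrix, defined over `F` (when `F` is the fixed field
of an endomorphism `τ` of `K`), and acts on every root subgroup over `F` by a scalar.
-/

set_option autoImplicit false

namespace Cfsg.Agent.H24.OutE

open Cfsg.Lie Cfsg.Agent.H23 Cfsg.Agent.H23.Stb Cfsg.Agent.H46.OutE

universe u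

/-- The image of a torus element under a field homomorphism is a torus element. -/
theorem desc_isTorus_map {D : ChevalleyDatum} {K L : Type u} [Field K] [Field L] (τ : K →+* L)
    (χ : ℕ → K) (g : GL D.Idx K) (hg : IsTorus D χ g) :
    IsTorus D (fun c => τ (χ c)) (glMap D τ g) := by
  obtain ⟨h1, h2, h3, h4⟩ := hg
  refine ⟨fun c => ?_, ?_, ?_, ?_⟩
  · exact (map_ne_zero τ).2 (h1 c)
  · intro s hs c x hx
    show τ (χ x.1) = τ (χ c) * τ (χ s) ^ x.2.2
    rw [h2 s hs c x hx, map_mul, map_pow]
  · intro i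
    show τ (χ (D.nroots + i.val)) = 1
    rw [h3 i, map_one]
  · ext i j
    rw [glMap_apply, h4]
    by_cases hij : i = j
    · subst hij
      rw [Matrix.diagonal_apply_eq, Matrix.diagonal_apply_eq]
    · rw [Matrix.diagonal_apply_ne _ hij, Matrix.diagonal_apply_ne _ hij, map_zero]

/-- A diagonal invertible matrix. -/
noncomputable def descDiag {n : Type} [Fintype n] [DecidableEq n] {F : Type u} [Field F]
    (d : n → F) (hd : ∀ k, d k ≠ 0) : GL n F :=
  ⟨Matrix.diagonal d, Matrix.diagonal fun k => (d k)⁻¹, by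
    rw [Matrix.diagonal_mul_diagonal, ← Matrix.diagonal_one]
    congr 1
    funext k
    exact mul_inv_cancel₀ (hd k), by
    rw [Matrix.diagonal_mul_diagonal, ← Matrix.diagonal_one]
    congr 1
    funext k
    exact inv_mul_cancel₀ (hd k)⟩

theorem desc : StDesc.{u} := by
  intro D F K _ _ ι τ z η hPF hPK hfix hτι hCE c h hh hact
  -- `h` is the torus element of a character `χK`
  obtain ⟨χK, hχK⟩ := diagonal_le_torus hPK.sem hPK.tab hh
  have hsl : ∀ i < D.rank, D.simple i < D.nroots := hPK.tab.simple_lt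
  have hnl : ∀ i < D.rank, D.neg (D.simple i) < D.nroots :=
    fun i hi => hPK.tab.neg_lt _ (hsl i hi)
  -- the character on the fundamental roots
  have hχs : ∀ i < D.rank, χK (D.simple i) = ι (c i) := by
    intro i hi
    have h1 := (hact i hi 1).1
    rw [isTorus_conj hPK.sem χK h hχK _ (hsl i hi)] at h1
    have := xU_inj hPK _ (hsl i hi) _ _ h1
    simpa using this
  have hχn : ∀ i < D.rank, χK (D.neg (D.simple i)) = (ι (c i))⁻¹ := by
    intro i hi
    have h1 := (hact i hi 1).2
    rw [isTorus_conj hPK.sem χK h hχK _ (hnl i hi)] at h1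
    have := xU_inj hPK _ (hnl i hi) _ _ h1
    simpa using this
  -- the conjugate torus element
  have hχK' : IsTorus D (fun c => τ (χK c)) (glMap D τ h) := desc_isTorus_map τ χK h hχK
  -- `h⁻¹ * τ(h)` commutes with the fundamental root elements
  have hcomm : ∀ i < D.rank, ∀ t : K,
      (h⁻¹ * glMap D τ h) * xU hPK.sem (D.simple i) t =
        xU hPK.sem (D.simple i) t * (h⁻¹ * glMap D τ h) ∧
      (h⁻¹ * glMap D τ h) * xU hPK.sem (D.neg (D.simple i)) t =
        xU hPK.sem (D.neg (D.simple i)) t * (h⁻¹ * glMap D τ h) := by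
    intro i hi t
    have e1 : glMap D τ h * xU hPK.sem (D.simple i) t * (glMap D τ h)⁻¹ =
        h * xU hPK.sem (D.simple i) t * h⁻¹ := by
      rw [isTorus_conj hPK.sem _ _ hχK' _ (hsl i hi), isTorus_conj hPK.sem _ _ hχK _ (hsl i hi)]
      show xU hPK.sem (D.simple i) (τ (χK (D.simple i)) * t) = _
      rw [hχs i hi, hτι]
    have e2 : glMap D τ h * xU hPK.sem (D.neg (D.simple i)) t * (glMap D τ h)⁻¹ =
        h * xU hPK.sem (D.neg (D.simple i)) t * h⁻¹ := by
      rw [isTorus_conj hPK.sem _ _ hχK' _ (hnl i hi), isTorus_conj hPK.sem _ _ hχK _ (hnl i hi)]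
      show xU hPK.sem (D.neg (D.simple i)) (τ (χK (D.neg (D.simple i))) * t) = _
      rw [hχn i hi, map_inv₀, hτι]
    constructor
    · have := congrArg (fun y => h⁻¹ * y * glMap D τ h) e1
      simp only [mul_assoc, inv_mul_cancel, mul_one, inv_mul_cancel_left] at this
      simpa [mul_assoc] using this
    · have := congrArg (fun y => h⁻¹ * y * glMap D τ h) e2
      simp only [mul_assoc, inv_mul_cancel, mul_one, inv_mul_cancel_left] at this
      simpa [mul_assoc] using this
  have hall := hCE (h⁻¹ * glMap D τ h) hcomm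
  -- hence `χK` is fixed by `τ` on all roots
  have hτχ : ∀ r < D.nroots, τ (χK r) = χK r := by
    intro r hr
    have h1 := hall r hr 1
    have e : glMap D τ h * xU hPK.sem r 1 * (glMap D τ h)⁻¹ = h * xU hPK.sem r 1 * h⁻¹ := by
      have := congrArg (fun y => h * y * (glMap D τ h)⁻¹) h1
      simp only [mul_assoc, mul_inv_cancel, mul_one, mul_inv_cancel_left] at this
      simpa [mul_assoc] using this
    rw [isTorus_conj hPK.sem _ _ hχK' _ hr, isTorus_conj hPK.sem _ _ hχK _ hr] at e
    have := xU_inj hPK r hr _ _ e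
    simpa using this
  -- descend the character
  have hex : ∀ r : ℕ, ∃ a : F, r < D.nroots → ι a = χK r := by
    intro r
    by_cases hr : r < D.nroots
    · obtain ⟨a, ha⟩ := hfix _ (hτχ r hr)
      exact ⟨a, fun _ => ha⟩
    · exact ⟨1, fun h' => absurd h' hr⟩
  choose χ₀ hχ₀ using hex
  obtain ⟨χ, hχ⟩ : ∃ χ : ℕ → F, χ = fun r => if r < D.nroots then χ₀ r else 1 := ⟨_, rfl⟩
  have hχr : ∀ r < D.nroots, ι (χ r) = χK r := by
    intro r hr
    rw [hχ]
    show ι (if r < D.nroots then χ₀ r else 1) = χK r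
    rw [if_pos hr, hχ₀ r hr]
  have hχk : ∀ k : D.Idx, ι (χ (ix D k)) = χK (ix D k) := by
    rintro (i | s)
    · rw [ix_inl, hχ]
      show ι (if D.nroots + i.val < D.nroots then χ₀ _ else 1) = χK (D.nroots + i.val)
      rw [if_neg (by omega), map_one, hχK.2.2.1 i]
    · rw [ix_inr]
      exact hχr s.val s.isLt
  have hχne : ∀ k : D.Idx, χ (ix D k) ≠ 0 := by
    intro k h0
    have := hχk k
    rw [h0, map_zero] at this
    exact hχK.1 _ this.symm
  have hχne' : ∀ r < D.nroots, χ r ≠ 0 := by
    intro r hr h0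
    have := hχr r hr
    rw [h0, map_zero] at this
    exact hχK.1 _ this.symm
  -- the descended matrix
  obtain ⟨g₀, hg₀⟩ : ∃ g₀ : GL D.Idx F,
      (g₀ : Matrix D.Idx D.Idx F) = Matrix.diagonal (fun k => χ (ix D k)) :=
    ⟨descDiag (fun k => χ (ix D k)) hχne, rfl⟩
  have hmap : glMap D ι g₀ = h := by
    apply Units.ext
    ext i j
    rw [glMap_apply, hg₀, hχK.2.2.2]
    by_cases hij : i = j
    · subst hij
      rw [Matrix.diagonal_apply_eq, Matrix.diagonal_apply_eq, hχk]
    · rw [Matrix.diagonal_apply_ne _ hij, Matrix.diagonal_apply_ne _ hij, map_zero]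
  refine ⟨χ, g₀, hχne', ?_, ?_⟩
  · intro r hr u
    apply glMap_injective (D := D) ι
    rw [map_mul, map_mul, map_inv, hmap, glMap_xU hPF.sem hPK.sem, glMap_xU hPF.sem hPK.sem,
      isTorus_conj hPK.sem _ _ hχK _ hr, map_mul, hχr r hr]
  · intro i hi
    constructor
    · apply ι.injective
      rw [hχr _ (hsl i hi), hχs i hi]
    · apply ι.injective
      rw [hχr _ (hnl i hi), hχn i hi, map_inv₀]

example : StDesc.{u} := desc

end Cfsg.Agent.H24.OutE
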