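import Mathlib
import Cfsg.Prelude.Def_GeometricClasses
import Cfsg.Prelude.Def_LieClassical
import Cfsg.Agent.H95.Herm
import Cfsg.Agent.H95.NDU
import Cfsg.Agent.H95.PairSU
import Cfsg.Agent.H17.GUBlock

set_option autoImplicit false

/-!
# S5984-WTV (helper99): a unitary transvection stabilises no pair of complementary totally
singular subspaces
-/

open scoped MatrixGroups

namespace Cfsg.Agent.H24.Pair

variable {F : Type*} [Field F] [Fintype F]

omit [Fintype F] in
/-- A map `x ↦ x + φ x • b` (`φ ≠ 0`) permutes no decomposition `E 0 ⊕ E 1` into subspaces of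
dimension at least two such that `φ` vanishes on every `E i` containing `b`. -/
theorem no_pair_of_rank_one {n : ℕ} (T : Matrix (Fin n) (Fin n) F)
    (φ : (Fin n → F) →ₗ[F] F) (b : Fin n → F)
    (hT : ∀ x, T.mulVec x = x + φ x • b) (hφ : φ ≠ 0)
    (E : Fin 2 → Submodule F (Fin n → F)) (σ : Equiv.Perm (Fin 2)) (m : ℕ) (hm : 2 ≤ m)
    (hE : Cfsg.Geo.IsMDecomposition m E)
    (hH : ∀ i, b ∈ E i → ∀ v ∈ E i, φ v = 0)
    (hmap : ∀ i, (E i).map (Matrix.toLin' T) = E (σ i)) : False := by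
  have hinf : E 0 ⊓ E 1 = ⊥ := by
    have hd : Disjoint (E 0) (E 1) := hE.indep.pairwiseDisjoint (by decide)
    exact disjoint_iff.1 hd
  have hsup : ∀ x : Fin n → F, x ∈ E 0 ⊔ E 1 := by
    intro x
    have h1 : (⨆ i, E i) ≤ E 0 ⊔ E 1 := by
      apply iSup_le
      intro i
      fin_cases i
      · exact le_sup_left
      · exact le_sup_right
    rw [hE.iSup_eq_top] at h1
    exact h1 Submodule.mem_top
  have hTmem : ∀ i, ∀ v ∈ E i, T.mulVec v ∈ E (σ i) := by
    intro i v hv
    rw [← hmap i]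
    exact ⟨v, hv, Matrix.toLin'_apply T v⟩
  have hfin2 : ∀ j : Fin 2, j ≠ 0 → j = 1 := by decide
  by_cases hσ : σ 0 = 0
  · have hσ1 : σ 1 = 1 := by
      have h1 : σ 1 ≠ σ 0 := fun h => absurd (σ.injective h) (by decide)
      rw [hσ] at h1
      exact hfin2 _ h1
    have hσi : ∀ i, σ i = i := by
      intro i
      fin_cases i
      · exact hσ
      · exact hσ1
    have hkey : ∀ i, ∀ v ∈ E i, φ v = 0 := by
      intro i v hv
      by_contra hne
      have h1 : T.mulVec v ∈ E i := by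
        have h0 := hTmem i v hv
        rwa [hσi i] at h0
      have h2 : φ v • b ∈ E i := by
        have h3 : φ v • b = T.mulVec v - v := by
          rw [hT v]
          abel
        rw [h3]
        exact (E i).sub_mem h1 hv
      have h4 : b ∈ E i := by
        have h5 : b = (φ v)⁻¹ • (φ v • b) := by
          rw [smul_smul, inv_mul_cancel₀ hne, one_smul]
        rw [h5]
        exact (E i).smul_mem _ h2
      exact hne (hH i h4 v hv)
    apply hφ
    apply LinearMap.ext
    intro x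
    obtain ⟨u, hu, w, hw, rfl⟩ := Submodule.mem_sup.1 (hsup x)
    rw [map_add, hkey 0 u hu, hkey 1 w hw, add_zero, LinearMap.zero_apply]
  · have hσ0 : σ 0 = 1 := hfin2 _ hσ
    have hker : LinearMap.ker (φ.comp (E 0).subtype) ≠ ⊥ := by
      apply LinearMap.ker_ne_bot_of_finrank_lt
      rw [hE.finrank_eq 0, Module.finrank_self]
      omega
    obtain ⟨v, hv, hv0⟩ := (Submodule.ne_bot_iff _).1 hker
    have hφv : φ (v : Fin n → F) = 0 := hv
    have hTv : T.mulVec (v : Fin n → F) = v := by rw [hT, hφv, zero_smul, add_zero]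
    have h1 : (v : Fin n → F) ∈ E 1 := by
      have h0 := hTmem 0 v v.2
      rwa [hTv, hσ0] at h0
    have h2 : (v : Fin n → F) ∈ E 0 ⊓ E 1 := ⟨v.2, h1⟩
    rw [hinf, Submodule.mem_bot] at h2
    exact hv0 (Subtype.ext h2)

theorem exists_transvection_witness {q n p : ℕ} [Fact p.Prime] [CharP F p]
    (hq : Fintype.card F = q ^ 2) (hn : 4 ≤ n) :
    ∃ M : Matrix (Fin n) (Fin n) F, M.det = 1 ∧
      (∀ u v : Fin n → F,
        Cfsg.hermForm n F q (M.mulVec u) (M.mulVec v) = Cfsg.hermForm n F q u v) ∧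
      M ^ p = 1 ∧ (∀ z : F, M ≠ z • (1 : Matrix (Fin n) (Fin n) F)) ∧
      ¬ ∃ (E : Fin 2 → Submodule F (Fin n → F)) (σ : Equiv.Perm (Fin 2)),
        Cfsg.Geo.IsMDecomposition (n / 2) E ∧
        (∀ i, Cfsg.Geo.IsTotallySingularFor (Cfsg.hermForm n F q) (E i)) ∧
        ∀ i, (E i).map (Matrix.toLin' M) = E (σ i) := by
  classical
  have htop : 2 ≤ Module.finrank F (⊤ : Submodule F (Fin n → F)) := by
    rw [finrank_top, Module.finrank_fin_fun]
    omega
  obtain ⟨a, -, ha0, haa⟩ := Cfsg.Agent.H95.iso_exists hq ⊤ htop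
  obtain ⟨ε, hε0, hε⟩ := Cfsg.Agent.H95.exists_trace_zero_ne hq
  obtain ⟨M, hM⟩ : ∃ M : Matrix (Fin n) (Fin n) F,
      M = ((Cfsg.Agent.H95.unitTransv q a ε haa : GL (Fin n) F) : Matrix (Fin n) (Fin n) F) :=
    ⟨_, rfl⟩
  have hMx : ∀ x, M.mulVec x = x + (ε * Cfsg.hermForm n F q x a) • a := by
    intro x
    rw [hM]
    exact Cfsg.Agent.H95.unitTransv_mulVec a ε haa x
  obtain ⟨x₀, hx₀⟩ : ∃ x₀, Cfsg.hermForm n F q x₀ a ≠ 0 := by
    by_contra hcon
    push Not at hcon
    exact ha0 (Cfsg.Agent.H17.hermForm_nd_left hq n a hcon)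
  refine ⟨M, ?_, ?_, ?_, ?_, ?_⟩
  · rw [hM]
    exact (Cfsg.Agent.H95.mem_specialLinear_iff _).1
      (Cfsg.Agent.H95.unitTransv_mem_specialLinear (q := q) a ε haa)
  · rw [hM]
    exact (Cfsg.Agent.H95.mem_GU_iff _).1 (Cfsg.Agent.H95.unitTransv_mem_GU hq a ε haa hε)
  · have hpow : ∀ k : ℕ, ∀ x, (M ^ k).mulVec x =
        x + ((k : F) * ε * Cfsg.hermForm n F q x a) • a := by
      intro k
      induction k with
      | zero =>
        intro x
        simp
      | succ k ih =>
        intro x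
        rw [pow_succ, ← Matrix.mulVec_mulVec, ih, hMx, Cfsg.Agent.H95.hermForm_add_left,
          Cfsg.Agent.H95.hermForm_smul_left, haa, mul_zero, add_zero, add_assoc, ← add_smul]
        congr 2
        push_cast
        ring
    apply Matrix.toLin'.injective
    apply LinearMap.ext
    intro x
    rw [Matrix.toLin'_apply, Matrix.toLin'_apply, hpow p x, CharP.cast_eq_zero F p, zero_mul,
      zero_mul, zero_smul, add_zero, Matrix.one_mulVec]
  · intro z hz
    have h1 : ∀ x, x + (ε * Cfsg.hermForm n F q x a) • a = z • x := by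
      intro x
      rw [← hMx, hz, Matrix.smul_mulVec, Matrix.one_mulVec]
    have h2 := h1 a
    rw [haa, mul_zero, zero_smul, add_zero] at h2
    have hz1 : z = 1 := by
      by_contra hne
      have h3 : (z - 1) • a = 0 := by rw [sub_smul, one_smul, ← h2, sub_self]
      rcases smul_eq_zero.1 h3 with h4 | h4
      · exact hne (sub_eq_zero.1 h4)
      · exact ha0 h4
    have h5 := h1 x₀
    rw [hz1, one_smul] at h5
    have h6 : (ε * Cfsg.hermForm n F q x₀ a) • a = 0 := by
      have h7 : x₀ + (ε * Cfsg.hermForm n F q x₀ a) • a = x₀ + 0 := by rw [h5, add_zero]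
      exact add_left_cancel h7
    rcases smul_eq_zero.1 h6 with h7 | h7
    · rcases mul_eq_zero.1 h7 with h8 | h8
      · exact hε0 h8
      · exact hx₀ h8
    · exact ha0 h7
  · rintro ⟨E, σ, hE, hEs, hmap⟩
    refine no_pair_of_rank_one M (ε • Cfsg.Agent.H95.hermL q a) a ?_ ?_ E σ (n / 2) (by omega) hE
      ?_ hmap
    · intro x
      rw [hMx]
      rfl
    · intro h0
      have h1 : (ε • Cfsg.Agent.H95.hermL q a) x₀ = 0 := by rw [h0, LinearMap.zero_apply]
      rw [LinearMap.smul_apply, Cfsg.Agent.H95.hermL_apply, smul_eq_mul] at h1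
      rcases mul_eq_zero.1 h1 with h8 | h8
      · exact hε0 h8
      · exact hx₀ h8
    · intro i hai v hv
      rw [LinearMap.smul_apply, Cfsg.Agent.H95.hermL_apply, hEs i v hv a hai, smul_zero]

example {q n p : ℕ} [Fact p.Prime] [CharP F p]
    (hq : Fintype.card F = q ^ 2) (hn : 4 ≤ n) :
    ∃ M : Matrix (Fin n) (Fin n) F, M.det = 1 ∧
      (∀ u v : Fin n → F,
        Cfsg.hermForm n F q (M.mulVec u) (M.mulVec v) = Cfsg.hermForm n F q u v) ∧
      M ^ p = 1 ∧ (∀ z : F, M ≠ z • (1 : Matrix (Fin n) (Fin n) F)) ∧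
      ¬ ∃ (E : Fin 2 → Submodule F (Fin n → F)) (σ : Equiv.Perm (Fin 2)),
        Cfsg.Geo.IsMDecomposition (n / 2) E ∧
        (∀ i, Cfsg.Geo.IsTotallySingularFor (Cfsg.hermForm n F q) (E i)) ∧
        ∀ i, (E i).map (Matrix.toLin' M) = E (σ i) :=
  exists_transvection_witness hq hn

end Cfsg.Agent.H24.Pair
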