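import Mathlib
import Cfsg.Prelude.Def_GeometricClasses
import Cfsg.Prelude.Def_LieClassical
import Cfsg.Agent.H17.GUDet
import Cfsg.Agent.H24.PairWTV

set_option autoImplicit false

/-!
# S5984-W2 (helper99): a scalar multiple of a unitary reflection with determinant one and scalar
square that stabilises no pair of complementary totally singular subspaces
-/

open scoped MatrixGroups

namespace Cfsg.Agent.H24.Pair

variable {F : Type*} [Field F] [Fintype F]

/-- odd order forces `2 ≠ 0` -/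
theorem two_ne_zero_of_odd_card {q : ℕ} (hq : Fintype.card F = q ^ 2) (hodd : Odd q) :
    (2 : F) ≠ 0 := by
  intro h2
  have h1 : ringChar F = 2 :=
    CharP.ringChar_of_prime_eq_zero Nat.prime_two (by exact_mod_cast h2)
  have h3 := FiniteField.even_card_of_char_two h1
  rw [hq] at h3
  have h4 : Odd (q ^ 2) := hodd.pow
  rw [Nat.odd_iff] at h4
  omega

/-- an element `lam` of norm one with `lam ^ n = -1` -/
theorem exists_norm_one_pow_neg_one {q n : ℕ} (hq : Fintype.card F = q ^ 2) (hodd : Odd q)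
    (hn0 : n ≠ 0) (hv : padicValNat 2 n < padicValNat 2 (q + 1)) :
    ∃ lam : F, lam ^ (q + 1) = 1 ∧ lam ^ n = -1 := by
  have h2 : (2 : F) ≠ 0 := two_ne_zero_of_odd_card hq hodd
  obtain ⟨k, n', hn'odd, hnk⟩ := Nat.exists_eq_two_pow_mul_odd hn0
  have hk : k ≤ padicValNat 2 n := (padicValNat_dvd_iff_le hn0).1 ⟨n', hnk⟩
  have hdvd : 2 ^ (k + 1) ∣ q + 1 :=
    (padicValNat_dvd_iff_le (by omega : q + 1 ≠ 0)).2 (by omega)
  obtain ⟨c, hc⟩ := hdvd
  obtain ⟨ω, hω⟩ := Cfsg.Agent.H17.exists_primitive_root_succ hq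
  have hc0 : 0 < c := by
    rcases Nat.eq_zero_or_pos c with h | h
    · rw [h, mul_zero] at hc
      omega
    · exact h
  have hX : 0 < c * 2 ^ k := Nat.mul_pos hc0 (by positivity)
  have hq1 : q + 1 = 2 * (c * 2 ^ k) := by
    rw [hc, pow_succ]
    ring
  have h1 : (ω ^ c) ^ (2 ^ (k + 1)) = 1 := by
    rw [← pow_mul, mul_comm, ← hc, hω.pow_eq_one]
  have hne : (ω ^ c) ^ (2 ^ k) ≠ 1 := by
    intro h
    rw [← pow_mul, hω.pow_eq_one_iff_dvd] at h
    have := Nat.le_of_dvd hX h
    omega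
  have hneg : (ω ^ c) ^ (2 ^ k) = -1 := by
    have h3 : ((ω ^ c) ^ (2 ^ k)) ^ 2 = 1 := by
      rw [← pow_mul, ← pow_succ, h1]
    rcases sq_eq_one_iff.1 h3 with h4 | h4
    · exact absurd h4 hne
    · exact h4
  refine ⟨ω ^ c, ?_, ?_⟩
  · rw [← pow_mul, mul_comm, pow_mul, hω.pow_eq_one, one_pow]
  · rw [hnk, pow_mul, hneg, hn'odd.neg_one_pow]

theorem exists_involution_witness {q n : ℕ} (hq : Fintype.card F = q ^ 2) (hodd : Odd q)
    (hn : 4 ≤ n) (_he : Even n) (hv : padicValNat 2 n < padicValNat 2 (q + 1)) :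
    ∃ (M : Matrix (Fin n) (Fin n) F) (z : F), M.det = 1 ∧
      (∀ u v : Fin n → F,
        Cfsg.hermForm n F q (M.mulVec u) (M.mulVec v) = Cfsg.hermForm n F q u v) ∧
      M ^ 2 = z • (1 : Matrix (Fin n) (Fin n) F) ∧
      (∀ z : F, M ≠ z • (1 : Matrix (Fin n) (Fin n) F)) ∧
      ¬ ∃ (E : Fin 2 → Submodule F (Fin n → F)) (σ : Equiv.Perm (Fin 2)),
        Cfsg.Geo.IsMDecomposition (n / 2) E ∧
        (∀ i, Cfsg.Geo.IsTotallySingularFor (Cfsg.hermForm n F q) (E i)) ∧
        ∀ i, (E i).map (Matrix.toLin' M) = E (σ i) := by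
  classical
  have h2 : (2 : F) ≠ 0 := two_ne_zero_of_odd_card hq hodd
  obtain ⟨lam, hlq, hln⟩ := exists_norm_one_pow_neg_one hq hodd (by omega : n ≠ 0) hv
  have hlam0 : lam ≠ 0 := by
    intro h
    rw [h, zero_pow (Nat.succ_ne_zero q)] at hlq
    exact zero_ne_one hlq
  obtain ⟨i0, hi0⟩ : ∃ i0 : Fin n, i0 = ⟨0, by omega⟩ := ⟨_, rfl⟩
  obtain ⟨i1, hi1⟩ : ∃ i1 : Fin n, i1 = ⟨1, by omega⟩ := ⟨_, rfl⟩
  have hi01 : i1 ≠ i0 := by
    rw [hi0, hi1]
    intro h
    have := congrArg Fin.val h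
    simp at this
  obtain ⟨d, hd⟩ : ∃ d : Fin n → F, d = fun i => if i = i0 then (-1 : F) else 1 := ⟨_, rfl⟩
  have hd0 : d i0 = -1 := by rw [hd]; simp
  have hd1 : d i1 = 1 := by rw [hd]; simp [hi01]
  have hdsq : ∀ i, d i * d i = 1 := by
    intro i
    rw [hd]
    by_cases h : i = i0
    · simp [h]
    · simp [h]
  have hMY : Matrix.diagonal (fun i => lam * d i) = lam • Matrix.diagonal d := by
    rw [← Matrix.diagonal_smul]
    rfl
  refine ⟨Matrix.diagonal (fun i => lam * d i), lam ^ 2, ?_, ?_, ?_, ?_, ?_⟩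
  · rw [Matrix.det_diagonal, Finset.prod_mul_distrib, Finset.prod_const, Finset.card_univ,
      Fintype.card_fin, hln, hd, Finset.prod_ite_eq' Finset.univ i0 (fun _ => (-1 : F)),
      if_pos (Finset.mem_univ _)]
    ring
  · intro u v
    apply Cfsg.Agent.H17.diag_preserves n
    intro i
    rw [mul_pow, hlq, one_mul, hd]
    by_cases h : i = i0
    · simp only [h, if_true]
      exact (Odd.add_one hodd).neg_one_pow
    · simp only [h, if_false]
      exact one_pow _
  · rw [Matrix.diagonal_pow, Matrix.smul_one_eq_diagonal]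
    congr 1
    funext i
    show (lam * d i) ^ 2 = lam ^ 2
    rw [mul_pow, pow_two (d i), hdsq i, mul_one]
  · intro z hz
    rw [Matrix.smul_one_eq_diagonal] at hz
    have h1 := congrFun (Matrix.diagonal_injective hz) i0
    have h3 := congrFun (Matrix.diagonal_injective hz) i1
    simp only [hd0, hd1] at h1 h3
    have h4 : (2 : F) * lam = 0 := by
      have : lam * -1 = lam * 1 := by rw [h1, h3]
      linear_combination -this
    rcases mul_eq_zero.1 h4 with h5 | h5
    · exact h2 h5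
    · exact hlam0 h5
  · rintro ⟨E, σ, hE, hEs, hmap⟩
    have hmap' : ∀ i, (E i).map (Matrix.toLin' (Matrix.diagonal d)) = E (σ i) := by
      intro i
      rw [← hmap i, hMY, map_smul, Submodule.map_smul _ _ _ hlam0]
    have hb : Cfsg.hermForm n F q (Pi.single i0 1) (Pi.single i0 1) = 1 := by
      rw [Cfsg.Agent.H17.hermForm_single_left, Pi.single_eq_same, one_pow]
    refine no_pair_of_rank_one (Matrix.diagonal d) ((-2 : F) • LinearMap.proj i0)
      (Pi.single i0 1) ?_ ?_ E σ (n / 2) (by omega) hE ?_ hmap'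
    · intro x
      funext i
      rw [Matrix.mulVec_diagonal]
      show d i * x i = x i + ((-2 : F) * x i0) * (Pi.single i0 (1 : F) : Fin n → F) i
      rw [hd]
      by_cases h : i = i0
      · subst h
        simp only [if_true, Pi.single_eq_same]
        ring
      · simp only [h, if_false, Pi.single_eq_of_ne h]
        ring
    · intro h0
      have h1 : ((-2 : F) • LinearMap.proj i0 : (Fin n → F) →ₗ[F] F) (Pi.single i0 1) = 0 := by
        rw [h0, LinearMap.zero_apply]
      rw [LinearMap.smul_apply, LinearMap.proj_apply, Pi.single_eq_same, smul_eq_mul, mul_one,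
        neg_eq_zero] at h1
      exact h2 h1
    · intro i hbi v _
      exfalso
      have := hEs i _ hbi _ hbi
      rw [hb] at this
      exact one_ne_zero this

example {q n : ℕ} (hq : Fintype.card F = q ^ 2) (hodd : Odd q)
    (hn : 4 ≤ n) (he : Even n) (hv : padicValNat 2 n < padicValNat 2 (q + 1)) :
    ∃ (M : Matrix (Fin n) (Fin n) F) (z : F), M.det = 1 ∧
      (∀ u v : Fin n → F,
        Cfsg.hermForm n F q (M.mulVec u) (M.mulVec v) = Cfsg.hermForm n F q u v) ∧
      M ^ 2 = z • (1 : Matrix (Fin n) (Fin n) F) ∧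
      (∀ z : F, M ≠ z • (1 : Matrix (Fin n) (Fin n) F)) ∧
      ¬ ∃ (E : Fin 2 → Submodule F (Fin n → F)) (σ : Equiv.Perm (Fin 2)),
        Cfsg.Geo.IsMDecomposition (n / 2) E ∧
        (∀ i, Cfsg.Geo.IsTotallySingularFor (Cfsg.hermForm n F q) (E i)) ∧
        ∀ i, (E i).map (Matrix.toLin' M) = E (σ i) :=
  exists_involution_witness hq hodd hn he hv

end Cfsg.Agent.H24.Pair
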