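import Mathlib
import Cfsg.Prelude.Def_LieRecognition

set_option autoImplicit false

namespace Cfsg.Agent.H24

open MulAction
open scoped Pointwise

namespace RankOne

variable {G Ω : Type*} [Group G] [MulAction G Ω] {a : Ω} {t : G} {Q : Subgroup G}

theorem tsmul_ne (hS : Cfsg.IsRankOneSetup G Ω a t Q) : t • a ≠ a := fun h =>
  hS.not_mem (MulAction.mem_stabilizer_iff.mpr h)

theorem two_trans (hS : Cfsg.IsRankOneSetup G Ω a t Q) {c d c' d' : Ω} (h : c ≠ d)
    (h' : c' ≠ d') : ∃ g : G, g • c = c' ∧ g • d = d' :=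
  (MulAction.is_two_pretransitive_iff.mp hS.two_transitive) h h'

theorem trans (hS : Cfsg.IsRankOneSetup G Ω a t Q) (c d : Ω) : ∃ g : G, g • c = d := by
  by_cases h : c = d
  · exact ⟨1, by simp [h]⟩
  · obtain ⟨g, hg, _⟩ := two_trans hS h (Ne.symm h)
    exact ⟨g, hg⟩

theorem stab_le_normalizer (hS : Cfsg.IsRankOneSetup G Ω a t Q) :
    stabilizer G a ≤ Subgroup.normalizer (Q : Set G) := by
  intro h hh
  rw [Subgroup.mem_normalizer_iff]
  intro n
  constructor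
  · exact hS.conj_mem h hh n
  · intro hn
    have := hS.conj_mem h⁻¹ (inv_mem hh) _ hn
    simpa [mul_assoc] using this

theorem exists_mul (hS : Cfsg.IsRankOneSetup G Ω a t Q) {g : G} (hg : g ∈ stabilizer G a) :
    ∃ q ∈ Q, ∃ d ∈ stabilizer G a ⊓ stabilizer G (t • a), g = q * d := by
  have h1 : ((Q ⊔ (stabilizer G a ⊓ stabilizer G (t • a)) : Subgroup G) : Set G) =
      (Q : Set G) * ((stabilizer G a ⊓ stabilizer G (t • a) : Subgroup G) : Set G) :=
    Subgroup.coe_mul_of_right_le_normalizer_left _ _ (inf_le_left.trans (stab_le_normalizer hS))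
  rw [← hS.sup_eq] at hg
  have h2 : g ∈ ((Q ⊔ (stabilizer G a ⊓ stabilizer G (t • a)) : Subgroup G) : Set G) := hg
  rw [h1] at h2
  obtain ⟨q, hq, d, hd, rfl⟩ := h2
  exact ⟨q, hq, d, hd, rfl⟩

/-- every point `≠ a` is `q • (t • a)` for some `q ∈ Q`. -/
theorem exists_smul_tsmul (hS : Cfsg.IsRankOneSetup G Ω a t Q) {c : Ω} (hc : c ≠ a) :
    ∃ q ∈ Q, q • (t • a) = c := by
  obtain ⟨g, hga, hgc⟩ := two_trans hS (Ne.symm (tsmul_ne hS)) (Ne.symm hc)
  have hg : g ∈ stabilizer G a := hga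
  obtain ⟨q, hq, d, hd, rfl⟩ := exists_mul hS hg
  refine ⟨q, hq, ?_⟩
  have hd2 : d • (t • a) = t • a := hd.2
  rw [mul_smul, hd2] at hgc
  exact hgc

/-- a non-identity element of `Q` fixes no point other than `a`. -/
theorem eq_one_of_smul_eq (hS : Cfsg.IsRankOneSetup G Ω a t Q) {c : Ω} (hc : c ≠ a) {x : G}
    (hx : x ∈ Q) (hxc : x • c = c) : x = 1 := by
  obtain ⟨q, hq, rfl⟩ := exists_smul_tsmul hS hc
  have h1 : q⁻¹ * x * q ∈ Q := mul_mem (mul_mem (inv_mem hq) hx) hq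
  have h2 : (q⁻¹ * x * q) • (t • a) = t • a := by
    rw [mul_smul, mul_smul, hxc, inv_smul_smul]
  have h3 : q⁻¹ * x * q ∈ Q ⊓ stabilizer G (t • a) := Subgroup.mem_inf.mpr ⟨h1, h2⟩
  rw [hS.inf_eq_bot, Subgroup.mem_bot] at h3
  have h4 : x = q * (q⁻¹ * x * q) * q⁻¹ := by group
  rw [h4, h3]; group

theorem smul_eq_of_mem (hS : Cfsg.IsRankOneSetup G Ω a t Q) {x : G} (hx : x ∈ Q) : x • a = a :=
  hS.le hx

/-- `Q` is regular on the points other than `a`. -/
theorem exists_unique_smul (hS : Cfsg.IsRankOneSetup G Ω a t Q) {c d : Ω} (hc : c ≠ a)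
    (hd : d ≠ a) : ∃! x : Q, (x : G) • c = d := by
  obtain ⟨q, hq, hqc⟩ := exists_smul_tsmul hS hc
  obtain ⟨q', hq', hqd⟩ := exists_smul_tsmul hS hd
  refine ⟨⟨q' * q⁻¹, mul_mem hq' (inv_mem hq)⟩, ?_, ?_⟩
  · show (q' * q⁻¹) • c = d
    rw [← hqc, ← hqd, mul_smul, inv_smul_smul]
  · rintro ⟨y, hy⟩ hyc
    have hyc' : y • c = d := hyc
    have h1 : ((q' * q⁻¹)⁻¹ * y) • c = c := by
      rw [mul_smul, hyc', ← hqd, ← hqc, mul_inv_rev, inv_inv, mul_smul, inv_smul_smul]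
    have h2 := eq_one_of_smul_eq hS hc (mul_mem (inv_mem (mul_mem hq' (inv_mem hq))) hy) h1
    apply Subtype.ext
    show y = q' * q⁻¹
    have h3 : y = (q' * q⁻¹) * ((q' * q⁻¹)⁻¹ * y) := by group
    rw [h3, h2, mul_one]

/-- the element of `Q` moving `c` to `d`. -/
theorem exists_mem_smul (hS : Cfsg.IsRankOneSetup G Ω a t Q) {c d : Ω} (hc : c ≠ a)
    (hd : d ≠ a) : ∃ x ∈ Q, x • c = d := by
  obtain ⟨⟨x, hx⟩, h, _⟩ := exists_unique_smul hS hc hd
  exact ⟨x, hx, h⟩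

theorem eq_of_smul_eq_smul (hS : Cfsg.IsRankOneSetup G Ω a t Q) {c : Ω} (hc : c ≠ a) {x y : G}
    (hx : x ∈ Q) (hy : y ∈ Q) (h : x • c = y • c) : x = y := by
  have h1 : (y⁻¹ * x) • c = c := by rw [mul_smul, h, inv_smul_smul]
  have h2 := eq_one_of_smul_eq hS hc (mul_mem (inv_mem hy) hx) h1
  have h3 : x = y * (y⁻¹ * x) := by group
  rw [h3, h2, mul_one]

theorem smul_ne_of_ne (_hS : Cfsg.IsRankOneSetup G Ω a t Q) {c : Ω} (hc : c ≠ a) {x : G}
    (hx : x ∈ stabilizer G a) : x • c ≠ a := by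
  intro h
  apply hc
  have hx' : x • a = a := hx
  rw [← hx'] at h
  exact smul_left_cancel x h

theorem exists_ne_one (hS : Cfsg.IsRankOneSetup G Ω a t Q) : ∃ x ∈ Q, x ≠ 1 := by
  by_contra h
  push Not at h
  have : Subsingleton Q := ⟨fun x y => Subtype.ext ((h x x.2).trans (h y y.2).symm)⟩
  have h1 : Nat.card Q = 1 := Nat.card_of_subsingleton (1 : Q)
  have h2 := hS.even_card
  rw [h1] at h2
  exact Nat.not_even_one h2

/-! ### finiteness and involutions -/

theorem eq_one_of_mul_self_of_odd [Finite G] {H : Subgroup G} (hodd : Odd (Nat.card H)) {d : G}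
    (hd : d ∈ H) (h2 : d * d = 1) : d = 1 := by
  have h1 : orderOf d ∣ 2 := orderOf_dvd_of_pow_eq_one (by rw [pow_two]; exact h2)
  have h3 : orderOf d ∣ Nat.card H := by
    have := orderOf_dvd_natCard (⟨d, hd⟩ : H)
    rwa [Subgroup.orderOf_mk] at this
  have h4 : orderOf d ∣ Nat.gcd 2 (Nat.card H) := Nat.dvd_gcd h1 h3
  have h5 : Nat.gcd 2 (Nat.card H) = 1 := Nat.coprime_two_left.mpr hodd
  rw [h5, Nat.dvd_one] at h4
  exact orderOf_eq_one_iff.mp h4

variable [Finite G]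

/-- an element of `G_a` with square one lies in `Q`. -/
theorem mem_of_mul_self (hS : Cfsg.IsRankOneSetup G Ω a t Q) {s : G} (hs : s ∈ stabilizer G a)
    (h2 : s * s = 1) : s ∈ Q := by
  obtain ⟨q, hq, d, hd, rfl⟩ := exists_mul hS hs
  have h3 : d * q * d⁻¹ ∈ Q := hS.conj_mem d hd.1 q hq
  have h4 : d * d = (q * (d * q * d⁻¹))⁻¹ := by
    have : q * (d * q * d⁻¹) * (d * d) = 1 := by
      calc q * (d * q * d⁻¹) * (d * d) = q * d * (q * d) := by group
        _ = 1 := h2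
    exact eq_inv_of_mul_eq_one_right this
  have h5 : d * d ∈ Q ⊓ stabilizer G (t • a) := by
    refine Subgroup.mem_inf.mpr ⟨?_, mul_mem hd.2 hd.2⟩
    rw [h4]; exact inv_mem (mul_mem hq h3)
  rw [hS.inf_eq_bot, Subgroup.mem_bot] at h5
  have h6 : d = 1 := eq_one_of_mul_self_of_odd hS.odd_card hd h5
  rw [h6, mul_one]; exact hq

/-- An involution in `G_a` fixes no other point. -/
theorem invol_fix_unique (hS : Cfsg.IsRankOneSetup G Ω a t Q) {s : G} (hs : s ∈ stabilizer G a)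
    (h1 : s ≠ 1) (h2 : s * s = 1) {c : Ω} (hc : s • c = c) : c = a := by
  by_contra hne
  exact h1 (eq_one_of_smul_eq hS hne (mem_of_mul_self hS hs h2) hc)

/-- An involution fixes at most one point. -/
theorem invol_fix_eq (hS : Cfsg.IsRankOneSetup G Ω a t Q) {u : G} (h1 : u ≠ 1) (h2 : u * u = 1)
    {c d : Ω} (hc : u • c = c) (hd : u • d = d) : c = d := by
  obtain ⟨g, hg⟩ := trans hS c a
  have hs : g * u * g⁻¹ ∈ stabilizer G a := by
    rw [mem_stabilizer_iff, mul_smul, mul_smul, ← hg, inv_smul_smul, hc]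
  have h1' : g * u * g⁻¹ ≠ 1 := by
    intro h; apply h1
    have : u = g⁻¹ * (g * u * g⁻¹) * g := by group
    rw [this, h]; group
  have h2' : (g * u * g⁻¹) * (g * u * g⁻¹) = 1 := by
    calc (g * u * g⁻¹) * (g * u * g⁻¹) = g * (u * u) * g⁻¹ := by group
      _ = 1 := by rw [h2]; group
  have hd' : (g * u * g⁻¹) • (g • d) = g • d := by
    rw [mul_smul, mul_smul, inv_smul_smul, hd]
  have := invol_fix_unique hS hs h1' h2' hd'
  rw [← hg] at this
  exact (smul_left_cancel g this).symm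

theorem finite_omega (hS : Cfsg.IsRankOneSetup G Ω a t Q) : Finite Ω := by
  have : Function.Surjective (fun g : G => g • a) := fun c => trans hS a c
  exact Finite.of_surjective _ this

theorem card_omega (hS : Cfsg.IsRankOneSetup G Ω a t Q) : Nat.card Ω = Nat.card Q + 1 := by
  classical
  have := finite_omega hS
  have e : Q ≃ {c : Ω // c ≠ a} := Equiv.ofBijective
    (fun x => ⟨(x : G) • (t • a), smul_ne_of_ne hS (tsmul_ne hS) (hS.le x.2)⟩) ⟨by
      intro x y h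
      have h' : (x : G) • (t • a) = (y : G) • (t • a) := congrArg Subtype.val h
      exact Subtype.ext (eq_of_smul_eq_smul hS (tsmul_ne hS) x.2 y.2 h'), by
      rintro ⟨c, hc⟩
      obtain ⟨q, hq, h⟩ := exists_smul_tsmul hS hc
      exact ⟨⟨q, hq⟩, Subtype.ext h⟩⟩
  rw [Nat.card_congr e, ← Finite.card_option]
  exact (Nat.card_congr (Equiv.optionSubtypeNe a)).symm

/-- Every involution fixes a point. -/
theorem invol_exists_fix (hS : Cfsg.IsRankOneSetup G Ω a t Q) {u : G} (h2 : u * u = 1) :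
    ∃ c : Ω, u • c = c := by
  have := finite_omega hS
  have := Fintype.ofFinite Ω
  have : Fact (Nat.Prime 2) := ⟨Nat.prime_two⟩
  have hcard : ¬ 2 ∣ Fintype.card Ω := by
    rw [← Nat.card_eq_fintype_card, card_omega hS]
    obtain ⟨k, hk⟩ := hS.even_card
    omega
  have hσ : (MulAction.toPerm u : Equiv.Perm Ω) ^ 2 ^ 1 = 1 := by
    ext c
    simp [pow_two, ← mul_smul, h2]
  obtain ⟨c, hc⟩ := Equiv.Perm.exists_fixed_point_of_prime (n := 1) hcard hσ
  exact ⟨c, hc⟩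

/-- Commuting involutions have the same fixed point. -/
theorem invol_comm_fix (hS : Cfsg.IsRankOneSetup G Ω a t Q) {u v : G} (hu1 : u ≠ 1)
    (hu2 : u * u = 1) (huv : u * v = v * u) {c : Ω} (hc : u • c = c) :
    v • c = c := by
  have h : u • (v • c) = v • c := by rw [← mul_smul, huv, mul_smul, hc]
  exact invol_fix_eq hS hu1 hu2 h hc

theorem t_inv (hS : Cfsg.IsRankOneSetup G Ω a t Q) : t⁻¹ = t :=
  inv_eq_of_mul_eq_one_left hS.mul_self

theorem t_smul_t_smul (hS : Cfsg.IsRankOneSetup G Ω a t Q) (c : Ω) : t • t • c = c := by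
  rw [← mul_smul, hS.mul_self, one_smul]

theorem card_stab (hS : Cfsg.IsRankOneSetup G Ω a t Q) :
    Nat.card (stabilizer G a) =
      Nat.card Q * Nat.card ↥(stabilizer G a ⊓ stabilizer G (t • a)) := by
  rw [← Nat.card_prod]
  symm
  apply Nat.card_congr
  refine Equiv.ofBijective (fun p : Q × ↥(stabilizer G a ⊓ stabilizer G (t • a)) =>
    (⟨(p.1 : G) * (p.2 : G), mul_mem (hS.le p.1.2) p.2.2.1⟩ : stabilizer G a)) ⟨?_, ?_⟩
  · rintro ⟨⟨q, hq⟩, ⟨d, hd⟩⟩ ⟨⟨q', hq'⟩, ⟨d', hd'⟩⟩ h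
    have h' : q * d = q' * d' := congrArg Subtype.val h
    have h1 : q'⁻¹ * q ∈ Q ⊓ stabilizer G (t • a) := by
      refine Subgroup.mem_inf.mpr ⟨mul_mem (inv_mem hq') hq, ?_⟩
      have h2 : q'⁻¹ * q = d' * d⁻¹ := by
        rw [inv_mul_eq_iff_eq_mul, ← mul_assoc, ← h', mul_inv_cancel_right]
      rw [h2]; exact mul_mem hd'.2 (inv_mem hd.2)
    rw [hS.inf_eq_bot, Subgroup.mem_bot] at h1
    have hq : q = q' := by rw [inv_mul_eq_one] at h1; exact h1.symm
    subst hq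
    have hd : d = d' := mul_left_cancel h'
    subst hd; rfl
  · rintro ⟨g, hg⟩
    obtain ⟨q, hq, d, hd, rfl⟩ := exists_mul hS hg
    exact ⟨(⟨q, hq⟩, ⟨d, hd⟩), rfl⟩

theorem card_group (hS : Cfsg.IsRankOneSetup G Ω a t Q) :
    Nat.card G = Nat.card Q * Nat.card ↥(stabilizer G a ⊓ stabilizer G (t • a)) *
      (Nat.card Q + 1) := by
  have : IsPretransitive G Ω := ⟨fun c d => trans hS c d⟩
  rw [← card_stab hS, ← card_omega hS, ← MulAction.index_stabilizer_of_transitive G a,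
    Subgroup.card_mul_index]

theorem exists_sylow_le (hS : Cfsg.IsRankOneSetup G Ω a t Q) :
    ∃ P : Sylow 2 G, (P : Subgroup G) ≤ Q := by
  have : Fact (Nat.Prime 2) := ⟨Nat.prime_two⟩
  obtain ⟨P0⟩ : Nonempty (Sylow 2 Q) := inferInstance
  have hcardP : Nat.card ((P0 : Subgroup Q).map Q.subtype) = 2 ^ (Nat.card G).factorization 2 := by
    rw [Subgroup.card_map_of_injective Q.subtype_injective, Sylow.card_eq_multiplicity]
    congr 1
    rw [card_group hS]
    have hQ : Nat.card Q ≠ 0 := Nat.card_pos.ne'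
    have hD : Nat.card ↥(stabilizer G a ⊓ stabilizer G (t • a)) ≠ 0 := Nat.card_pos.ne'
    rw [Nat.factorization_mul (mul_ne_zero hQ hD) (by omega), Nat.factorization_mul hQ hD]
    have h1 : (Nat.card ↥(stabilizer G a ⊓ stabilizer G (t • a))).factorization 2 = 0 := by
      apply Nat.factorization_eq_zero_of_not_dvd
      intro hdvd
      exact (Nat.not_even_iff_odd.mpr hS.odd_card) (even_iff_two_dvd.mpr hdvd)
    have h2 : (Nat.card Q + 1).factorization 2 = 0 := by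
      apply Nat.factorization_eq_zero_of_not_dvd
      obtain ⟨k, hk⟩ := hS.even_card
      omega
    rw [Finsupp.add_apply, Finsupp.add_apply, h1, h2, add_zero, add_zero]
  refine ⟨Sylow.ofCard _ hcardP, ?_⟩
  rw [Sylow.coe_ofCard]
  exact Subgroup.map_subtype_le _

theorem canonical_form (hS : Cfsg.IsRankOneSetup G Ω a t Q) {g : G} (hg : g ∉ stabilizer G a) :
    ∃! p : G × G, p.1 ∈ stabilizer G a ∧ p.2 ∈ Q ∧ g = p.1 * t * p.2 := by
  have hga : g⁻¹ • a ≠ a := fun h => hg (by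
    rw [mem_stabilizer_iff]
    have h1 := congrArg (fun c => g • c) h
    simpa using h1.symm)
  obtain ⟨y, hyQ, hy⟩ := exists_mem_smul hS hga (tsmul_ne hS)
  have key : ∀ y' ∈ Q, (g * y'⁻¹ * t⁻¹ ∈ stabilizer G a ↔ y' • (g⁻¹ • a) = t • a) := by
    intro y' _
    rw [mem_stabilizer_iff, t_inv hS, mul_smul, mul_smul]
    constructor
    · intro h
      have h1 := congrArg (fun c => y' • g⁻¹ • c) h
      simpa using h1.symm
    · intro h
      rw [← h, inv_smul_smul, smul_inv_smul]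
  refine ⟨(g * y⁻¹ * t⁻¹, y), ⟨(key y hyQ).mpr hy, hyQ, by group⟩, ?_⟩
  rintro ⟨x', y'⟩ ⟨hx', hy', hgeq⟩
  have hx'eq : x' = g * y'⁻¹ * t⁻¹ := by rw [hgeq]; group
  have h1 : y' • (g⁻¹ • a) = t • a := (key y' hy').mp (hx'eq ▸ hx')
  have h2 : y' = y := eq_of_smul_eq_smul hS hga hy' hyQ (h1.trans hy.symm)
  rw [hx'eq, h2]

end RankOne

end Cfsg.Agent.H24
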