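import Cfsg.Agent.H24.RankOneV

set_option autoImplicit false

namespace Cfsg.Agent.H24

open MulAction
open scoped Pointwise

namespace RankOne

variable {G Ω : Type*} [Group G] [MulAction G Ω] {a : Ω} {t : G} {Q : Subgroup G} [Finite G]

/-- every non-identity element of `K` acts fixed-point-freely on `Q`. -/
theorem K_fpf (hS : Cfsg.IsRankOneSetup G Ω a t Q) {x : G}
    (hx : x ∈ Cfsg.invertedBy (stabilizer G a ⊓ stabilizer G (t • a)) t) (hx1 : x ≠ 1) :
    Q ⊓ Subgroup.centralizer {x} = ⊥ := by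
  rw [eq_bot_iff]
  intro y hy
  rw [Subgroup.mem_bot]
  by_contra hy1
  obtain ⟨hyQ, hyC⟩ := Subgroup.mem_inf.mp hy
  have hxy : x * y = y * x := (Subgroup.mem_centralizer_iff.mp hyC) x rfl
  have hxD := hx.1
  have hxa : x • a = a := (Subgroup.mem_inf.mp hxD).1
  have hxb : x • (t • a) = t • a := (Subgroup.mem_inf.mp hxD).2
  have hyb_ne_b : y • (t • a) ≠ t • a := fun h =>
    hy1 (eq_one_of_smul_eq hS (tsmul_ne hS) hyQ h)
  have hyb_ne_a : y • (t • a) ≠ a := smul_ne_of_ne hS (tsmul_ne hS) (hS.le hyQ)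
  have h3 : ∃ b c d : Ω, b ≠ c ∧ b ≠ d ∧ c ≠ d ∧
      ∀ x' ∈ ({x} : Set G), x' • b = b ∧ x' • c = c ∧ x' • d = d := by
    refine ⟨a, t • a, y • (t • a), Ne.symm (tsmul_ne hS), Ne.symm hyb_ne_a, Ne.symm hyb_ne_b, ?_⟩
    intro x' hx'
    rw [Set.mem_singleton_iff] at hx'
    subst hx'
    refine ⟨hxa, hxb, ?_⟩
    rw [← mul_smul, hxy, mul_smul, hxb]
  have hXD : ({x} : Set G) ⊆ ((stabilizer G a ⊓ stabilizer G (t • a) : Subgroup G) : Set G) := by
    intro x' hx'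
    rw [Set.mem_singleton_iff] at hx'
    subst hx'
    exact hxD
  obtain ⟨z, hzC, hz1, hz2, hza⟩ := exists_centralizer_swap hS hXD h3
  have hk := tmul_mem_K hS hz2 hza
  have hxz : x * z = z * x := (Subgroup.mem_centralizer_iff.mp hzC) x rfl
  have hconj : (t * z) * x * (t * z)⁻¹ = x⁻¹ := by
    calc (t * z) * x * (t * z)⁻¹ = t * (z * x) * z⁻¹ * t⁻¹ := by group
      _ = t * (x * z) * z⁻¹ * t⁻¹ := by rw [hxz]
      _ = t * x * t⁻¹ := by group
      _ = x⁻¹ := hx.2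
  exact hx1 (eq_one_of_conj_eq_inv_of_odd hS.odd_card hk.1 hxD hconj)

/-- if `k ∈ K` is not the identity, every `x ∈ Q` is `k⁻¹ v k v⁻¹` for some `v ∈ Q`. -/
theorem K_comm_surj (hS : Cfsg.IsRankOneSetup G Ω a t Q) {k : G}
    (hk : k ∈ Cfsg.invertedBy (stabilizer G a ⊓ stabilizer G (t • a)) t) (hk1 : k ≠ 1)
    {x : G} (hx : x ∈ Q) : ∃ v ∈ Q, k⁻¹ * v * k * v⁻¹ = x := by
  have hfpf := K_fpf hS hk hk1
  have hka : k ∈ stabilizer G a := (Subgroup.mem_inf.mp hk.1).1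
  have hmem : ∀ v ∈ Q, k⁻¹ * v * k * v⁻¹ ∈ Q := by
    intro v hv
    have h1 := hS.conj_mem k⁻¹ (inv_mem hka) v hv
    rw [inv_inv] at h1
    exact mul_mem h1 (inv_mem hv)
  have hinj : Function.Injective (fun v : Q => (⟨k⁻¹ * v * k * (v : G)⁻¹, hmem v v.2⟩ : Q)) := by
    rintro ⟨v, hv⟩ ⟨w, hw⟩ h
    have h' : k⁻¹ * v * k * v⁻¹ = k⁻¹ * w * k * w⁻¹ := congrArg Subtype.val h
    have h1 : (w⁻¹ * v) * k = k * (w⁻¹ * v) := by
      have h2 : v * k * v⁻¹ = w * k * w⁻¹ := by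
        calc v * k * v⁻¹ = k * (k⁻¹ * v * k * v⁻¹) := by group
          _ = k * (k⁻¹ * w * k * w⁻¹) := by rw [h']
          _ = w * k * w⁻¹ := by group
      calc (w⁻¹ * v) * k = w⁻¹ * (v * k * v⁻¹) * v := by group
        _ = w⁻¹ * (w * k * w⁻¹) * v := by rw [h2]
        _ = k * (w⁻¹ * v) := by group
    have h3 : w⁻¹ * v ∈ Q ⊓ Subgroup.centralizer {k} := by
      refine Subgroup.mem_inf.mpr ⟨mul_mem (inv_mem hw) hv, ?_⟩
      rw [Subgroup.mem_centralizer_iff]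
      intro h hh
      rw [Set.mem_singleton_iff] at hh
      subst hh
      exact h1.symm
    rw [hfpf, Subgroup.mem_bot] at h3
    apply Subtype.ext
    show v = w
    calc v = w * (w⁻¹ * v) := by group
      _ = w := by rw [h3, mul_one]
  have hsurj := Finite.injective_iff_surjective.mp hinj
  obtain ⟨⟨v, hv⟩, hveq⟩ := hsurj ⟨x, hx⟩
  exact ⟨v, hv, congrArg Subtype.val hveq⟩

/-- the involutions of `G_a` are central in `Q`. -/
theorem invol_central (hS : Cfsg.IsRankOneSetup G Ω a t Q) {s : G}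
    (hs : s ∈ Cfsg.involutionsIn (stabilizer G a : Set G)) {x : G} (hx : x ∈ Q) :
    s * x = x * s := by
  have hs' : x * s * x⁻¹ ∈ Cfsg.involutionsIn (stabilizer G a : Set G) := by
    have h1 := invol_conj_mem hs (inv_mem (hS.le hx))
    rwa [inv_inv] at h1
  obtain ⟨k, hk, hkeq⟩ := exists_K_conj hS hs hs'
  by_cases hk1 : k = 1
  · rw [hk1] at hkeq
    have h1 : s = x * s * x⁻¹ := by simpa using hkeq
    calc s * x = (x * s * x⁻¹) * x := by rw [← h1]
      _ = x * s := by group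
  · exfalso
    obtain ⟨v, hv, hveq⟩ := K_comm_surj hS hk hk1 hx
    have hfpf := K_fpf hS hk hk1
    -- k x commutes with s and k x = v k v⁻¹
    have h1 : (k * x) * s * (k * x)⁻¹ = s := by
      calc (k * x) * s * (k * x)⁻¹ = k * (x * s * x⁻¹) * k⁻¹ := by group
        _ = k * (k⁻¹ * s * k) * k⁻¹ := by rw [hkeq]
        _ = s := by group
    have h2 : k * x = v * k * v⁻¹ := by rw [← hveq]; group
    have h3 : k * (v⁻¹ * s * v) = (v⁻¹ * s * v) * k := by
      calc k * (v⁻¹ * s * v) = v⁻¹ * ((v * k * v⁻¹) * s * (v * k * v⁻¹)⁻¹) * v * k := by group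
        _ = (v⁻¹ * s * v) * k := by rw [← h2, h1]
    have h4 : v⁻¹ * s * v ∈ Q ⊓ Subgroup.centralizer {k} := by
      refine Subgroup.mem_inf.mpr
        ⟨mul_mem (mul_mem (inv_mem hv) (mem_of_mul_self hS hs.1 hs.2.2)) hv, ?_⟩
      rw [Subgroup.mem_centralizer_iff]
      intro h hh
      rw [Set.mem_singleton_iff] at hh
      subst hh
      exact h3
    rw [hfpf, Subgroup.mem_bot] at h4
    apply hs.2.1
    calc s = v * (v⁻¹ * s * v) * v⁻¹ := by group
      _ = 1 := by rw [h4]; group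

theorem invol_mul (hS : Cfsg.IsRankOneSetup G Ω a t Q) {s s' : G}
    (hs : s ∈ Cfsg.involutionsIn (stabilizer G a : Set G))
    (hs' : s' ∈ Cfsg.involutionsIn (stabilizer G a : Set G)) :
    s * s' = 1 ∨ s * s' ∈ Cfsg.involutionsIn (stabilizer G a : Set G) := by
  by_cases h : s * s' = 1
  · exact Or.inl h
  · right
    have hcomm : s * s' = s' * s := invol_central hS hs (mem_of_mul_self hS hs'.1 hs'.2.2)
    refine ⟨mul_mem hs.1 hs'.1, h, ?_⟩
    calc (s * s') * (s * s') = s * (s' * s) * s' := by group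
      _ = s * (s * s') * s' := by rw [hcomm]
      _ = (s * s) * (s' * s') := by group
      _ = 1 := by rw [hs.2.2, hs'.2.2, mul_one]

end RankOne

end Cfsg.Agent.H24
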