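import Cfsg.Agent.H24.RankOneK

set_option autoImplicit false

namespace Cfsg.Agent.H24

open MulAction
open scoped Pointwise

theorem odd_orderOf_of_mem {G : Type*} [Group G] [Finite G] {H : Subgroup G}
    (hodd : Odd (Nat.card H)) {k : G} (hk : k ∈ H) : Odd (orderOf k) := by
  have h3 : orderOf k ∣ Nat.card H := by
    have := orderOf_dvd_natCard (⟨k, hk⟩ : H)
    rwa [Subgroup.orderOf_mk] at this
  exact Odd.of_dvd_nat hodd h3

theorem even_card_of_invol {G : Type*} [Group G] [Finite G] {H : Subgroup G} {s : G}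
    (hs : s ∈ H) (hs1 : s ≠ 1) (hs2 : s * s = 1) : Even (Nat.card H) := by
  have : Fact (Nat.Prime 2) := ⟨Nat.prime_two⟩
  have h1 : orderOf s = 2 := orderOf_eq_prime (by rw [pow_two]; exact hs2) hs1
  have h3 : orderOf s ∣ Nat.card H := by
    have := orderOf_dvd_natCard (⟨s, hs⟩ : H)
    rwa [Subgroup.orderOf_mk] at this
  rw [h1] at h3
  exact even_iff_two_dvd.mpr h3

/-- In a group of odd order no non-identity element is conjugate to its inverse. -/
theorem eq_one_of_conj_eq_inv_of_odd {G : Type*} [Group G] [Finite G] {H : Subgroup G}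
    (hodd : Odd (Nat.card H)) {k x : G} (hk : k ∈ H) (hx : x ∈ H) (h : k * x * k⁻¹ = x⁻¹) :
    x = 1 := by
  have hk2 : (k * k) * x * (k * k)⁻¹ = x := by
    calc (k * k) * x * (k * k)⁻¹ = k * (k * x * k⁻¹) * k⁻¹ := by group
      _ = k * x⁻¹ * k⁻¹ := by rw [h]
      _ = (k * x * k⁻¹)⁻¹ := by group
      _ = x := by rw [h, inv_inv]
  obtain ⟨m, hm⟩ := odd_orderOf_of_mem hodd hk
  have hkpow : (k * k) ^ (m + 1) = k := by
    rw [← pow_two, ← pow_mul]
    have h1 : 2 * (m + 1) = orderOf k + 1 := by omega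
    rw [h1, pow_succ, pow_orderOf_eq_one, one_mul]
  have hcomm : Commute (k * k) x := by
    show (k * k) * x = x * (k * k)
    calc (k * k) * x = ((k * k) * x * (k * k)⁻¹) * (k * k) := by group
      _ = x * (k * k) := by rw [hk2]
  have hkx : k * x = x * k := by
    have h1 := hcomm.pow_left (m + 1)
    rw [hkpow] at h1
    exact h1
  have hxx : x⁻¹ = x := by
    rw [← h, hkx]; group
  have h2 : x * x = 1 := by
    nth_rewrite 2 [← hxx]; exact mul_inv_cancel x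
  exact RankOne.eq_one_of_mul_self_of_odd hodd hx h2

namespace RankOne

variable {G Ω : Type*} [Group G] [MulAction G Ω] {a : Ω} {t : G} {Q : Subgroup G} [Finite G]

/-- If `X` fixes `e`, `c`, `c'` (`c, c' ≠ e`) then some `y ∈ C(X)` fixes `e` and maps `c` to `c'`. -/
theorem exists_centralizer_smul (hS : Cfsg.IsRankOneSetup G Ω a t Q) {X : Set G} {e c c' : Ω}
    (he : ∀ x ∈ X, x • e = e) (hc : ∀ x ∈ X, x • c = c) (hc' : ∀ x ∈ X, x • c' = c')
    (hce : c ≠ e) (hc'e : c' ≠ e) :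
    ∃ y ∈ Subgroup.centralizer X, y • e = e ∧ y • c = c' ∧ (e = a → y ∈ Q) := by
  obtain ⟨g, hg⟩ := trans hS a e
  have h1 : g⁻¹ • c ≠ a := by
    intro h; apply hce; rw [← hg, ← h, smul_inv_smul]
  have h2 : g⁻¹ • c' ≠ a := by
    intro h; apply hc'e; rw [← hg, ← h, smul_inv_smul]
  obtain ⟨y0, hy0Q, hy0⟩ := exists_mem_smul hS h1 h2
  refine ⟨g * y0 * g⁻¹, ?_, ?_, ?_, ?_⟩
  · rw [Subgroup.mem_centralizer_iff]
    intro x hx
    have hx'a : g⁻¹ * x * g ∈ stabilizer G a := by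
      rw [mem_stabilizer_iff]
      simp only [mul_smul]
      rw [hg, he x hx, ← hg, inv_smul_smul]
    have h3 : (g⁻¹ * x * g) * y0 * (g⁻¹ * x * g)⁻¹ ∈ Q := hS.conj_mem _ hx'a y0 hy0Q
    have h4 : ((g⁻¹ * x * g) * y0 * (g⁻¹ * x * g)⁻¹) • (g⁻¹ • c) = y0 • (g⁻¹ • c) := by
      have hxinv : x⁻¹ • c = c := by rw [inv_smul_eq_iff, hc x hx]
      rw [hy0]
      have h5 : (g⁻¹ * x * g)⁻¹ = g⁻¹ * x⁻¹ * g := by group
      rw [h5]
      simp only [mul_smul]
      rw [smul_inv_smul, hxinv, hy0, smul_inv_smul, hc' x hx]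
    have h5 := eq_of_smul_eq_smul hS h1 h3 hy0Q h4
    calc x * (g * y0 * g⁻¹) = g * ((g⁻¹ * x * g) * y0 * (g⁻¹ * x * g)⁻¹) * g⁻¹ * x := by group
      _ = g * y0 * g⁻¹ * x := by rw [h5]
  · simp only [mul_smul]
    rw [← hg, inv_smul_smul, smul_eq_of_mem hS hy0Q]
  · simp only [mul_smul]
    rw [hy0, smul_inv_smul]
  · intro hea
    have hga : g ∈ stabilizer G a := by rw [mem_stabilizer_iff, hg, hea]
    exact hS.conj_mem g hga y0 hy0Q

/-- `C_G(X)` is doubly transitive on the fixed points of `X` when there are at least three. -/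
theorem centralizer_two_trans (hS : Cfsg.IsRankOneSetup G Ω a t Q) {X : Set G}
    (h3 : ∃ b c d : Ω, b ≠ c ∧ b ≠ d ∧ c ≠ d ∧ ∀ x ∈ X, x • b = b ∧ x • c = c ∧ x • d = d)
    {b₁ b₂ c₁ c₂ : Ω} (hb₁ : ∀ x ∈ X, x • b₁ = b₁) (hb₂ : ∀ x ∈ X, x • b₂ = b₂)
    (hc₁ : ∀ x ∈ X, x • c₁ = c₁) (hc₂ : ∀ x ∈ X, x • c₂ = c₂) (hb : b₁ ≠ b₂) (hc : c₁ ≠ c₂) :
    ∃ g ∈ Subgroup.centralizer X, g • b₁ = c₁ ∧ g • b₂ = c₂ := by
  have step1 : ∃ g1 ∈ Subgroup.centralizer X, g1 • b₁ = c₁ := by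
    by_cases h : b₁ = c₁
    · exact ⟨1, one_mem _, by rw [one_smul, h]⟩
    · obtain ⟨b, c, d, hbc, hbd, hcd, hfix⟩ := h3
      have hex : ∃ e, (∀ x ∈ X, x • e = e) ∧ b₁ ≠ e ∧ c₁ ≠ e := by
        by_cases hb1 : b₁ = b
        · by_cases hc1 : c₁ = c
          · exact ⟨d, fun x hx => (hfix x hx).2.2, by rw [hb1]; exact hbd, by rw [hc1]; exact hcd⟩
          · exact ⟨c, fun x hx => (hfix x hx).2.1, by rw [hb1]; exact hbc, hc1⟩
        · by_cases hc1 : c₁ = b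
          · by_cases hb1' : b₁ = c
            · exact ⟨d, fun x hx => (hfix x hx).2.2, by rw [hb1']; exact hcd,
                by rw [hc1]; exact hbd⟩
            · exact ⟨c, fun x hx => (hfix x hx).2.1, hb1', by rw [hc1]; exact hbc⟩
          · exact ⟨b, fun x hx => (hfix x hx).1, hb1, hc1⟩
      obtain ⟨e, he, hb1e, hc1e⟩ := hex
      obtain ⟨y, hy, -, hyb, -⟩ := exists_centralizer_smul hS he hb₁ hc₁ hb1e hc1e
      exact ⟨y, hy, hyb⟩
  obtain ⟨g1, hg1, hg1b⟩ := step1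
  have hfix2 : ∀ x ∈ X, x • (g1 • b₂) = g1 • b₂ := by
    intro x hx
    rw [← mul_smul, (Subgroup.mem_centralizer_iff.mp hg1) x hx, mul_smul, hb₂ x hx]
  have hne : g1 • b₂ ≠ c₁ := by
    intro h; apply hb; rw [← hg1b] at h; exact (smul_left_cancel g1 h).symm
  obtain ⟨g2, hg2, hg2c, hg2b, -⟩ := exists_centralizer_smul hS hc₁ hfix2 hc₂ hne (Ne.symm hc)
  exact ⟨g2 * g1, mul_mem hg2 hg1, by rw [mul_smul, hg1b, hg2c], by rw [mul_smul, hg2b]⟩

/-- If `X ⊆ D` fixes three points, some involution of `C(X)` swaps `a` and `t • a`. -/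
theorem exists_centralizer_swap (hS : Cfsg.IsRankOneSetup G Ω a t Q) {X : Set G}
    (hX : X ⊆ ((stabilizer G a ⊓ stabilizer G (t • a) : Subgroup G) : Set G))
    (h3 : ∃ b c d : Ω, b ≠ c ∧ b ≠ d ∧ c ≠ d ∧ ∀ x ∈ X, x • b = b ∧ x • c = c ∧ x • d = d) :
    ∃ z ∈ Subgroup.centralizer X, z ≠ 1 ∧ z * z = 1 ∧ z • a = t • a := by
  have hXa : ∀ x ∈ X, x • a = a := fun x hx => (Subgroup.mem_inf.mp (hX hx)).1
  have hXb : ∀ x ∈ X, x • (t • a) = t • a := fun x hx => (Subgroup.mem_inf.mp (hX hx)).2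
  obtain ⟨g, hgC, hga, hgb⟩ := centralizer_two_trans hS h3 hXa hXb hXb hXa
    (Ne.symm (tsmul_ne hS)) (tsmul_ne hS)
  have hg2 : ∀ j : ℕ, (g ^ (2 * j)) • a = a ∧ (g ^ (2 * j)) • (t • a) = t • a := by
    intro j
    induction j with
    | zero => simp
    | succ j ih =>
      have h1 : g ^ (2 * (j + 1)) = g ^ (2 * j) * g * g := by
        rw [mul_add, pow_add, mul_one, pow_two, mul_assoc]
      rw [h1]
      simp only [mul_smul]
      refine ⟨?_, ?_⟩
      · rw [hga, hgb, ih.1]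
      · rw [hgb, hga, ih.2]
  have hgodd : ∀ j : ℕ, (g ^ (2 * j + 1)) • a = t • a := by
    intro j; rw [pow_succ, mul_smul, hga, (hg2 j).2]
  have hnpos : 0 < orderOf g := orderOf_pos g
  have hneven : Even (orderOf g) := by
    by_contra hodd
    rw [Nat.not_even_iff_odd] at hodd
    obtain ⟨j, hj⟩ := hodd
    have h1 := hgodd j
    rw [← hj, pow_orderOf_eq_one, one_smul] at h1
    exact tsmul_ne hS h1.symm
  obtain ⟨k, hk⟩ := hneven
  have hz2 : g ^ k * g ^ k = 1 := by rw [← pow_add, ← hk, pow_orderOf_eq_one]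
  have hz1 : g ^ k ≠ 1 := by
    intro h
    have h1 := orderOf_dvd_of_pow_eq_one h
    have h2 := Nat.le_of_dvd (by omega) h1
    omega
  have hzC : g ^ k ∈ Subgroup.centralizer X := pow_mem hgC k
  refine ⟨g ^ k, hzC, hz1, hz2, ?_⟩
  rcases Nat.even_or_odd k with hke | hko
  · exfalso
    obtain ⟨j, hj⟩ := hke
    have h1 := hg2 j
    rw [two_mul, ← hj] at h1
    exact tsmul_ne hS (invol_fix_eq hS hz1 hz2 h1.2 h1.1)
  · obtain ⟨j, hj⟩ := hko
    rw [hj]; exact hgodd j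

/-- square roots in `K`. -/
theorem K_sqrt (hS : Cfsg.IsRankOneSetup G Ω a t Q) {k : G}
    (hk : k ∈ Cfsg.invertedBy (stabilizer G a ⊓ stabilizer G (t • a)) t) :
    ∃ l ∈ Cfsg.invertedBy (stabilizer G a ⊓ stabilizer G (t • a)) t, l * l = k := by
  obtain ⟨m, hm⟩ := odd_orderOf_of_mem hS.odd_card hk.1
  refine ⟨k ^ (m + 1), ⟨pow_mem hk.1 _, ?_⟩, ?_⟩
  · rw [← conj_pow, hk.2, inv_pow]
  · rw [← pow_add]
    have h1 : m + 1 + (m + 1) = orderOf k + 1 := by omega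
    rw [h1, pow_succ, pow_orderOf_eq_one, one_mul]

/-- every involution swapping `a` and `t • a` is a `D`-conjugate of `t`. -/
theorem exists_conj_eq_t (hS : Cfsg.IsRankOneSetup G Ω a t Q) {z : G} (hz2 : z * z = 1)
    (hza : z • a = t • a) :
    ∃ l ∈ Cfsg.invertedBy (stabilizer G a ⊓ stabilizer G (t • a)) t, l * z * l⁻¹ = t := by
  obtain ⟨l, hl, hll⟩ := K_sqrt hS (tmul_mem_K hS hz2 hza)
  refine ⟨l, hl, ?_⟩
  have h1 : z = t * l * l := by
    rw [mul_assoc, hll, ← mul_assoc, hS.mul_self, one_mul]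
  have h2 : t * l = l⁻¹ * t := by
    have h3 := hl.2
    calc t * l = (t * l * t⁻¹) * t := by group
      _ = l⁻¹ * t := by rw [h3]
  calc l * z * l⁻¹ = l * (t * l) := by rw [h1]; group
    _ = t := by rw [h2]; group

end RankOne

end Cfsg.Agent.H24
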