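import Cfsg.Agent.H24.RankOne

set_option autoImplicit false

namespace Cfsg.Agent.H24

open MulAction
open scoped Pointwise

/-! ### dihedral computations -/

theorem invol_conj_pow {G : Type*} [Group G] {s u : G} (hs : s * s = 1) (hu : u * u = 1)
    (k : ℕ) : s * (s * u) ^ k * s = ((s * u) ^ k)⁻¹ := by
  have hs' : s⁻¹ = s := inv_eq_of_mul_eq_one_left hs
  have hu' : u⁻¹ = u := inv_eq_of_mul_eq_one_left hu
  have h1 : s * (s * u) * s⁻¹ = (s * u)⁻¹ := by
    rw [mul_inv_rev, hs', hu', ← mul_assoc, hs, one_mul]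
  calc s * (s * u) ^ k * s = s * (s * u) ^ k * s⁻¹ := by rw [hs']
    _ = (s * (s * u) * s⁻¹) ^ k := conj_pow.symm
    _ = ((s * u) ^ k)⁻¹ := by rw [h1, inv_pow]

theorem invol_conj_pow' {G : Type*} [Group G] {s u : G} (hs : s * s = 1) (hu : u * u = 1)
    (k : ℕ) : u * (s * u) ^ k * u = ((s * u) ^ k)⁻¹ := by
  have hs' : s⁻¹ = s := inv_eq_of_mul_eq_one_left hs
  have hu' : u⁻¹ = u := inv_eq_of_mul_eq_one_left hu
  have h1 : u * (s * u) * u⁻¹ = (s * u)⁻¹ := by
    rw [mul_inv_rev, hs', hu', mul_assoc u, mul_assoc s, hu, mul_one]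
  calc u * (s * u) ^ k * u = u * (s * u) ^ k * u⁻¹ := by rw [hu']
    _ = (u * (s * u) * u⁻¹) ^ k := conj_pow.symm
    _ = ((s * u) ^ k)⁻¹ := by rw [h1, inv_pow]

/-- Two involutions whose product has odd order are conjugate. -/
theorem conj_of_odd_orderOf_mul {G : Type*} [Group G] {u v : G} (hu2 : u * u = 1)
    (hv2 : v * v = 1) (hodd : Odd (orderOf (u * v))) : ∃ g : G, g * u * g⁻¹ = v := by
  obtain ⟨k, hk⟩ := hodd
  refine ⟨(u * v) ^ k, ?_⟩
  have hu' : u⁻¹ = u := inv_eq_of_mul_eq_one_left hu2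
  have hv' : v⁻¹ = v := inv_eq_of_mul_eq_one_left hv2
  set R := (u * v) ^ k with hR
  have h1 : u * R * u = R⁻¹ := invol_conj_pow hu2 hv2 k
  have h2 : R * R * (u * v) = 1 := by
    rw [hR, ← pow_add, ← pow_succ, ← two_mul, ← hk, pow_orderOf_eq_one]
  have h3 : R * R = v * u := by
    have := eq_inv_of_mul_eq_one_left h2
    rw [this, mul_inv_rev, hv', hu']
  calc R * u * R⁻¹ = R * u * (u * R * u) := by rw [h1]
    _ = R * (u * u) * R * u := by group
    _ = R * R * u := by rw [hu2, mul_one]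
    _ = v := by rw [h3, mul_assoc, hu2, mul_one]

namespace RankOne

variable {G Ω : Type*} [Group G] [MulAction G Ω] {a : Ω} {t : G} {Q : Subgroup G} [Finite G]

/-- If the involution `u` fixes `c` and the involution `v` does not, `u * v` has odd order. -/
theorem odd_orderOf_mul (hS : Cfsg.IsRankOneSetup G Ω a t Q) {u v : G} (hu1 : u ≠ 1)
    (hu2 : u * u = 1) (hv2 : v * v = 1) {c : Ω} (hc : u • c = c) (hvc : v • c ≠ c) :
    Odd (orderOf (u * v)) := by
  by_contra hodd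
  rw [Nat.not_odd_iff_even] at hodd
  obtain ⟨k, hk⟩ := hodd
  have hpos : 0 < orderOf (u * v) := orderOf_pos _
  set z := (u * v) ^ k with hz
  have hz2 : z * z = 1 := by rw [hz, ← pow_add, ← hk, pow_orderOf_eq_one]
  have hz1 : z ≠ 1 := by
    intro h
    have h1 := orderOf_dvd_of_pow_eq_one h
    have h2 := Nat.le_of_dvd (by omega) h1
    omega
  have hzinv : z⁻¹ = z := inv_eq_of_mul_eq_one_left hz2
  have huz : u * z = z * u := by
    have h1 := invol_conj_pow hu2 hv2 k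
    rw [← hz, hzinv] at h1
    calc u * z = u * z * (u * u) := by rw [hu2, mul_one]
      _ = (u * z * u) * u := by group
      _ = z * u := by rw [h1]
  have hvz : v * z = z * v := by
    have h1 := invol_conj_pow' hu2 hv2 k
    rw [← hz, hzinv] at h1
    calc v * z = v * z * (v * v) := by rw [hv2, mul_one]
      _ = (v * z * v) * v := by group
      _ = z * v := by rw [h1]
  have hzc : z • c = c := invol_comm_fix hS hu1 hu2 huz hc
  obtain ⟨d, hd⟩ := invol_exists_fix hS hv2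
  have hv1 : v ≠ 1 := by rintro rfl; exact hvc (one_smul _ _)
  have hzd : z • d = d := invol_comm_fix hS hv1 hv2 hvz hd
  have hcd : c = d := invol_fix_eq hS hz1 hz2 hzc hzd
  exact hvc (hcd ▸ hd)

theorem conj_ne_one {g u : G} (hu1 : u ≠ 1) : g * u * g⁻¹ ≠ 1 := by
  intro h; apply hu1
  have : u = g⁻¹ * (g * u * g⁻¹) * g := by group
  rw [this, h]; group

theorem conj_mul_self {g u : G} (hu2 : u * u = 1) : (g * u * g⁻¹) * (g * u * g⁻¹) = 1 := by
  calc (g * u * g⁻¹) * (g * u * g⁻¹) = g * (u * u) * g⁻¹ := by group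
    _ = 1 := by rw [hu2]; group

/-- All involutions are conjugate. -/
theorem invol_conj (hS : Cfsg.IsRankOneSetup G Ω a t Q) {u v : G} (hu1 : u ≠ 1)
    (hu2 : u * u = 1) (hv1 : v ≠ 1) (hv2 : v * v = 1) : ∃ g : G, g * u * g⁻¹ = v := by
  obtain ⟨c, hc⟩ := invol_exists_fix hS hu2
  by_cases hvc : v • c = c
  · obtain ⟨h, hh⟩ : ∃ h : G, h • c ≠ c := by
      by_cases hca : c = a
      · obtain ⟨h, hh⟩ := trans hS c (t • a)
        exact ⟨h, by rw [hh, hca]; exact tsmul_ne hS⟩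
      · obtain ⟨h, hh⟩ := trans hS c a
        exact ⟨h, by rw [hh]; exact fun h' => hca h'.symm⟩
    have hw1 : h * u * h⁻¹ ≠ 1 := conj_ne_one hu1
    have hw2 : (h * u * h⁻¹) * (h * u * h⁻¹) = 1 := conj_mul_self hu2
    have hwfix : (h * u * h⁻¹) • (h • c) = h • c := by
      rw [mul_smul, mul_smul, inv_smul_smul, hc]
    have hwc : (h * u * h⁻¹) • c ≠ c := by
      intro h'; exact hh (invol_fix_eq hS hw1 hw2 hwfix h')
    obtain ⟨g, hg⟩ := conj_of_odd_orderOf_mul hv2 hw2 (odd_orderOf_mul hS hv1 hv2 hw2 hvc hwc)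
    refine ⟨g⁻¹ * h, ?_⟩
    have h3 : v = g⁻¹ * (h * u * h⁻¹) * g := by rw [← hg]; group
    rw [h3]; group
  · exact conj_of_odd_orderOf_mul hu2 hv2 (odd_orderOf_mul hS hu1 hu2 hv2 hc hvc)

end RankOne

end Cfsg.Agent.H24
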