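import Cfsg.Agent.H24.RankOneInv
import Cfsg.Agent.H24.InvDecomp

set_option autoImplicit false

namespace Cfsg.Agent.H24

open MulAction
open scoped Pointwise

theorem eq_of_mul_self_eq_of_odd {G : Type*} [Group G] {x y : G} (hx : Odd (orderOf x))
    (hy : Odd (orderOf y)) (h : x * x = y * y) : x = y := by
  have h1 : orderOf (x ^ 2) = orderOf x :=
    Nat.Coprime.orderOf_pow (Nat.coprime_two_right.mpr hx)
  have h2 : orderOf (y ^ 2) = orderOf y :=
    Nat.Coprime.orderOf_pow (Nat.coprime_two_right.mpr hy)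
  have h3 : x ^ 2 = y ^ 2 := by rw [pow_two, pow_two, h]
  have h4 : orderOf x = orderOf y := by rw [← h1, ← h2, h3]
  obtain ⟨m, hm⟩ := hx
  have hx' : x = (x ^ 2) ^ (m + 1) := by
    rw [← pow_mul]
    have h5 : 2 * (m + 1) = orderOf x + 1 := by omega
    rw [h5, pow_succ, pow_orderOf_eq_one, one_mul]
  have hy' : y = (y ^ 2) ^ (m + 1) := by
    rw [← pow_mul]
    have h5 : 2 * (m + 1) = orderOf y + 1 := by omega
    rw [h5, pow_succ, pow_orderOf_eq_one, one_mul]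
  rw [hx', hy', h3]

namespace RankOne

variable {G Ω : Type*} [Group G] [MulAction G Ω] {a : Ω} {t : G} {Q : Subgroup G} [Finite G]

/-- The unique pair `(s, r)` with `t s t = r⁻¹ t r`. -/
theorem exists_unique_pair (hS : Cfsg.IsRankOneSetup G Ω a t Q) :
    ∃! p : G × G, p.1 ∈ Cfsg.involutionsIn (stabilizer G a : Set G) ∧ p.2 ∈ Q ∧
      t * p.1 * t = p.2⁻¹ * t * p.2 := by
  obtain ⟨c, hc⟩ := invol_exists_fix hS hS.mul_self
  have hca : c ≠ a := fun h => tsmul_ne hS (h ▸ hc)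
  obtain ⟨r, hrQ, hr⟩ := exists_mem_smul hS (tsmul_ne hS) hca
  have hw2 : (r⁻¹ * t * r) * (r⁻¹ * t * r) = 1 := by
    calc (r⁻¹ * t * r) * (r⁻¹ * t * r) = r⁻¹ * (t * t) * r := by group
      _ = 1 := by rw [hS.mul_self]; group
  have h1 : t * (t * (r⁻¹ * t * r) * t) * t = r⁻¹ * t * r := by
    calc t * (t * (r⁻¹ * t * r) * t) * t = (t * t) * (r⁻¹ * t * r) * (t * t) := by group
      _ = r⁻¹ * t * r := by rw [hS.mul_self]; group
  have hs2 : (t * (r⁻¹ * t * r) * t) * (t * (r⁻¹ * t * r) * t) = 1 := by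
    calc (t * (r⁻¹ * t * r) * t) * (t * (r⁻¹ * t * r) * t)
        = t * (r⁻¹ * t * r) * (t * t) * (r⁻¹ * t * r) * t := by group
      _ = t * ((r⁻¹ * t * r) * (r⁻¹ * t * r)) * t := by rw [hS.mul_self]; group
      _ = 1 := by rw [hw2, mul_one, hS.mul_self]
  have hs1 : t * (r⁻¹ * t * r) * t ≠ 1 := by
    intro h
    rw [h, mul_one, hS.mul_self] at h1
    apply hS.ne_one
    have h2 : t = r * (r⁻¹ * t * r) * r⁻¹ := by group
    rw [h2, ← h1]; group
  have hsa : t * (r⁻¹ * t * r) * t ∈ stabilizer G a := by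
    rw [mem_stabilizer_iff]
    simp only [mul_smul]
    rw [hr, hc, ← hr, inv_smul_smul, t_smul_t_smul hS]
  refine ⟨(t * (r⁻¹ * t * r) * t, r), ⟨⟨hsa, hs1, hs2⟩, hrQ, h1⟩, ?_⟩
  rintro ⟨s', r'⟩ ⟨⟨hs'a, hs'1, hs'2⟩, hr'Q, heq⟩
  have hs'a' : s' • a = a := hs'a
  have heq' : t * s' * t = r'⁻¹ * t * r' := heq
  have hfix1 : (t * s' * t) • (t • a) = t • a := by
    simp only [mul_smul]
    rw [t_smul_t_smul hS, hs'a']
  have hfix2 : (r'⁻¹ * t * r') • (r'⁻¹ • c) = r'⁻¹ • c := by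
    simp only [mul_smul]
    rw [smul_inv_smul, hc]
  have hne : t * s' * t ≠ 1 := by
    have h2 := conj_ne_one (g := t) hs'1; rwa [t_inv hS] at h2
  have hsq : (t * s' * t) * (t * s' * t) = 1 := by
    have h2 := conj_mul_self (g := t) hs'2; rwa [t_inv hS] at h2
  rw [← heq'] at hfix2
  have h2 : t • a = r'⁻¹ • c := invol_fix_eq hS hne hsq hfix1 hfix2
  have h3 : r' • (t • a) = c := by rw [h2, smul_inv_smul]
  have h4 : r' = r := eq_of_smul_eq_smul hS (tsmul_ne hS) hr'Q hrQ (h3.trans hr.symm)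
  have h5 : s' = t * (t * s' * t) * t := by
    calc s' = (t * t) * s' * (t * t) := by rw [hS.mul_self]; group
      _ = t * (t * s' * t) * t := by group
  have h6 : s' = t * (r⁻¹ * t * r) * t := by
    rw [h5, heq', h4]
  show (s', r') = (t * (r⁻¹ * t * r) * t, r)
  rw [h6, h4]

/-! ### the set `K` of elements of `D` inverted by `t` -/

theorem K_inv_mem {k : G}
    (hk : k ∈ Cfsg.invertedBy (stabilizer G a ⊓ stabilizer G (t • a)) t) :
    k⁻¹ ∈ Cfsg.invertedBy (stabilizer G a ⊓ stabilizer G (t • a)) t := by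
  refine ⟨inv_mem hk.1, ?_⟩
  calc t * k⁻¹ * t⁻¹ = (t * k * t⁻¹)⁻¹ := by group
    _ = k⁻¹⁻¹ := by rw [hk.2]

theorem K_tmul_self (hS : Cfsg.IsRankOneSetup G Ω a t Q) {k : G}
    (hk : k ∈ Cfsg.invertedBy (stabilizer G a ⊓ stabilizer G (t • a)) t) :
    (t * k) * (t * k) = 1 := by
  have h := hk.2
  rw [t_inv hS] at h
  calc (t * k) * (t * k) = (t * k * t) * k := by group
    _ = 1 := by rw [h]; group

/-- an involution `w` swapping `a` and `t • a` gives the element `t * w` of `K`. -/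
theorem tmul_mem_K (hS : Cfsg.IsRankOneSetup G Ω a t Q) {w : G} (hw2 : w * w = 1)
    (hwa : w • a = t • a) :
    t * w ∈ Cfsg.invertedBy (stabilizer G a ⊓ stabilizer G (t • a)) t := by
  have hwb : w • (t • a) = a := by rw [← hwa, ← mul_smul, hw2, one_smul]
  have hwinv : w⁻¹ = w := inv_eq_of_mul_eq_one_left hw2
  refine ⟨Subgroup.mem_inf.mpr ⟨?_, ?_⟩, ?_⟩
  · rw [mem_stabilizer_iff, mul_smul, hwa, t_smul_t_smul hS]
  · rw [mem_stabilizer_iff, mul_smul, hwb]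
  · rw [mul_inv_rev, hwinv, t_inv hS, ← mul_assoc, hS.mul_self, one_mul]

theorem invol_conj_mem {s d : G} (hs : s ∈ Cfsg.involutionsIn (stabilizer G a : Set G))
    (hd : d ∈ stabilizer G a) : d⁻¹ * s * d ∈ Cfsg.involutionsIn (stabilizer G a : Set G) := by
  obtain ⟨hsa, hs1, hs2⟩ := hs
  refine ⟨mul_mem (mul_mem (inv_mem hd) hsa) hd, ?_, ?_⟩
  · have h := conj_ne_one (g := d⁻¹) hs1; rwa [inv_inv] at h
  · have h := conj_mul_self (g := d⁻¹) hs2; rwa [inv_inv] at h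

/-- `K` acts transitively on the involutions of `G_a`. -/
theorem exists_K_conj (hS : Cfsg.IsRankOneSetup G Ω a t Q) {s s' : G}
    (hs : s ∈ Cfsg.involutionsIn (stabilizer G a : Set G))
    (hs' : s' ∈ Cfsg.involutionsIn (stabilizer G a : Set G)) :
    ∃ k ∈ Cfsg.invertedBy (stabilizer G a ⊓ stabilizer G (t • a)) t, k⁻¹ * s * k = s' := by
  obtain ⟨hsa, hs1, hs2⟩ := hs
  obtain ⟨hs'a, hs'1, hs'2⟩ := hs'
  have hsa' : s • a = a := hsa
  have hs'a' : s' • a = a := hs'a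
  have hv1 : t * s' * t ≠ 1 := by
    have h := conj_ne_one (g := t) hs'1; rwa [t_inv hS] at h
  have hv2 : (t * s' * t) * (t * s' * t) = 1 := by
    have h := conj_mul_self (g := t) hs'2; rwa [t_inv hS] at h
  have hvb : (t * s' * t) • (t • a) = t • a := by
    simp only [mul_smul]
    rw [t_smul_t_smul hS, hs'a']
  have hva : (t * s' * t) • a ≠ a := by
    intro h
    exact tsmul_ne hS (invol_fix_eq hS hv1 hv2 hvb h)
  obtain ⟨m, hm⟩ := odd_orderOf_mul hS hs1 hs2 hv2 hsa' hva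
  have hsrs : s * (s * (t * s' * t)) ^ (m + 1) * s = ((s * (t * s' * t)) ^ (m + 1))⁻¹ :=
    invol_conj_pow hs2 hv2 (m + 1)
  have hrr : (s * (t * s' * t)) ^ (m + 1) * (s * (t * s' * t)) ^ (m + 1) = s * (t * s' * t) := by
    rw [← pow_add]
    have h1 : m + 1 + (m + 1) = orderOf (s * (t * s' * t)) + 1 := by omega
    rw [h1, pow_succ, pow_orderOf_eq_one, one_mul]
  generalize (s * (t * s' * t)) ^ (m + 1) = r at hsrs hrr
  have hw2 : (s * r) * (s * r) = 1 := by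
    calc (s * r) * (s * r) = (s * r * s) * r := by group
      _ = 1 := by rw [hsrs]; group
  have hwsw : (s * r) * s * (s * r) = t * s' * t := by
    calc (s * r) * s * (s * r) = s * r * (s * s) * r := by group
      _ = s * (r * r) := by rw [hs2]; group
      _ = t * s' * t := by rw [hrr, ← mul_assoc, hs2, one_mul]
  have hwa : (s * r) • a = t • a := by
    have h1 : (t * s' * t) • ((s * r) • a) = (s * r) • a := by
      rw [← hwsw]
      rw [mul_smul ((s * r) * s) (s * r), ← mul_smul (s * r) (s * r), hw2, one_smul,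
        mul_smul (s * r) s, hsa']
    exact invol_fix_eq hS hv1 hv2 h1 hvb
  have hk0 := tmul_mem_K hS hw2 hwa
  refine ⟨(t * (s * r))⁻¹, K_inv_mem hk0, ?_⟩
  rw [inv_inv, mul_inv_rev, inv_eq_of_mul_eq_one_left hw2, t_inv hS]
  calc t * (s * r) * s * ((s * r) * t) = t * ((s * r) * s * (s * r)) * t := by group
    _ = t * (t * s' * t) * t := by rw [hwsw]
    _ = (t * t) * s' * (t * t) := by group
    _ = s' := by rw [hS.mul_self]; group

/-- `k ↦ k⁻¹ s k` is injective on `K`. -/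
theorem K_conj_inj (hS : Cfsg.IsRankOneSetup G Ω a t Q) {s : G}
    (hs : s ∈ Cfsg.involutionsIn (stabilizer G a : Set G)) {k1 k2 : G}
    (hk1 : k1 ∈ Cfsg.invertedBy (stabilizer G a ⊓ stabilizer G (t • a)) t)
    (hk2 : k2 ∈ Cfsg.invertedBy (stabilizer G a ⊓ stabilizer G (t • a)) t)
    (h : k1⁻¹ * s * k1 = k2⁻¹ * s * k2) : k1 = k2 := by
  obtain ⟨hsa, hs1, hs2⟩ := hs
  have hsa' : s • a = a := hsa
  have key : ∀ k ∈ Cfsg.invertedBy (stabilizer G a ⊓ stabilizer G (t • a)) t,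
      Odd (orderOf (s * (t * k⁻¹))) ∧
        (s * (t * k⁻¹)) * (s * (t * k⁻¹)) = s * (t * (k⁻¹ * s * k) * t) := by
    intro k hk
    have hk' := K_inv_mem hk
    have hw2 : (t * k⁻¹) * (t * k⁻¹) = 1 := K_tmul_self hS hk'
    have hka : k⁻¹ • a = a := (Subgroup.mem_inf.mp hk'.1).1
    have hwa : (t * k⁻¹) • a ≠ a := by
      rw [mul_smul, hka]; exact tsmul_ne hS
    refine ⟨odd_orderOf_mul hS hs1 hs2 hw2 hsa' hwa, ?_⟩
    have hwinv : t * k⁻¹ = k * t := by
      have h1 := inv_eq_of_mul_eq_one_left hw2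
      rw [← h1, mul_inv_rev, inv_inv, t_inv hS]
    calc (s * (t * k⁻¹)) * (s * (t * k⁻¹)) = s * (t * k⁻¹) * s * (t * k⁻¹) := by group
      _ = s * (t * k⁻¹) * s * (k * t) := by rw [← hwinv]
      _ = s * (t * (k⁻¹ * s * k) * t) := by group
  obtain ⟨ho1, he1⟩ := key k1 hk1
  obtain ⟨ho2, he2⟩ := key k2 hk2
  have h1 : s * (t * k1⁻¹) = s * (t * k2⁻¹) :=
    eq_of_mul_self_eq_of_odd ho1 ho2 (by rw [he1, he2, h])
  have h2 : k1⁻¹ = k2⁻¹ := mul_left_cancel (mul_left_cancel h1)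
  exact inv_injective h2

theorem exists_invol (hS : Cfsg.IsRankOneSetup G Ω a t Q) :
    ∃ s, s ∈ Cfsg.involutionsIn (stabilizer G a : Set G) := by
  obtain ⟨⟨s, r⟩, ⟨hs, -, -⟩, -⟩ := exists_unique_pair hS
  exact ⟨s, hs⟩

theorem card_K (hS : Cfsg.IsRankOneSetup G Ω a t Q) :
    Nat.card (Cfsg.invertedBy (stabilizer G a ⊓ stabilizer G (t • a)) t) =
      Nat.card (Cfsg.involutionsIn (stabilizer G a : Set G)) := by
  obtain ⟨s, hs⟩ := exists_invol hS
  apply Nat.card_congr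
  refine Equiv.ofBijective
    (fun k : ↥(Cfsg.invertedBy (stabilizer G a ⊓ stabilizer G (t • a)) t) =>
      (⟨(k : G)⁻¹ * s * k, invol_conj_mem hs (Subgroup.mem_inf.mp k.2.1).1⟩ :
        ↥(Cfsg.involutionsIn (stabilizer G a : Set G)))) ⟨?_, ?_⟩
  · intro k1 k2 h
    exact Subtype.ext (K_conj_inj hS hs k1.2 k2.2 (congrArg Subtype.val h))
  · rintro ⟨s', hs'⟩
    obtain ⟨k, hk, h⟩ := exists_K_conj hS hs hs'
    exact ⟨⟨k, hk⟩, Subtype.ext h⟩

end RankOne

end Cfsg.Agent.H24
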