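import Cfsg.Agent.H24.RankOneE

set_option autoImplicit false

namespace Cfsg.Agent.H24

open MulAction
open scoped Pointwise

namespace RankOne

variable {G Ω : Type*} [Group G] [MulAction G Ω] {a : Ω} {t : G} {Q : Subgroup G} [Finite G]

/-- a conjugate of an involution fixing `p` by `g` with `g • p = a` is an involution of `G_a`. -/
theorem conj_mem_invol {u g : G} {p : Ω} (hu1 : u ≠ 1) (hu2 : u * u = 1) (hup : u • p = p)
    (hg : g • p = a) : g * u * g⁻¹ ∈ Cfsg.involutionsIn (stabilizer G a : Set G) := by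
  refine ⟨?_, conj_ne_one hu1, conj_mul_self hu2⟩
  show g * u * g⁻¹ ∈ stabilizer G a
  rw [mem_stabilizer_iff]
  simp only [mul_smul]
  rw [← hg, inv_smul_smul, hup]

/-- two involutions with a common fixed point commute. -/
theorem invol_comm_of_fix (hS : Cfsg.IsRankOneSetup G Ω a t Q) {u v : G} (hu1 : u ≠ 1)
    (hu2 : u * u = 1) (hv1 : v ≠ 1) (hv2 : v * v = 1) {p : Ω} (hup : u • p = p)
    (hvp : v • p = p) : u * v = v * u := by
  obtain ⟨g, hg⟩ := trans hS p a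
  have h1 := conj_mem_invol hu1 hu2 hup hg
  have h2 := conj_mem_invol hv1 hv2 hvp hg
  have h3 := invol_central hS h1 (mem_of_mul_self hS h2.1 h2.2.2)
  calc u * v = g⁻¹ * ((g * u * g⁻¹) * (g * v * g⁻¹)) * g := by group
    _ = g⁻¹ * ((g * v * g⁻¹) * (g * u * g⁻¹)) * g := by rw [h3]
    _ = v * u := by group

/-- every involution swapping `a` and `t • a` is conjugated to `t` by a power of `t * z`
lying in `K`. -/
theorem exists_pow_conj_eq_t (hS : Cfsg.IsRankOneSetup G Ω a t Q) {z : G} (hz2 : z * z = 1)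
    (hza : z • a = t • a) :
    ∃ n : ℕ, (t * z) ^ n ∈ Cfsg.invertedBy (stabilizer G a ⊓ stabilizer G (t • a)) t ∧
      (t * z) ^ n * z * ((t * z) ^ n)⁻¹ = t := by
  have hk := tmul_mem_K hS hz2 hza
  obtain ⟨m, hm⟩ := odd_orderOf_of_mem hS.odd_card hk.1
  refine ⟨m + 1, ⟨pow_mem hk.1 _, ?_⟩, ?_⟩
  · rw [← conj_pow, hk.2, inv_pow]
  · have hll : (t * z) ^ (m + 1) * (t * z) ^ (m + 1) = t * z := by
      rw [← pow_add]
      have h1 : m + 1 + (m + 1) = orderOf (t * z) + 1 := by omega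
      rw [h1, pow_succ, pow_orderOf_eq_one, one_mul]
    have hl2 : t * (t * z) ^ (m + 1) * t⁻¹ = ((t * z) ^ (m + 1))⁻¹ := by
      rw [← conj_pow, hk.2, inv_pow]
    generalize (t * z) ^ (m + 1) = l at hll hl2
    have h1 : z = t * l * l := by
      rw [mul_assoc, hll, ← mul_assoc, hS.mul_self, one_mul]
    have h2 : t * l = l⁻¹ * t := by
      calc t * l = (t * l * t⁻¹) * t := by group
        _ = l⁻¹ * t := by rw [hl2]
    calc l * z * l⁻¹ = l * (t * l) := by rw [h1]; group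
      _ = t := by rw [h2]; group

/-- the fixed point of `t` is fixed by everything commuting with `t`. -/
theorem smul_eq_of_comm_t (hS : Cfsg.IsRankOneSetup G Ω a t Q) {c : Ω} (hc : t • c = c) {x : G}
    (hx : x * t = t * x) : x • c = c := by
  have h1 : t • (x • c) = x • c := by rw [← mul_smul, ← hx, mul_smul, hc]
  exact invol_fix_eq hS hS.ne_one hS.mul_self h1 hc

/-- A strongly real element `x = u v` with `x² ≠ 1` has a centraliser of odd order. -/
theorem odd_card_centralizer (hS : Cfsg.IsRankOneSetup G Ω a t Q) {u v : G} (hu1 : u ≠ 1)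
    (hu2 : u * u = 1) (hv1 : v ≠ 1) (hv2 : v * v = 1) (hx : (u * v) * (u * v) ≠ 1) :
    Odd (Nat.card ↥(Subgroup.centralizer {u * v})) := by
  by_contra hodd
  rw [Nat.not_odd_iff_even] at hodd
  have : Fact (Nat.Prime 2) := ⟨Nat.prime_two⟩
  obtain ⟨⟨z, hzC⟩, hz⟩ := exists_prime_orderOf_dvd_card' 2 (even_iff_two_dvd.mp hodd)
  rw [Subgroup.orderOf_mk] at hz
  have hz2 : z * z = 1 := by
    have h := pow_orderOf_eq_one z
    rwa [hz, pow_two] at h
  have hz1 : z ≠ 1 := by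
    intro h
    rw [h, orderOf_one] at hz
    omega
  have hxz : (u * v) * z = z * (u * v) := (Subgroup.mem_centralizer_iff.mp hzC) (u * v) rfl
  obtain ⟨p, hp⟩ := invol_exists_fix hS hz2
  have hxp : (u * v) • p = p := by
    have h1 : z • ((u * v) • p) = (u * v) • p := by rw [← mul_smul, ← hxz, mul_smul, hp]
    exact invol_fix_eq hS hz1 hz2 h1 hp
  have huinv : u⁻¹ = u := inv_eq_of_mul_eq_one_left hu2
  have hvinv : v⁻¹ = v := inv_eq_of_mul_eq_one_left hv2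
  have hvp : v • p = u • p := by
    have h1 : u • (v • p) = p := by rw [← mul_smul]; exact hxp
    calc v • p = u • (u • (v • p)) := by rw [← mul_smul u u, hu2, one_smul]
      _ = u • p := by rw [h1]
  have hup : u • p ≠ p := by
    intro h
    have hvp' : v • p = p := by rw [hvp, h]
    have hcomm := invol_comm_of_fix hS hu1 hu2 hv1 hv2 h hvp'
    apply hx
    calc (u * v) * (u * v) = u * (v * u) * v := by group
      _ = u * (u * v) * v := by rw [hcomm]
      _ = (u * u) * (v * v) := by group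
      _ = 1 := by rw [hu2, hv2, mul_one]
  obtain ⟨g, hga, hgb⟩ := two_trans hS (Ne.symm hup) (Ne.symm (tsmul_ne hS))
  -- g • p = a, g • (u • p) = t • a
  have hu'2 : (g * u * g⁻¹) * (g * u * g⁻¹) = 1 := conj_mul_self hu2
  have hu'a : (g * u * g⁻¹) • a = t • a := by
    have hginv : g⁻¹ • a = p := by rw [← hga, inv_smul_smul]
    simp only [mul_smul]
    rw [hginv, hgb]
  obtain ⟨n, hl, hlt⟩ := exists_pow_conj_eq_t hS hu'2 hu'a
  generalize (t * (g * u * g⁻¹)) ^ n = l at hl hlt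
  have hlD := hl.1
  have hla : l • a = a := (Subgroup.mem_inf.mp hlD).1
  have hlb : l • (t • a) = t • a := (Subgroup.mem_inf.mp hlD).2
  -- γ = l * g
  have hγu : (l * g) * u * (l * g)⁻¹ = t := by
    rw [← hlt]; group
  have hγp : (l * g) • p = a := by rw [mul_smul, hga, hla]
  have hγup : (l * g) • (u • p) = t • a := by rw [mul_smul, hgb, hlb]
  -- x3 ∈ K
  have hx3D : (l * g) * (u * v) * (l * g)⁻¹ ∈ stabilizer G a ⊓ stabilizer G (t • a) := by
    refine Subgroup.mem_inf.mpr ⟨?_, ?_⟩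
    · rw [mem_stabilizer_iff]
      rw [mul_smul, mul_smul, ← hγp, inv_smul_smul, hxp]
    · rw [mem_stabilizer_iff]
      rw [mul_smul ((l * g) * (u * v)), mul_smul (l * g) (u * v), ← hγup, inv_smul_smul]
      congr 1
      rw [mul_smul, ← hvp, ← mul_smul v v, hv2, one_smul, hvp]
  have hx3K : (l * g) * (u * v) * (l * g)⁻¹ ∈
      Cfsg.invertedBy (stabilizer G a ⊓ stabilizer G (t • a)) t := by
    refine ⟨hx3D, ?_⟩
    rw [← hγu]
    calc (l * g) * u * (l * g)⁻¹ * ((l * g) * (u * v) * (l * g)⁻¹) * ((l * g) * u * (l * g)⁻¹)⁻¹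
        = (l * g) * ((u * u) * v * u⁻¹) * (l * g)⁻¹ := by group
      _ = (l * g) * (v⁻¹ * u⁻¹) * (l * g)⁻¹ := by rw [hu2, one_mul, hvinv]
      _ = ((l * g) * (u * v) * (l * g)⁻¹)⁻¹ := by group
  have hx31 : (l * g) * (u * v) * (l * g)⁻¹ ≠ 1 := by
    apply conj_ne_one
    intro h
    apply hx
    rw [h, one_mul]
  have hz3 := conj_mem_invol hz1 hz2 hp hγp
  have hz3Q : (l * g) * z * (l * g)⁻¹ ∈ Q := mem_of_mul_self hS hz3.1 hz3.2.2
  have hmem : (l * g) * z * (l * g)⁻¹ ∈ Q ⊓ Subgroup.centralizer {(l * g) * (u * v) * (l * g)⁻¹} := by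
    refine Subgroup.mem_inf.mpr ⟨hz3Q, ?_⟩
    rw [Subgroup.mem_centralizer_iff]
    intro h hh
    rw [Set.mem_singleton_iff] at hh
    subst hh
    calc (l * g) * (u * v) * (l * g)⁻¹ * ((l * g) * z * (l * g)⁻¹)
        = (l * g) * ((u * v) * z) * (l * g)⁻¹ := by group
      _ = (l * g) * (z * (u * v)) * (l * g)⁻¹ := by rw [hxz]
      _ = (l * g) * z * (l * g)⁻¹ * ((l * g) * (u * v) * (l * g)⁻¹) := by group
  rw [K_fpf hS hx3K hx31, Subgroup.mem_bot] at hmem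
  exact hz3.2.1 hmem

/-- A strongly real element `x = u v` with `x² ≠ 1` is conjugate to some `u' t`. -/
theorem exists_conj_eq_mul_t (hS : Cfsg.IsRankOneSetup G Ω a t Q) {u v : G} (hu1 : u ≠ 1)
    (hu2 : u * u = 1) (hv1 : v ≠ 1) (hv2 : v * v = 1) (hx : (u * v) * (u * v) ≠ 1) :
    ∃ g : G, ∃ u' ∈ Cfsg.involutionsIn (stabilizer G a : Set G), g * (u * v) * g⁻¹ = u' * t := by
  obtain ⟨p, hp⟩ := invol_exists_fix hS hu2
  obtain ⟨p', hp'⟩ := invol_exists_fix hS hv2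
  have hpp' : p ≠ p' := by
    intro h
    rw [← h] at hp'
    have hcomm := invol_comm_of_fix hS hu1 hu2 hv1 hv2 hp hp'
    apply hx
    calc (u * v) * (u * v) = u * (v * u) * v := by group
      _ = u * (u * v) * v := by rw [hcomm]
      _ = (u * u) * (v * v) := by group
      _ = 1 := by rw [hu2, hv2, mul_one]
  obtain ⟨c, hc⟩ := invol_exists_fix hS hS.mul_self
  have hca : c ≠ a := fun h => tsmul_ne hS (h ▸ hc)
  obtain ⟨g, hgp, hgp'⟩ := two_trans hS hpp' (Ne.symm hca)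
  -- g • p = a, g • p' = c
  have hu1' := conj_mem_invol hu1 hu2 hp hgp
  have hv1' : (g * v * g⁻¹) • c = c := by
    simp only [mul_smul]
    rw [← hgp', inv_smul_smul, hp']
  obtain ⟨g2, hg2c, hg2a⟩ := two_trans hS hca (Ne.symm (tsmul_ne hS))
  -- g2 • c = a, g2 • a = t • a
  have hv2' := conj_mem_invol (conj_ne_one (g := g) hv1) (conj_mul_self hv2) hv1' hg2c
  have ht' := conj_mem_invol hS.ne_one hS.mul_self hc hg2c
  obtain ⟨k, hk, hkeq⟩ := exists_K_conj hS hv2' ht'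
  have hka : k⁻¹ • (t • a) = t • a := by
    rw [inv_smul_eq_iff]; exact ((Subgroup.mem_inf.mp hk.1).2).symm
  have hha : g2⁻¹ * k⁻¹ * g2 ∈ stabilizer G a := by
    rw [mem_stabilizer_iff]
    simp only [mul_smul]
    rw [hg2a, hka, ← hg2a, inv_smul_smul]
  have hhv : (g2⁻¹ * k⁻¹ * g2) * (g * v * g⁻¹) * (g2⁻¹ * k⁻¹ * g2)⁻¹ = t := by
    calc (g2⁻¹ * k⁻¹ * g2) * (g * v * g⁻¹) * (g2⁻¹ * k⁻¹ * g2)⁻¹
        = g2⁻¹ * (k⁻¹ * (g2 * (g * v * g⁻¹) * g2⁻¹) * k) * g2 := by group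
      _ = g2⁻¹ * (g2 * t * g2⁻¹) * g2 := by rw [hkeq]
      _ = t := by group
  have hu'' : (g2⁻¹ * k⁻¹ * g2) * (g * u * g⁻¹) * (g2⁻¹ * k⁻¹ * g2)⁻¹ ∈
      Cfsg.involutionsIn (stabilizer G a : Set G) := by
    have h1 := invol_conj_mem hu1' (inv_mem hha)
    rwa [inv_inv] at h1
  refine ⟨(g2⁻¹ * k⁻¹ * g2) * g, _, hu'', ?_⟩
  calc (g2⁻¹ * k⁻¹ * g2) * g * (u * v) * ((g2⁻¹ * k⁻¹ * g2) * g)⁻¹
      = ((g2⁻¹ * k⁻¹ * g2) * (g * u * g⁻¹) * (g2⁻¹ * k⁻¹ * g2)⁻¹) *
          ((g2⁻¹ * k⁻¹ * g2) * (g * v * g⁻¹) * (g2⁻¹ * k⁻¹ * g2)⁻¹) := by group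
    _ = (g2⁻¹ * k⁻¹ * g2) * (g * u * g⁻¹) * (g2⁻¹ * k⁻¹ * g2)⁻¹ * t := by rw [hhv]

end RankOne

end Cfsg.Agent.H24
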