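import Cfsg.Agent.H24.RankOneFix

set_option autoImplicit false

namespace Cfsg.Agent.H24

open MulAction
open scoped Pointwise

namespace RankOne

variable {G Ω : Type*} [Group G] [MulAction G Ω] {a : Ω} {t : G} {Q : Subgroup G} [Finite G]

theorem t_conj_mem_D (hS : Cfsg.IsRankOneSetup G Ω a t Q) {x : G}
    (hx : x ∈ stabilizer G a ⊓ stabilizer G (t • a)) :
    t * x * t⁻¹ ∈ stabilizer G a ⊓ stabilizer G (t • a) := by
  have hxa : x • a = a := (Subgroup.mem_inf.mp hx).1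
  have hxb : x • (t • a) = t • a := (Subgroup.mem_inf.mp hx).2
  refine Subgroup.mem_inf.mpr ⟨?_, ?_⟩
  · rw [mem_stabilizer_iff, t_inv hS]
    simp only [mul_smul]
    rw [hxb, t_smul_t_smul hS]
  · rw [mem_stabilizer_iff, t_inv hS]
    simp only [mul_smul]
    rw [t_smul_t_smul hS, hxa]

/-- `|D| = |C_D(t)| |K|`. -/
theorem card_D_eq_t (hS : Cfsg.IsRankOneSetup G Ω a t Q) :
    Nat.card ↥(stabilizer G a ⊓ stabilizer G (t • a)) =
      Nat.card ↥((stabilizer G a ⊓ stabilizer G (t • a)) ⊓ Subgroup.centralizer {t}) *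
        Nat.card (Cfsg.invertedBy (stabilizer G a ⊓ stabilizer G (t • a)) t) :=
  invDecomp_card t hS.mul_self _ hS.odd_card (fun _ hx => t_conj_mem_D hS hx)

/-- `|D| = |C_D(s)| |K|` for an involution `s` of `G_a`. -/
theorem card_D_eq_s (hS : Cfsg.IsRankOneSetup G Ω a t Q) {s : G}
    (hs : s ∈ Cfsg.involutionsIn (stabilizer G a : Set G)) :
    Nat.card ↥(stabilizer G a ⊓ stabilizer G (t • a)) =
      Nat.card ↥((stabilizer G a ⊓ stabilizer G (t • a)) ⊓ Subgroup.centralizer {s}) *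
        Nat.card (Cfsg.invertedBy (stabilizer G a ⊓ stabilizer G (t • a)) t) := by
  rw [← Nat.card_prod]
  symm
  apply Nat.card_congr
  have hcomm : ∀ c ∈ (stabilizer G a ⊓ stabilizer G (t • a)) ⊓ Subgroup.centralizer {s},
      c⁻¹ * s * c = s := by
    intro c hc
    have h1 : s * c = c * s :=
      (Subgroup.mem_centralizer_iff.mp (Subgroup.mem_inf.mp hc).2) s rfl
    rw [mul_assoc, h1]; group
  refine Equiv.ofBijective
    (fun p : ↥((stabilizer G a ⊓ stabilizer G (t • a)) ⊓ Subgroup.centralizer {s}) ×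
        ↥(Cfsg.invertedBy (stabilizer G a ⊓ stabilizer G (t • a)) t) =>
      (⟨(p.1 : G) * (p.2 : G), mul_mem (Subgroup.mem_inf.mp p.1.2).1 p.2.2.1⟩ :
        ↥(stabilizer G a ⊓ stabilizer G (t • a)))) ⟨?_, ?_⟩
  · rintro ⟨⟨c1, hc1⟩, ⟨k1, hk1⟩⟩ ⟨⟨c2, hc2⟩, ⟨k2, hk2⟩⟩ h
    have h' : c1 * k1 = c2 * k2 := congrArg Subtype.val h
    have h1 : k1⁻¹ * s * k1 = k2⁻¹ * s * k2 := by
      calc k1⁻¹ * s * k1 = k1⁻¹ * (c1⁻¹ * s * c1) * k1 := by rw [hcomm c1 hc1]
        _ = (c1 * k1)⁻¹ * s * (c1 * k1) := by group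
        _ = (c2 * k2)⁻¹ * s * (c2 * k2) := by rw [h']
        _ = k2⁻¹ * (c2⁻¹ * s * c2) * k2 := by group
        _ = k2⁻¹ * s * k2 := by rw [hcomm c2 hc2]
    have h2 : k1 = k2 := K_conj_inj hS hs hk1 hk2 h1
    subst h2
    have h3 : c1 = c2 := mul_right_cancel h'
    subst h3
    rfl
  · rintro ⟨d, hd⟩
    have hs' := invol_conj_mem hs (Subgroup.mem_inf.mp hd).1
    obtain ⟨k, hk, hkeq⟩ := exists_K_conj hS hs hs'
    have hcD : d * k⁻¹ ∈ stabilizer G a ⊓ stabilizer G (t • a) := mul_mem hd (inv_mem hk.1)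
    have hc : d * k⁻¹ ∈ (stabilizer G a ⊓ stabilizer G (t • a)) ⊓ Subgroup.centralizer {s} := by
      refine Subgroup.mem_inf.mpr ⟨hcD, ?_⟩
      rw [Subgroup.mem_centralizer_iff]
      intro h hh
      rw [Set.mem_singleton_iff] at hh
      subst hh
      have h1 : d * (k⁻¹ * h * k) * d⁻¹ = h := by rw [hkeq]; group
      calc h * (d * k⁻¹) = (d * (k⁻¹ * h * k) * d⁻¹) * (d * k⁻¹) := by rw [h1]
        _ = d * k⁻¹ * h := by group
    refine ⟨(⟨d * k⁻¹, hc⟩, ⟨k, hk⟩), ?_⟩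
    apply Subtype.ext
    show d * k⁻¹ * k = d
    group

/-- `C_D(t) = C_D(s)` for the special pair. -/
theorem centralizer_t_eq (hS : Cfsg.IsRankOneSetup G Ω a t Q) {s r : G}
    (hs : s ∈ Cfsg.involutionsIn (stabilizer G a : Set G)) (hr : r ∈ Q)
    (h : t * s * t = r⁻¹ * t * r) :
    (stabilizer G a ⊓ stabilizer G (t • a)) ⊓ Subgroup.centralizer {t} =
      (stabilizer G a ⊓ stabilizer G (t • a)) ⊓ Subgroup.centralizer {s} := by
  have hle : (stabilizer G a ⊓ stabilizer G (t • a)) ⊓ Subgroup.centralizer {t} ≤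
      (stabilizer G a ⊓ stabilizer G (t • a)) ⊓ Subgroup.centralizer {s} := by
    intro d hd
    obtain ⟨hdD, hdC⟩ := Subgroup.mem_inf.mp hd
    have hdt : t * d = d * t := (Subgroup.mem_centralizer_iff.mp hdC) t rfl
    have hda : d ∈ stabilizer G a := (Subgroup.mem_inf.mp hdD).1
    refine Subgroup.mem_inf.mpr ⟨hdD, ?_⟩
    obtain ⟨p, -, huniq⟩ := exists_unique_pair hS
    have hs' : d * s * d⁻¹ ∈ Cfsg.involutionsIn (stabilizer G a : Set G) := by
      have h1 := invol_conj_mem hs (inv_mem hda)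
      rwa [inv_inv] at h1
    have hr' : d * r * d⁻¹ ∈ Q := hS.conj_mem d hda r hr
    have hdtd : d * t * d⁻¹ = t := by rw [← hdt]; group
    have heq : t * (d * s * d⁻¹) * t = (d * r * d⁻¹)⁻¹ * t * (d * r * d⁻¹) := by
      calc t * (d * s * d⁻¹) * t = (d * t * d⁻¹) * (d * s * d⁻¹) * (d * t * d⁻¹) := by rw [hdtd]
        _ = d * (t * s * t) * d⁻¹ := by group
        _ = d * (r⁻¹ * t * r) * d⁻¹ := by rw [h]
        _ = (d * r * d⁻¹)⁻¹ * (d * t * d⁻¹) * (d * r * d⁻¹) := by group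
        _ = (d * r * d⁻¹)⁻¹ * t * (d * r * d⁻¹) := by rw [hdtd]
    have e1 := huniq (d * s * d⁻¹, d * r * d⁻¹) ⟨hs', hr', heq⟩
    have e2 := huniq (s, r) ⟨hs, hr, h⟩
    have e3 : d * s * d⁻¹ = s := by
      have := e1.trans e2.symm
      exact congrArg Prod.fst this
    rw [Subgroup.mem_centralizer_iff]
    intro x hx
    rw [Set.mem_singleton_iff] at hx
    subst hx
    calc x * d = (d * x * d⁻¹) * d := by rw [e3]
      _ = d * x := by group
  apply Subgroup.eq_of_le_of_card_ge hle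
  have h1 := card_D_eq_t hS
  have h2 := card_D_eq_s hS hs
  have hKpos : 0 < Nat.card (Cfsg.invertedBy (stabilizer G a ⊓ stabilizer G (t • a)) t) := by
    have : Nonempty ↥(Cfsg.invertedBy (stabilizer G a ⊓ stabilizer G (t • a)) t) :=
      ⟨⟨1, one_mem _, by simp⟩⟩
    exact Nat.card_pos
  rw [h1] at h2
  exact le_of_eq (Nat.eq_of_mul_eq_mul_right hKpos h2).symm

/-- `C_D(t) ⊓ C_D(K) = C_D(I ∩ G_a)`. -/
theorem centralizer_K_eq (hS : Cfsg.IsRankOneSetup G Ω a t Q) :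
    (stabilizer G a ⊓ stabilizer G (t • a)) ⊓ Subgroup.centralizer {t} ⊓
        Subgroup.centralizer (Cfsg.invertedBy (stabilizer G a ⊓ stabilizer G (t • a)) t) =
      (stabilizer G a ⊓ stabilizer G (t • a)) ⊓
        Subgroup.centralizer (Cfsg.involutionsIn (stabilizer G a : Set G)) := by
  obtain ⟨⟨s, r⟩, ⟨hs, hr, hsr⟩, -⟩ := exists_unique_pair hS
  have hV := centralizer_t_eq hS hs hr hsr
  apply le_antisymm
  · intro d hd
    obtain ⟨hd1, hdK⟩ := Subgroup.mem_inf.mp hd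
    have hdD := (Subgroup.mem_inf.mp hd1).1
    have hds : d ∈ (stabilizer G a ⊓ stabilizer G (t • a)) ⊓ Subgroup.centralizer {s} := by
      rw [← hV]; exact hd1
    have hsd : s * d = d * s := (Subgroup.mem_centralizer_iff.mp (Subgroup.mem_inf.mp hds).2) s rfl
    refine Subgroup.mem_inf.mpr ⟨hdD, ?_⟩
    rw [Subgroup.mem_centralizer_iff]
    intro s' hs'
    obtain ⟨k, hk, hkeq⟩ := exists_K_conj hS hs hs'
    have hkd : k * d = d * k := (Subgroup.mem_centralizer_iff.mp hdK) k hk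
    have hkd' : k⁻¹ * d = d * k⁻¹ := by
      calc k⁻¹ * d = k⁻¹ * (d * k) * k⁻¹ := by group
        _ = d * k⁻¹ := by rw [← hkd]; group
    rw [← hkeq]
    calc k⁻¹ * s * k * d = k⁻¹ * s * (k * d) := by group
      _ = k⁻¹ * (s * d) * k := by rw [hkd]; group
      _ = (k⁻¹ * d) * s * k := by rw [hsd]; group
      _ = d * (k⁻¹ * s * k) := by rw [hkd']; group
  · intro d hd
    obtain ⟨hdD, hdI⟩ := Subgroup.mem_inf.mp hd
    have hda : d ∈ stabilizer G a := (Subgroup.mem_inf.mp hdD).1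
    have hsd : s * d = d * s := (Subgroup.mem_centralizer_iff.mp hdI) s hs
    have hds : d ∈ (stabilizer G a ⊓ stabilizer G (t • a)) ⊓ Subgroup.centralizer {s} := by
      refine Subgroup.mem_inf.mpr ⟨hdD, ?_⟩
      rw [Subgroup.mem_centralizer_iff]
      intro x hx
      rw [Set.mem_singleton_iff] at hx
      subst hx
      exact hsd
    rw [← hV] at hds
    refine Subgroup.mem_inf.mpr ⟨hds, ?_⟩
    have hdt : t * d = d * t :=
      (Subgroup.mem_centralizer_iff.mp (Subgroup.mem_inf.mp hds).2) t rfl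
    rw [Subgroup.mem_centralizer_iff]
    intro k hk
    -- d k d⁻¹ ∈ K and conjugates s to the same involution as k
    have hk' : d * k * d⁻¹ ∈ Cfsg.invertedBy (stabilizer G a ⊓ stabilizer G (t • a)) t := by
      refine ⟨mul_mem (mul_mem hdD hk.1) (inv_mem hdD), ?_⟩
      have hdt' : t * d⁻¹ = d⁻¹ * t := by
        calc t * d⁻¹ = d⁻¹ * (d * t) * d⁻¹ := by group
          _ = d⁻¹ * t := by rw [← hdt]; group
      calc t * (d * k * d⁻¹) * t⁻¹ = (t * d) * k * d⁻¹ * t⁻¹ := by group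
        _ = d * (t * k * t⁻¹) * (t * d⁻¹) * t⁻¹ := by rw [hdt]; group
        _ = d * k⁻¹ * d⁻¹ := by rw [hk.2, hdt']; group
        _ = (d * k * d⁻¹)⁻¹ := by group
    have hs'' := invol_conj_mem hs (Subgroup.mem_inf.mp hk.1).1
    have hcomm2 : (k⁻¹ * s * k) * d = d * (k⁻¹ * s * k) :=
      (Subgroup.mem_centralizer_iff.mp hdI) _ hs''
    have hsd' : d⁻¹ * s * d = s := by rw [mul_assoc, hsd]; group
    have heq : (d * k * d⁻¹)⁻¹ * s * (d * k * d⁻¹) = k⁻¹ * s * k := by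
      calc (d * k * d⁻¹)⁻¹ * s * (d * k * d⁻¹) = d * k⁻¹ * (d⁻¹ * s * d) * k * d⁻¹ := by group
        _ = d * (k⁻¹ * s * k) * d⁻¹ := by rw [hsd']; group
        _ = (k⁻¹ * s * k) * d * d⁻¹ := by rw [hcomm2]
        _ = k⁻¹ * s * k := by group
    have h5 : d * k * d⁻¹ = k := K_conj_inj hS hs hk' hk heq
    calc k * d = (d * k * d⁻¹) * d := by rw [h5]
      _ = d * k := by group

end RankOne

end Cfsg.Agent.H24
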