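import Mathlib
import Cfsg.Agent.H48.SPCDefs

set_option autoImplicit false

/-!
# SPC-ORBIT (S2676, helper48): two forms in `OmegaSk` are in the same orbit of the commutant
of `N` iff their leading blocks are congruent
-/

namespace Cfsg.Agent.H24.SPC

open Finset Cfsg.Agent.H61 Cfsg.Agent.H48.SPC

universe u

/-- `gᵀ * A * g` is skew-invariant when `A` is and `g` commutes with `N`. -/
theorem skew_conj {n : Type*} [Fintype n] [DecidableEq n] {R : Type*} [CommRing R]
    (N A g : Matrix n n R) (hA : N.transpose * A = -(A * N)) (hg : g * N = N * g) :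
    N.transpose * (g.transpose * A * g) = -(g.transpose * A * g * N) := by
  have e1 : N.transpose * g.transpose = g.transpose * N.transpose := by
    rw [← Matrix.transpose_mul, ← Matrix.transpose_mul, hg]
  calc N.transpose * (g.transpose * A * g)
      = (N.transpose * g.transpose) * A * g := by simp only [Matrix.mul_assoc]
    _ = g.transpose * (N.transpose * A) * g := by rw [e1]; simp only [Matrix.mul_assoc]
    _ = -(g.transpose * A * (N * g)) := by
        rw [hA]; simp only [Matrix.mul_assoc, Matrix.mul_neg, Matrix.neg_mul]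
    _ = -(g.transpose * A * g * N) := by rw [← hg]; simp only [Matrix.mul_assoc]

/-- `gᵀ * A` is skew-invariant when `A` is and `g` commutes with `N`. -/
theorem skew_tmul {n : Type*} [Fintype n] [DecidableEq n] {R : Type*} [CommRing R]
    (N A g : Matrix n n R) (hA : N.transpose * A = -(A * N)) (hg : g * N = N * g) :
    N.transpose * (g.transpose * A) = -(g.transpose * A * N) := by
  have e1 : N.transpose * g.transpose = g.transpose * N.transpose := by
    rw [← Matrix.transpose_mul, ← Matrix.transpose_mul, hg]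
  calc N.transpose * (g.transpose * A)
      = (N.transpose * g.transpose) * A := by simp only [Matrix.mul_assoc]
    _ = g.transpose * (N.transpose * A) := by rw [e1]; simp only [Matrix.mul_assoc]
    _ = -(g.transpose * A * N) := by
        rw [hA]; simp only [Matrix.mul_assoc, Matrix.mul_neg]

/-- powers of a matrix commuting with `N` commute with `N` -/
theorem pow_comm {n : Type*} [Fintype n] [DecidableEq n] {R : Type*} [CommRing R]
    (N h : Matrix n n R) (hh : h * N = N * h) (j : ℕ) : h ^ j * N = N * h ^ j :=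
  ((Commute.pow_left (show Commute h N from hh) j) : Commute (h ^ j) N)

/-- `hᵀ * A = A * h` passes to powers -/
theorem tpow_mul {n : Type*} [Fintype n] [DecidableEq n] {R : Type*} [CommRing R]
    (A h : Matrix n n R) (hh : h.transpose * A = A * h) (j : ℕ) :
    (h ^ j).transpose * A = A * h ^ j := by
  induction j with
  | zero => simp
  | succ j ih =>
    rw [pow_succ, Matrix.transpose_mul, Matrix.mul_assoc, ih, ← Matrix.mul_assoc, hh,
      Matrix.mul_assoc, ← pow_succ, ← pow_succ']

theorem orbit (h1 : LBMulStmt.{u}) (_h2 : DBMulStmt.{u}) (h4 : LBInvStmt.{u}) (h6 : RadStmt.{u})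
    (h7 : DBSurjStmt.{u}) : OrbitThmStmt.{u} := by
  intro F _ _ p _ _ hp t d hd A A'
  obtain ⟨A, hAt, hAd, hAs⟩ := A
  obtain ⟨A', hA't, hA'd, hA's⟩ := A'
  show OrbRel d A A' ↔ ∀ i : Fin (univ.sup d + 1),
    ∃ γ : Matrix {k : Fin t // d k = i.val} {k : Fin t // d k = i.val} F,
      γ.det ≠ 0 ∧ γ.transpose * leadBlock hd A i.val * γ = leadBlock hd A' i.val
  constructor
  · rintro ⟨g, hgd, hgc, hgA⟩ i
    refine ⟨diagBlock hd g i.val, ((comm_det_ne_zero_iff hd g hgc).1 hgd) i, ?_⟩
    have hs := skew_tmul (jordanNil d F) A g hAs hgc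
    rw [← hgA, (h1 d hd (g.transpose * A) g hs hgc i.val).1, (h1 d hd A g hAs hgc i.val).2]
  · intro hγ
    choose γ hγd hγe using hγ
    obtain ⟨g₁, hg₁d, hg₁c, hg₁b⟩ := h7 d hd γ hγd
    -- the form `A₁`
    obtain ⟨A₁, hA₁⟩ : ∃ A₁, A₁ = g₁.transpose * A * g₁ := ⟨_, rfl⟩
    have hA₁s : (jordanNil d F).transpose * A₁ = -(A₁ * jordanNil d F) := by
      rw [hA₁]; exact skew_conj (jordanNil d F) A g₁ hAs hg₁c
    have hA₁d : A₁.det ≠ 0 := by
      rw [hA₁, Matrix.det_mul, Matrix.det_mul, Matrix.det_transpose]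
      exact mul_ne_zero (mul_ne_zero hg₁d hAd) hg₁d
    have hA₁t : A₁.transpose = -A₁ := by
      rw [hA₁, Matrix.transpose_mul, Matrix.transpose_mul, Matrix.transpose_transpose, hAt]
      simp only [Matrix.mul_assoc, Matrix.mul_neg, Matrix.neg_mul]
    have hA₁b : ∀ i : Fin (univ.sup d + 1), leadBlock hd A₁ i.val = leadBlock hd A' i.val := by
      intro i
      have hs := skew_tmul (jordanNil d F) A g₁ hAs hg₁c
      rw [hA₁, (h1 d hd (g₁.transpose * A) g₁ hs hg₁c i.val).1,
        (h1 d hd A g₁ hAs hg₁c i.val).2, hg₁b i, hγe i]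
    have hA₁u : IsUnit A₁.det := isUnit_iff_ne_zero.2 hA₁d
    -- the element `h`
    obtain ⟨h, hh⟩ : ∃ h, h = A₁⁻¹ * A' := ⟨_, rfl⟩
    have hA₁h : A₁ * h = A' := by
      rw [hh, ← Matrix.mul_assoc, Matrix.mul_nonsing_inv A₁ hA₁u, Matrix.one_mul]
    have hNinv : jordanNil d F * A₁⁻¹ = -(A₁⁻¹ * (jordanNil d F).transpose) := by
      have e : A₁⁻¹ * ((jordanNil d F).transpose * A₁) * A₁⁻¹ =
          A₁⁻¹ * (-(A₁ * jordanNil d F)) * A₁⁻¹ := by rw [hA₁s]
      have l : A₁⁻¹ * ((jordanNil d F).transpose * A₁) * A₁⁻¹ =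
          A₁⁻¹ * (jordanNil d F).transpose := by
        rw [Matrix.mul_assoc, Matrix.mul_assoc, Matrix.mul_nonsing_inv A₁ hA₁u, Matrix.mul_one]
      have r : A₁⁻¹ * (-(A₁ * jordanNil d F)) * A₁⁻¹ = -(jordanNil d F * A₁⁻¹) := by
        rw [Matrix.mul_neg, Matrix.neg_mul, ← Matrix.mul_assoc, Matrix.nonsing_inv_mul A₁ hA₁u,
          Matrix.one_mul]
      rw [l, r] at e
      rw [e, neg_neg]
    have hhc : h * jordanNil d F = jordanNil d F * h := by
      symm
      calc jordanNil d F * h = jordanNil d F * A₁⁻¹ * A' := by rw [hh, Matrix.mul_assoc]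
        _ = -(A₁⁻¹ * ((jordanNil d F).transpose * A')) := by
            rw [hNinv, Matrix.neg_mul, Matrix.mul_assoc]
        _ = A₁⁻¹ * A' * jordanNil d F := by
            rw [hA's, Matrix.mul_neg, neg_neg, Matrix.mul_assoc]
        _ = h * jordanNil d F := by rw [hh]
    have hhb : ∀ i : Fin (univ.sup d + 1), diagBlock hd h i.val = 1 := by
      intro i
      have e := (h1 d hd A₁ h hA₁s hhc i.val).1
      rw [hA₁h, hA₁b i] at e
      have hu : IsUnit (leadBlock hd A' i.val).det :=
        isUnit_iff_ne_zero.2 (((h4 d hd A' hA's).1 hA'd) i)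
      have e2 : (leadBlock hd A' i.val)⁻¹ * leadBlock hd A' i.val =
          (leadBlock hd A' i.val)⁻¹ * (leadBlock hd A' i.val * diagBlock hd h i.val) := by
        rw [← e]
      rw [← Matrix.mul_assoc, Matrix.nonsing_inv_mul _ hu, Matrix.one_mul] at e2
      exact e2.symm
    obtain ⟨j, hj⟩ := h6 p hp d hd h hhc hhb
    have hrr : h ^ j * h ^ j = h := by
      rw [← pow_add, ← two_mul, hj]
    have hrc : h ^ j * jordanNil d F = jordanNil d F * h ^ j := pow_comm _ h hhc j
    have hhd : h.det ≠ 0 := by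
      intro h0
      apply hA'd
      rw [← hA₁h, Matrix.det_mul, h0, mul_zero]
    have hrd : (h ^ j).det ≠ 0 := by
      intro h0
      apply hhd
      rw [← hrr, Matrix.det_mul, h0, mul_zero]
    have hht : h.transpose * A₁ = A₁ * h := by
      have e : (A₁ * h).transpose = A'.transpose := by rw [hA₁h]
      rw [Matrix.transpose_mul, hA₁t, hA't, Matrix.mul_neg, neg_inj] at e
      rw [e, hA₁h]
    have hrt : (h ^ j).transpose * A₁ = A₁ * h ^ j := tpow_mul A₁ h hht j
    refine ⟨g₁ * h ^ j, ?_, ?_, ?_⟩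
    · rw [Matrix.det_mul]
      exact mul_ne_zero hg₁d hrd
    · rw [Matrix.mul_assoc, hrc, ← Matrix.mul_assoc, hg₁c, Matrix.mul_assoc]
    · calc (g₁ * h ^ j).transpose * A * (g₁ * h ^ j)
          = (h ^ j).transpose * (g₁.transpose * A * g₁) * h ^ j := by
            rw [Matrix.transpose_mul]; simp only [Matrix.mul_assoc]
        _ = (h ^ j).transpose * A₁ * h ^ j := by rw [hA₁]
        _ = A₁ * (h ^ j * h ^ j) := by rw [hrt, Matrix.mul_assoc]
        _ = A' := by rw [hrr, hA₁h]

example : (LBMulStmt.{u}) → (DBMulStmt.{u}) → (LBInvStmt.{u}) → (RadStmt.{u}) →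
    (DBSurjStmt.{u}) → OrbitThmStmt.{u} := orbit

end Cfsg.Agent.H24.SPC
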