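import Cfsg.Agent.H24.SmTwo

/-!
# S2772 piece SM-SETUP: the frozen hypotheses give the abstract hypothesis `Hyp`
-/

set_option autoImplicit false

namespace Cfsg.Agent.H24.Sm

open Cfsg Cfsg.Agent.H52.Sm

universe u

/-- a normal `p`-subgroup lies in every Sylow `p`-subgroup -/
theorem normal_le_sylow {K : Type u} [Group K] {p : ℕ} (N : Subgroup K) [hN : N.Normal]
    (hp : IsPGroup p N) (P : Sylow p K) : N ≤ (P : Subgroup K) := by
  have h1 : IsPGroup p (N ⊔ (P : Subgroup K) : Subgroup K) :=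
    hp.to_sup_of_normal_left P.isPGroup'
  have h2 : N ⊔ (P : Subgroup K) = P := P.is_maximal' h1 le_sup_right
  exact h2 ▸ le_sup_left

/-- SM-SETUP. -/
theorem setup : StSetup.{u} := by
  intro H _ _ _ G hG hcent S hN q hqp hq2 ⟨e⟩
  obtain ⟨t, htN, htG⟩ := SetLike.not_le_iff_exists.mp hN
  refine ⟨t, htG, ?_⟩
  have hpcS : Cfsg.pCore 2 ↥G ≤ (S : Subgroup ↥G) :=
    normal_le_sylow _ (Cfsg.Agent.H52.pCore_isPGroup 2 ↥G) S
  have h1 : Nat.card (↥G ⧸ Cfsg.pCore 2 ↥G) = 2 * q := by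
    rw [Nat.card_congr e.toEquiv, DihedralGroup.nat_card]
  have h2 := Subgroup.card_eq_card_quotient_mul_card_subgroup (Cfsg.pCore 2 ↥G)
  rw [h1] at h2
  obtain ⟨k, hk⟩ := (Cfsg.Agent.H52.pCore_isPGroup 2 ↥G).exists_card_eq
  have hScard : Nat.card (S : Subgroup ↥G) = 2 * Nat.card (Cfsg.pCore 2 ↥G) := by
    obtain ⟨m, hm⟩ := S.isPGroup'.exists_card_eq
    have h3 := Subgroup.card_mul_index (S : Subgroup ↥G)
    have hnd : ¬ 2 ∣ (S : Subgroup ↥G).index := S.not_dvd_index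
    rw [hm, h2, hk] at h3
    rw [hm, hk]
    have hqodd : ¬ 2 ∣ q := fun h =>
      hq2 ((Nat.prime_dvd_prime_iff_eq Nat.prime_two hqp).mp h).symm
    have hc1 : Nat.Coprime (2 ^ (k + 1)) (S : Subgroup ↥G).index :=
      Nat.Coprime.pow_left (k + 1) ((Nat.Prime.coprime_iff_not_dvd Nat.prime_two).mpr hnd)
    have hc2 : Nat.Coprime (2 ^ m) q :=
      Nat.Coprime.pow_left m ((Nat.Prime.coprime_iff_not_dvd Nat.prime_two).mpr hqodd)
    have hd1 : 2 ^ (k + 1) ∣ 2 ^ m * (S : Subgroup ↥G).index := by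
      rw [h3]
      exact ⟨q, by ring⟩
    have hd2 : 2 ^ m ∣ 2 ^ (k + 1) * q := by
      have : 2 ^ (k + 1) * q = 2 ^ m * (S : Subgroup ↥G).index := by rw [h3]; ring
      rw [this]
      exact dvd_mul_right _ _
    have he : 2 ^ m = 2 ^ (k + 1) :=
      Nat.dvd_antisymm (hc2.dvd_of_dvd_mul_right hd2) (hc1.dvd_of_dvd_mul_right hd1)
    rw [he]
    ring
  refine
    { qp := hqp
      q2 := hq2
      QS := Subgroup.map_mono hpcS
      SM := Subgroup.map_subtype_le _
      Qn := ?_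
      S2 := S.isPGroup'.map G.subtype
      card := ?_
      cent := ?_
      dih := ?_
      tS := ?_
      star := ?_ }
  · rintro m hm _ ⟨x, hx, rfl⟩
    exact ⟨⟨m, hm⟩ * x * ⟨m, hm⟩⁻¹, (Cfsg.pCore_normal 2 ↥G).conj_mem x hx ⟨m, hm⟩, rfl⟩
  · rw [Subgroup.card_subtype, Subgroup.card_subtype]
    exact hScard
  · intro x hx hxy
    have hxc : (⟨x, hx⟩ : ↥G) ∈ Subgroup.centralizer (Cfsg.pCore 2 ↥G : Set ↥G) := by
      rw [Subgroup.mem_centralizer_iff]
      intro y hy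
      apply Subtype.ext
      exact (hxy (y : H) ⟨y, hy, rfl⟩).symm
    exact ⟨⟨x, hx⟩, hcent hxc, rfl⟩
  · refine ⟨e.toMonoidHom.comp (QuotientGroup.mk' _), ?_, ?_⟩
    · exact e.surjective.comp (QuotientGroup.mk'_surjective _)
    · intro m
      show e (QuotientGroup.mk m) = 1 ↔ _
      rw [map_eq_one_iff e e.injective, QuotientGroup.eq_one_iff]
      constructor
      · intro h
        exact ⟨m, h, rfl⟩
      · rintro ⟨m', hm', hmm'⟩
        have hm'' : m' = m := Subtype.ext hmm'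
        exact hm'' ▸ hm'
  · intro s hs
    exact (Subgroup.mem_normalizer_iff.mp htN s).mp hs
  · intro A hAS hGA htA
    refine eq_bot_of_normalizer hG (hAS.trans (Subgroup.map_subtype_le _)) ?_ ?_ htG
    · intro m hm
      exact Subgroup.mem_normalizer_fintype (fun n hn => hGA m hm n hn)
    · exact Subgroup.mem_normalizer_fintype (fun n hn => htA n hn)

end Cfsg.Agent.H24.Sm

universe w

example : Cfsg.Agent.H52.Sm.StSetup.{w} := Cfsg.Agent.H24.Sm.setup
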