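import Cfsg.Agent.H52.SmDefs
import Cfsg.Agent.H52.Basic

/-!
# S2772 piece SM-TWO: `q ≠ 2` (and helpers on coatoms of simple groups)
-/

set_option autoImplicit false

namespace Cfsg.Agent.H24.Sm

open Cfsg Cfsg.Agent.H52.Sm

universe u

/-- in a simple group, a subgroup `A` of a coatom `G` normalized by `G` and by some `t ∉ G` is
trivial -/
theorem eq_bot_of_normalizer {H : Type u} [Group H] [IsSimpleGroup H] {G A : Subgroup H}
    (hG : IsCoatom G) (hAG : A ≤ G) (hGN : G ≤ Subgroup.normalizer (A : Set H)) {t : H}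
    (ht : t ∈ Subgroup.normalizer (A : Set H)) (htG : t ∉ G) : A = ⊥ := by
  have hlt : G < Subgroup.normalizer (A : Set H) :=
    lt_of_le_of_ne hGN (fun h => htG (h ▸ ht))
  have htop : Subgroup.normalizer (A : Set H) = ⊤ := hG.2 _ hlt
  have hAn : A.Normal := Subgroup.normalizer_eq_top_iff.mp htop
  rcases hAn.eq_bot_or_eq_top with h | h
  · exact h
  · exfalso
    exact hG.1 (top_le_iff.mp (h ▸ hAG))

/-- a nontrivial coatom of a simple group is self-normalizing -/
theorem normalizer_coatom_le {H : Type u} [Group H] [IsSimpleGroup H] {G : Subgroup H}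
    (hG : IsCoatom G) (hne : G ≠ ⊥) : Subgroup.normalizer (G : Set H) ≤ G := by
  by_contra hcon
  obtain ⟨t, ht, htG⟩ := SetLike.not_le_iff_exists.mp hcon
  exact hne (eq_bot_of_normalizer hG le_rfl Subgroup.le_normalizer ht htG)

/-- SM-TWO. -/
theorem two : StTwo.{u} := by
  intro H _ _ _ G hG S hN q ⟨e⟩ hq
  subst hq
  have h1 : Nat.card (↥G ⧸ Cfsg.pCore 2 ↥G) = 4 := by
    rw [Nat.card_congr e.toEquiv, DihedralGroup.nat_card]
  have h2 := Subgroup.card_eq_card_quotient_mul_card_subgroup (Cfsg.pCore 2 ↥G)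
  rw [h1] at h2
  obtain ⟨k, hk⟩ := (Cfsg.Agent.H52.pCore_isPGroup 2 ↥G).exists_card_eq
  rw [hk] at h2
  have h3 : Nat.card ↥G = 2 ^ (k + 2) := by rw [h2]; ring
  have hidx : (S : Subgroup ↥G).index = 1 := by
    have hdvd : (S : Subgroup ↥G).index ∣ 2 ^ (k + 2) := h3 ▸ Subgroup.index_dvd_card _
    obtain ⟨m, hm, hm2⟩ := (Nat.dvd_prime_pow Nat.prime_two).1 hdvd
    have hnd : ¬ 2 ∣ (S : Subgroup ↥G).index := S.not_dvd_index
    rcases Nat.eq_zero_or_pos m with h0 | hpos
    · rw [hm2, h0, pow_zero]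
    · exfalso
      apply hnd
      rw [hm2]
      exact dvd_pow_self 2 (by omega)
  have hStop : (S : Subgroup ↥G) = ⊤ := Subgroup.index_eq_one.mp hidx
  apply hN
  rw [hStop, ← MonoidHom.range_eq_map, Subgroup.range_subtype]
  apply normalizer_coatom_le hG
  intro hbot
  have h4 : Nat.card ↥G = 1 := (Subgroup.eq_bot_iff_card G).mp hbot
  have h5 : 1 ≤ 2 ^ k := Nat.one_le_two_pow
  omega

end Cfsg.Agent.H24.Sm

universe w

example : Cfsg.Agent.H52.Sm.StTwo.{w} := Cfsg.Agent.H24.Sm.two
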