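import Cfsg.Agent.H52.SpDefs
import Cfsg.Agent.S0617
import Cfsg.Agent.H14.TFail
import Cfsg.Agent.H5.SnRed

/-!
# S2944 team project (helper52 / helper66): piece SP-GLP

Sharpening of SN-GL: the elements of odd order of `J(X)` commute modulo `O₂(X)`.
The set-up (holomorph of `V`, Glauberman's structure theorem S0617) is copied from helper14's
`Cfsg.Agent.H14.Sn.gl`; the new part is the central extension `J(X) / (J(X) ∩ O₂(X)) → Hol V`
with central kernel of odd order, to which SP-GLPA applies.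
-/

set_option autoImplicit false
set_option linter.unusedVariables false

open Cfsg
open scoped commutatorElement Pointwise

namespace Cfsg.Agent.H24.Sp

open Cfsg.Agent.H14.Holo Cfsg.Agent.H52.Sn

universe u

/-- An element of a normal subgroup `C` normalizing the `2`-group `T` of odd index, whose
square lies in `Q ⊴ X` (a `2`-group containing `T ⊓ C`), lies in `Q`. -/
theorem mem_of_sq_mem {X : Type u} [Group X] [Finite X] (T C Q : Subgroup X)
    (hT : IsPGroup 2 ↥T) (hTi : Odd T.index) (hCn : C.Normal) (hQn : Q.Normal)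
    (hQ2 : IsPGroup 2 ↥Q) (hTC : T ⊓ C ≤ Q) (a : X) (haC : a ∈ C) (ha2 : a * a ∈ Q) :
    a ∈ Q := by
  have : Fact (Nat.Prime 2) := ⟨Nat.prime_two⟩
  have hdvd : ¬ 2 ∣ T.index := by
    rw [← even_iff_two_dvd, Nat.not_even_iff_odd]; exact hTi
  obtain ⟨S, hS⟩ : ∃ S : Sylow 2 X, (S : Subgroup X) = T := ⟨hT.toSylow hdvd, rfl⟩
  -- `a` is a 2-element
  obtain ⟨k, hk⟩ := hQ2 ⟨a * a, ha2⟩
  have hk' : (a * a) ^ 2 ^ k = 1 := by
    have := congrArg Subtype.val hk
    simpa using this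
  have hak : a ^ 2 ^ (k + 1) = 1 := by
    rw [pow_succ, mul_comm, pow_mul, pow_two]
    exact hk'
  have hP : IsPGroup 2 ↥(Subgroup.zpowers a) := by
    rintro ⟨g, hg⟩
    obtain ⟨m, rfl⟩ := Subgroup.mem_zpowers_iff.mp hg
    refine ⟨k + 1, ?_⟩
    apply Subtype.ext
    simp only [Subgroup.coe_pow, Subgroup.coe_one]
    rw [← zpow_natCast, ← zpow_mul, mul_comm, zpow_mul, zpow_natCast, hak, one_zpow]
  obtain ⟨S', hS'⟩ := hP.exists_le_sylow
  obtain ⟨g, hg⟩ := MulAction.exists_smul_eq X S S'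
  have haS' : a ∈ (S' : Subgroup X) := hS' (Subgroup.mem_zpowers a)
  rw [← hg] at haS'
  change a ∈ MulAut.conj g • (S : Subgroup X) at haS'
  rw [Subgroup.mem_pointwise_smul_iff_inv_smul_mem, hS] at haS'
  have h1 : g⁻¹ * a * g ∈ T := by simpa [MulAut.smul_def] using haS'
  have h2 : g⁻¹ * a * g ∈ C := by
    have := hCn.conj_mem a haC g⁻¹
    simpa using this
  have h3 : g⁻¹ * a * g ∈ Q := hTC ⟨h1, h2⟩
  have h4 := hQn.conj_mem _ h3 g
  have e : g * (g⁻¹ * a * g) * g⁻¹ = a := by group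
  rw [e] at h4
  exact h4

/-- SP-GLP (with SN-RED imported and SP-CM as a hypothesis). -/
theorem glp (h : StGLPA.{u}) (hCM : StCM.{u}) : StGLP.{u} := by
  intro X _ _ T V _ hV hsep hT hTi hQC hCT x hx y hy hox hoy
  have : Fact (Nat.Prime 2) := ⟨Nat.prime_two⟩
  have hJn := thompsonSubgroup_normal 2 X
  obtain ⟨hO, hTC⟩ := Cfsg.Agent.H5.Sn.red T V hT hTi hQC hCT
  have hQn : (pCore 2 X).Normal := Cfsg.Agent.H13.pCore_normal 2 X
  have hQ2 : IsPGroup 2 ↥(pCore 2 X) := Cfsg.Agent.H13.pCore_isPGroup 2 X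
  have hCn : (Subgroup.centralizer (V : Set X)).Normal := inferInstance
  have hCMH : ⁅Subgroup.centralizer (V : Set X), thompsonSubgroup 2 X⁆ ≤ pCore 2 X :=
    hCM T (Subgroup.centralizer (V : Set X)) (pCore 2 X) hT hTi hCn hQn hTC hCT
  have hV' := Vh_elemAb V hV
  have hHV : (thompsonSubgroup 2 X).map (psi V) ≤
      Subgroup.normalizer ((Vh V : Subgroup (Hol V)) : Set (Hol V)) := by
    have := Vh_normal V
    rw [Subgroup.normalizer_eq_top]
    exact le_top
  have hHR : (thompsonSubgroup 2 X).map (psi V) ≤ (psi V).range := by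
    rintro _ ⟨j, -, rfl⟩
    exact ⟨j, rfl⟩
  have hf : (thompsonSubgroup 2 X).map (psi V) ⊓
      Subgroup.centralizer ((Vh V : Subgroup (Hol V)) : Set (Hol V)) = ⊥ := by
    rw [eq_bot_iff, ← range_faithful V]
    exact inf_le_inf_right _ hHR
  have hnorm : (psi V).range ≤
      Subgroup.normalizer (((thompsonSubgroup 2 X).map (psi V) : Subgroup (Hol V)) :
        Set (Hol V)) := by
    rintro _ ⟨g, rfl⟩
    rw [Subgroup.mem_normalizer_iff]
    intro h
    constructor
    · rintro ⟨j, hj, rfl⟩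
      refine ⟨g * j * g⁻¹, hJn.conj_mem j hj g, ?_⟩
      simp
    · rintro ⟨j, hj, hjh⟩
      refine ⟨g⁻¹ * j * g, ?_, ?_⟩
      · have := hJn.conj_mem j hj g⁻¹
        simpa using this
      · rw [map_mul, map_mul, hjh, map_inv]
        group
  have hS1 := hS1_of_normal (p := 2) (psi V).range ((thompsonSubgroup 2 X).map (psi V)) hHR
    hnorm (range_isPSolvable V hsep) (range_pCore_eq_bot V hO)
  have hS3 : (thompsonSubgroup 2 X).map (psi V) = ⨆ A : {A : Subgroup (Hol V) //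
      A ≤ (thompsonSubgroup 2 X).map (psi V) ∧ IsBestOffenderOn 2 (Vh V) A},
      (A : Subgroup (Hol V)) := by
    apply le_antisymm
    · conv_lhs => unfold Cfsg.thompsonSubgroup
      rw [Subgroup.map_le_iff_le_comap]
      apply sSup_le
      intro A hA
      rw [← Subgroup.map_le_iff_le_comap]
      exact le_iSup (fun A : {A : Subgroup (Hol V) //
        A ≤ (thompsonSubgroup 2 X).map (psi V) ∧ IsBestOffenderOn 2 (Vh V) A} =>
          (A : Subgroup (Hol V)))
        ⟨A.map (psi V), Subgroup.map_mono (le_sSup hA), bestOffender_map V hV hA⟩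
    · exact iSup_le fun A => A.2.1
  have hmemC : ∀ g : X, psi V g = 1 → g ∈ Subgroup.centralizer (V : Set X) := by
    intro g hg
    rw [← psi_ker, MonoidHom.mem_ker]
    exact hg
  by_cases hH1 : (thompsonSubgroup 2 X).map (psi V) = ⊥
  · -- then `J(X) ≤ C` and `[C, J(X)] ≤ Q`
    have hxC : x ∈ Subgroup.centralizer (V : Set X) := by
      apply hmemC
      have hxH : psi V x ∈ (thompsonSubgroup 2 X).map (psi V) := Subgroup.mem_map_of_mem _ hx
      rw [hH1, Subgroup.mem_bot] at hxH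
      exact hxH
    have hc := Subgroup.commutator_mem_commutator hxC hy
    rw [commutatorElement_def] at hc
    exact hCMH hc
  · obtain ⟨-, hE, hind, hsup, -, -⟩ :=
      Cfsg.Agent.S0617.result _ _ hV' hHV hf hS1 hS3 hH1
    -- the central extension
    obtain ⟨H, hHdef⟩ : ∃ H : Subgroup X, H = thompsonSubgroup 2 X := ⟨_, rfl⟩
    obtain ⟨Q, hQdef⟩ : ∃ Q : Subgroup X, Q = pCore 2 X := ⟨_, rfl⟩
    rw [← hHdef] at hx hy hCMH hsup hE hind
    rw [← hQdef] at hCMH hQn hQ2 hTC hQC ⊢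
    have : Q.Normal := hQn
    have : (Q.subgroupOf H).Normal := inferInstance
    have hker0 : Q.subgroupOf H ≤ ((psi V).comp H.subtype).ker := by
      intro q hq
      rw [MonoidHom.mem_ker, MonoidHom.comp_apply]
      have : (q : X) ∈ Subgroup.centralizer (V : Set X) := hQC (Subgroup.mem_subgroupOf.mp hq)
      rw [← psi_ker, MonoidHom.mem_ker] at this
      exact this
    obtain ⟨f, hfdef⟩ : ∃ f : (↥H ⧸ Q.subgroupOf H) →* Hol V,
        f = QuotientGroup.lift (Q.subgroupOf H) ((psi V).comp H.subtype) hker0 := ⟨_, rfl⟩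
    have hfmk : ∀ a : ↥H, f (QuotientGroup.mk a) = psi V (a : X) := by
      intro a
      rw [hfdef]
      rfl
    have hrange : f.range = H.map (psi V) := by
      ext z
      constructor
      · rintro ⟨w, rfl⟩
        obtain ⟨a, rfl⟩ := QuotientGroup.mk_surjective w
        rw [hfmk]
        exact Subgroup.mem_map_of_mem _ a.2
      · rintro ⟨a, ha, rfl⟩
        exact ⟨QuotientGroup.mk (⟨a, ha⟩ : ↥H), hfmk _⟩
    have hmk1 : ∀ a : ↥H, (QuotientGroup.mk a : ↥H ⧸ Q.subgroupOf H) = 1 ↔ (a : X) ∈ Q := by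
      intro a
      rw [QuotientGroup.eq_one_iff]
      exact Subgroup.mem_subgroupOf
    -- the kernel is central
    have hcent : ∀ z ∈ f.ker, ∀ w : ↥H ⧸ Q.subgroupOf H, z * w = w * z := by
      intro z hz w
      obtain ⟨a, rfl⟩ := QuotientGroup.mk_surjective z
      obtain ⟨b, rfl⟩ := QuotientGroup.mk_surjective w
      rw [MonoidHom.mem_ker, hfmk] at hz
      have haC : (a : X) ∈ Subgroup.centralizer (V : Set X) := hmemC _ hz
      have hc : ⁅(a : X), (b : X)⁆ ∈ Q :=
        hCMH (Subgroup.commutator_mem_commutator haC b.2)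
      have h1 : (QuotientGroup.mk (a * b * a⁻¹ * b⁻¹) : ↥H ⧸ Q.subgroupOf H) = 1 := by
        rw [hmk1]
        rw [commutatorElement_def] at hc
        simpa using hc
      have h2 : (QuotientGroup.mk a : ↥H ⧸ Q.subgroupOf H) * QuotientGroup.mk b
          * (QuotientGroup.mk a)⁻¹ * (QuotientGroup.mk b)⁻¹ = 1 := by
        rw [← h1]
        rfl
      have h3 := mul_inv_eq_one.mp h2
      have h4 := mul_inv_eq_iff_eq_mul.mp h3
      exact h4
    -- the kernel has odd order
    have hodd : Odd (Nat.card ↥f.ker) := by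
      by_contra hno
      rw [Nat.not_odd_iff_even, even_iff_two_dvd] at hno
      obtain ⟨z, hz⟩ := exists_prime_orderOf_dvd_card' 2 hno
      obtain ⟨z0, hz0⟩ := z
      obtain ⟨a, rfl⟩ := QuotientGroup.mk_surjective z0
      have hz1 : (⟨QuotientGroup.mk a, hz0⟩ : ↥f.ker) ^ 2 = 1 := by
        rw [← hz]; exact pow_orderOf_eq_one _
      have hz2 : (QuotientGroup.mk a : ↥H ⧸ Q.subgroupOf H) ^ 2 = 1 := by
        have := congrArg Subtype.val hz1
        simpa using this
      have haC : (a : X) ∈ Subgroup.centralizer (V : Set X) := by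
        apply hmemC
        rw [← hfmk]
        exact MonoidHom.mem_ker.mp hz0
      have ha2 : (a : X) * (a : X) ∈ Q := by
        have h1 : (QuotientGroup.mk (a * a) : ↥H ⧸ Q.subgroupOf H) = 1 := by
          rw [← hz2, pow_two]
          rfl
        have := (hmk1 _).mp h1
        simpa using this
      have haQ : (a : X) ∈ Q :=
        mem_of_sq_mem T (Subgroup.centralizer (V : Set X)) Q hT hTi hCn hQn hQ2 hTC _ haC ha2
      have h1 : (QuotientGroup.mk a : ↥H ⧸ Q.subgroupOf H) = 1 := (hmk1 a).mpr haQ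
      have h2 : (⟨QuotientGroup.mk a, hz0⟩ : ↥f.ker) = 1 := Subtype.ext h1
      rw [h2, orderOf_one] at hz
      omega
    -- apply GLPA
    have hcomm := h f _ hcent hodd
      (fun i => by rw [hrange]; exact (hE i).1)
      (fun i => (hE i).2.1) hind (by rw [hrange]; exact hsup)
      (QuotientGroup.mk (⟨x, hx⟩ : ↥H)) (QuotientGroup.mk (⟨y, hy⟩ : ↥H))
      (Odd.of_dvd_nat hox (by
        have h1 := orderOf_map_dvd (QuotientGroup.mk' (Q.subgroupOf H)) (⟨x, hx⟩ : ↥H)
        rw [Subgroup.orderOf_mk] at h1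
        exact h1))
      (Odd.of_dvd_nat hoy (by
        have h1 := orderOf_map_dvd (QuotientGroup.mk' (Q.subgroupOf H)) (⟨y, hy⟩ : ↥H)
        rw [Subgroup.orderOf_mk] at h1
        exact h1))
    have h1 : (QuotientGroup.mk ((⟨x, hx⟩ : ↥H) * ⟨y, hy⟩ * (⟨x, hx⟩ : ↥H)⁻¹ * (⟨y, hy⟩ : ↥H)⁻¹) :
        ↥H ⧸ Q.subgroupOf H) = 1 := by
      have e : (QuotientGroup.mk ((⟨x, hx⟩ : ↥H) * ⟨y, hy⟩ * (⟨x, hx⟩ : ↥H)⁻¹ * (⟨y, hy⟩ : ↥H)⁻¹) :
          ↥H ⧸ Q.subgroupOf H) = QuotientGroup.mk (⟨x, hx⟩ : ↥H) * QuotientGroup.mk (⟨y, hy⟩ : ↥H)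
            * (QuotientGroup.mk (⟨x, hx⟩ : ↥H))⁻¹ * (QuotientGroup.mk (⟨y, hy⟩ : ↥H))⁻¹ := rfl
      rw [e, hcomm]
      group
    have h2 := (hmk1 _).mp h1
    simpa using h2

example (h : Cfsg.Agent.H52.Sn.StGLPA.{u}) (hCM : Cfsg.Agent.H52.Sn.StCM.{u}) :
    Cfsg.Agent.H52.Sn.StGLP.{u} := glp h hCM

end Cfsg.Agent.H24.Sp
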