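import Mathlib
import Cfsg.Agent.H52.SrDefs
import Cfsg.Agent.H14.UqNormWG

set_option autoImplicit false

/-!
SR-NORMG (helper24, parallel take for helper52: SR / S2951): for `J(T)`-components `K₁, K₂ ≤ L`
(`L` in the family of `T`) and `l ∈ L`, the conjugate `K₁^l` normalizes `W_{K₂}`.

Every `L`-conjugate of `J = J(T)` normalizes `W_{K₂}` (helper14's
`conj_thompson_le_normalizer_wOf`); `K₁^l = [K₁^l, J^l]` is generated by commutators
`k j k⁻¹ j⁻¹` with `k ∈ K₁^l ≤ L`, `j ∈ J^l`, and `k j k⁻¹ ∈ J^(k l)`.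
-/

namespace Cfsg.Agent.H24.Sr

open Cfsg
open scoped commutatorElement

universe u

theorem normG : Cfsg.Agent.H52.Sr.StNormG.{u} := by
  intro G _ _ hchar hsolv hz T hT hT1 L hL K₁ K₂ hK₁ hK₁L hK₂ hK₂L l hl
  have h1 : ∀ x ∈ L, (thompsonSubgroupOf 2 T).map (MulAut.conj x).toMonoidHom ≤
      Subgroup.normalizer (wOf K₂ : Set G) := fun x hx =>
    Cfsg.Agent.H14.Uq.conj_thompson_le_normalizer_wOf hchar hsolv hz T hT hT1 L hL K₂ hK₂ hK₂L
      x hx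
  have hKJ : ⁅K₁, thompsonSubgroupOf 2 T⁆ = K₁ := hK₁.2.1
  have hKlL : K₁.map (MulAut.conj l).toMonoidHom ≤ L := by
    rintro _ ⟨k, hk, rfl⟩
    simp only [MulEquiv.coe_toMonoidHom, MulAut.conj_apply]
    exact L.mul_mem (L.mul_mem hl (hK₁L hk)) (L.inv_mem hl)
  have e : K₁.map (MulAut.conj l).toMonoidHom =
      ⁅K₁.map (MulAut.conj l).toMonoidHom,
        (thompsonSubgroupOf 2 T).map (MulAut.conj l).toMonoidHom⁆ := by
    rw [← Subgroup.map_commutator, hKJ]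
  rw [e, Subgroup.commutator_le]
  intro k hk j hj
  obtain ⟨j0, hj0, rfl⟩ := hj
  have hkL : k ∈ L := hKlL hk
  have e2 : ⁅k, (MulAut.conj l).toMonoidHom j0⁆ =
      ((k * l) * j0 * (k * l)⁻¹) * (l * j0 * l⁻¹)⁻¹ := by
    simp only [commutatorElement_def, MulEquiv.coe_toMonoidHom, MulAut.conj_apply]; group
  rw [e2]
  refine Subgroup.mul_mem _ ?_ (Subgroup.inv_mem _ ?_)
  · exact h1 (k * l) (L.mul_mem hkL hl)
      ⟨j0, hj0, by rw [MulEquiv.coe_toMonoidHom, MulAut.conj_apply]⟩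
  · exact h1 l hl ⟨j0, hj0, by rw [MulEquiv.coe_toMonoidHom, MulAut.conj_apply]⟩

example : ∀ {G : Type u} [Group G] [Finite G],
  IsCharacteristicTwoType G →
  (∀ N : Subgroup G, IsTwoLocal N → Group.IsSolvable ↥N) →
  (∀ S : Sylow 2 G, Subgroup.centralizer (omegaCenterOf (S : Subgroup G) : Set G) ≤
      Subgroup.normalizer ((S : Subgroup G) : Set G)) →
  ∀ (T : Subgroup G), IsPGroup 2 ↥T → T ≠ ⊥ → ∀ (L : Subgroup G), L ∈ jOvergroups T →
  ∀ (K₁ K₂ : Subgroup G), IsJComponent T K₁ → K₁ ≤ L → IsJComponent T K₂ → K₂ ≤ L →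
  ∀ l ∈ L, K₁.map (MulAut.conj l).toMonoidHom ≤ Subgroup.normalizer (wOf K₂ : Set G) := normG

end Cfsg.Agent.H24.Sr
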