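import Mathlib
import Cfsg.Agent.H88.StNDefs

set_option autoImplicit false

/-!
# S2549-REL: relations between the entries of a unitriangular isometry of the minus form
-/

namespace Cfsg.Agent.H24.StN

open Matrix Cfsg.Agent.H88.StN

variable {F : Type*} [Field F]

/-- The polar form of `QF`. -/
def BFm (m : ℕ) (a b : F) (u w : Fin (2 * m + 2) → F) : F :=
  (∑ i : Fin m, (u (pE m i) * w (pF m i) + w (pE m i) * u (pF m i))) +
    (2 * u (pZ m 0) * w (pZ m 0) + a * (u (pZ m 0) * w (pZ m 1) + u (pZ m 1) * w (pZ m 0)) +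
      2 * b * u (pZ m 1) * w (pZ m 1))

theorem QF_add (m : ℕ) (a b : F) (u w : Fin (2 * m + 2) → F) :
    QF m a b (u + w) = QF m a b u + QF m a b w + BFm m a b u w := by
  unfold QF BFm
  simp only [Pi.add_apply]
  have h : ∑ i : Fin m, (u (pE m i) + w (pE m i)) * (u (pF m i) + w (pF m i)) =
      ∑ i : Fin m, u (pE m i) * u (pF m i) + ∑ i : Fin m, w (pE m i) * w (pF m i) +
        ∑ i : Fin m, (u (pE m i) * w (pF m i) + w (pE m i) * u (pF m i)) := by
    rw [← Finset.sum_add_distrib, ← Finset.sum_add_distrib]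
    exact Finset.sum_congr rfl fun i _ => by ring
  rw [h]
  ring

theorem BFm_mat (m : ℕ) (a b : F) (g : OGm m F a b) (u w : Fin (2 * m + 2) → F) :
    BFm m a b (mat g *ᵥ u) (mat g *ᵥ w) = BFm m a b u w := by
  have h1 := quad_mat g (u + w)
  rw [Matrix.mulVec_add, QF_add, QF_add, quad_mat, quad_mat] at h1
  exact add_left_cancel h1

theorem pE_val (m : ℕ) (i : Fin m) : (pE m i).val = i.val := rfl

theorem pF_val (m : ℕ) (i : Fin m) : (pF m i).val = 2 * m + 1 - i.val := rfl

theorem pZ_val (m : ℕ) (j : Fin 2) : (pZ m j).val = m + j.val := rfl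

theorem pE_ne_pF (m : ℕ) (i j : Fin m) : pE m i ≠ pF m j := by
  intro h
  have h1 := congrArg Fin.val h
  rw [pE_val, pF_val] at h1
  omega

theorem pE_ne_pZ (m : ℕ) (i : Fin m) (j : Fin 2) : pE m i ≠ pZ m j := by
  intro h
  have h1 := congrArg Fin.val h
  rw [pE_val, pZ_val] at h1
  omega

theorem pF_ne_pZ (m : ℕ) (i : Fin m) (j : Fin 2) : pF m i ≠ pZ m j := by
  intro h
  have h1 := congrArg Fin.val h
  rw [pF_val, pZ_val] at h1
  omega

theorem pE_lt_pZ (m : ℕ) (i : Fin m) (j : Fin 2) : pE m i < pZ m j := by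
  rw [Fin.lt_def, pE_val, pZ_val]
  omega

theorem pZ_lt_pF (m : ℕ) (i : Fin m) (j : Fin 2) : pZ m j < pF m i := by
  rw [Fin.lt_def, pF_val, pZ_val]
  omega

theorem pE_lt_pF (m : ℕ) (i j : Fin m) : pE m i < pF m j := by
  rw [Fin.lt_def, pE_val, pF_val]
  omega

theorem single_col {m : ℕ} (M : Matrix (Fin (2 * m + 2)) (Fin (2 * m + 2)) F)
    (j c : Fin (2 * m + 2)) : (M *ᵥ Pi.single j 1) c = M c j := by
  classical
  rw [Matrix.mulVec_single_one]
  rfl

theorem ominus_rel (m : ℕ) (a b : F) (g : OGm m F a b) (hg : IsUniM g) : (∀ (k : Fin m) (hk : k.val + 1 < m), mat g (pF m ⟨k.val + 1, hk⟩) (pF m k) = - mat g (pE m k) (pE m ⟨k.val + 1, hk⟩)) ∧ (∀ k : Fin m, k.val + 1 = m → mat g (pZ m 0) (pF m k) = 0 → mat g (pZ m 1) (pF m k) = 0 → mat g (pE m k) (pZ m 0) = 0 ∧ mat g (pE m k) (pZ m 1) = 0 ∧ mat g (pE m k) (pF m k) = 0) := by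
  classical
  obtain ⟨⟨hlow, hdiag⟩, -⟩ := hg
  constructor
  · intro k hk
    obtain ⟨k', hk'⟩ : ∃ k' : Fin m, k' = ⟨k.val + 1, hk⟩ := ⟨_, rfl⟩
    have hk'v : k'.val = k.val + 1 := by rw [hk']
    rw [← hk']
    have hkk' : k ≠ k' := by
      intro h0
      rw [← h0] at hk'v
      omega
    have h := BFm_mat m a b g (Pi.single (pE m k') 1) (Pi.single (pF m k) 1)
    unfold BFm at h
    simp only [single_col] at h
    have hr1 : ∀ i : Fin m, (Pi.single (pE m k') (1 : F) : Fin (2 * m + 2) → F) (pE m i) *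
        (Pi.single (pF m k) (1 : F) : Fin (2 * m + 2) → F) (pF m i) +
        (Pi.single (pF m k) (1 : F) : Fin (2 * m + 2) → F) (pE m i) *
        (Pi.single (pE m k') (1 : F) : Fin (2 * m + 2) → F) (pF m i) = 0 := by
      intro i
      rw [Pi.single_eq_of_ne (pE_ne_pF m i k), Pi.single_eq_of_ne (pE_ne_pF m k' i).symm]
      by_cases hik : i = k
      · subst hik
        have : pE m i ≠ pE m k' := by
          intro h0
          have h1 := congrArg Fin.val h0
          rw [pE_val, pE_val] at h1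
          omega
        rw [Pi.single_eq_of_ne this]
        ring
      · have : pF m i ≠ pF m k := by
          intro h0
          have h1 := congrArg Fin.val h0
          rw [pF_val, pF_val] at h1
          have := i.isLt
          have := k.isLt
          exact hik (Fin.ext (by omega))
        rw [Pi.single_eq_of_ne this]
        ring
    rw [Finset.sum_congr rfl (fun i _ => hr1 i), Finset.sum_const_zero,
      Pi.single_eq_of_ne (pE_ne_pZ m k' 0).symm, Pi.single_eq_of_ne (pE_ne_pZ m k' 1).symm] at h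
    rw [hlow _ _ (pE_lt_pZ m k' 0), hlow _ _ (pE_lt_pZ m k' 1)] at h
    have hl1 : ∀ i : Fin m, mat g (pE m i) (pE m k') * mat g (pF m i) (pF m k) +
        mat g (pE m i) (pF m k) * mat g (pF m i) (pE m k') =
        mat g (pE m i) (pE m k') * mat g (pF m i) (pF m k) := by
      intro i
      rw [hlow _ _ (pE_lt_pF m k' i), mul_zero, add_zero]
    rw [Finset.sum_congr rfl (fun i _ => hl1 i)] at h
    have hsum : ∑ i : Fin m, mat g (pE m i) (pE m k') * mat g (pF m i) (pF m k) =
        mat g (pE m k) (pE m k') * mat g (pF m k) (pF m k) +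
        mat g (pE m k') (pE m k') * mat g (pF m k') (pF m k) := by
      refine Finset.sum_eq_add k k' hkk' ?_ (fun h0 => absurd (Finset.mem_univ _) h0)
        (fun h0 => absurd (Finset.mem_univ _) h0)
      intro c _ hc
      have hc1 : c.val ≠ k.val := fun h0 => hc.1 (Fin.ext h0)
      have hc2 : c.val ≠ k.val + 1 := fun h0 => hc.2 (Fin.ext (by rw [hk'v]; exact h0))
      rcases Nat.lt_or_ge c.val k.val with hlt | hge
      · have h2 : pF m k < pF m c := by
          rw [Fin.lt_def, pF_val, pF_val]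
          have := k.isLt
          omega
        rw [hlow _ _ h2, mul_zero]
      · have h2 : pE m k' < pE m c := by
          rw [Fin.lt_def, pE_val, pE_val]
          omega
        rw [hlow _ _ h2, zero_mul]
    rw [hsum, hdiag, hdiag] at h
    have h3 : mat g (pE m k) (pE m k') + mat g (pF m k') (pF m k) = 0 := by
      have h4 : mat g (pE m k) (pE m k') * 1 + 1 * mat g (pF m k') (pF m k) +
          (2 * 0 * mat g (pZ m 0) (pF m k) + a * (0 * mat g (pZ m 1) (pF m k) +
            0 * mat g (pZ m 0) (pF m k)) + 2 * b * 0 * mat g (pZ m 1) (pF m k)) =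
          mat g (pE m k) (pE m k') + mat g (pF m k') (pF m k) := by ring
      rw [← h4, h]
      ring
    exact eq_neg_of_add_eq_zero_right h3
  · intro k hk hz0 hz1
    have hFlt : ∀ c : Fin m, c ≠ k → pF m k < pF m c := by
      intro c hc
      have hc1 : c.val ≠ k.val := fun h0 => hc (Fin.ext h0)
      rw [Fin.lt_def, pF_val, pF_val]
      have := c.isLt
      have := k.isLt
      omega
    have hsingF : ∀ j : Fin 2, (Pi.single (pF m k) (1 : F) : Fin (2 * m + 2) → F) (pZ m j) = 0 :=
      fun j => Pi.single_eq_of_ne (pF_ne_pZ m k j).symm _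
    have hsingE : ∀ i : Fin m,
        (Pi.single (pF m k) (1 : F) : Fin (2 * m + 2) → F) (pE m i) = 0 :=
      fun i => Pi.single_eq_of_ne (pE_ne_pF m i k) _
    have hZ : ∀ j : Fin 2, mat g (pE m k) (pZ m j) = 0 := by
      intro j
      have h := BFm_mat m a b g (Pi.single (pZ m j) 1) (Pi.single (pF m k) 1)
      unfold BFm at h
      simp only [single_col] at h
      have hr1 : ∀ i : Fin m, (Pi.single (pZ m j) (1 : F) : Fin (2 * m + 2) → F) (pE m i) *
          (Pi.single (pF m k) (1 : F) : Fin (2 * m + 2) → F) (pF m i) +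
          (Pi.single (pF m k) (1 : F) : Fin (2 * m + 2) → F) (pE m i) *
          (Pi.single (pZ m j) (1 : F) : Fin (2 * m + 2) → F) (pF m i) = 0 := by
        intro i
        rw [Pi.single_eq_of_ne (pE_ne_pZ m i j), hsingE i]
        ring
      rw [Finset.sum_congr rfl (fun i _ => hr1 i), Finset.sum_const_zero, hsingF 0, hsingF 1,
        hz0, hz1] at h
      have hl1 : ∀ i : Fin m, mat g (pE m i) (pZ m j) * mat g (pF m i) (pF m k) +
          mat g (pE m i) (pF m k) * mat g (pF m i) (pZ m j) =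
          mat g (pE m i) (pZ m j) * mat g (pF m i) (pF m k) := by
        intro i
        rw [hlow _ _ (pZ_lt_pF m i j), mul_zero, add_zero]
      rw [Finset.sum_congr rfl (fun i _ => hl1 i)] at h
      have hsum : ∑ i : Fin m, mat g (pE m i) (pZ m j) * mat g (pF m i) (pF m k) =
          mat g (pE m k) (pZ m j) * mat g (pF m k) (pF m k) := by
        refine Finset.sum_eq_single k ?_ (fun h0 => absurd (Finset.mem_univ _) h0)
        intro c _ hc
        rw [hlow _ _ (hFlt c hc), mul_zero]
      rw [hsum, hdiag] at h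
      have h4 : mat g (pE m k) (pZ m j) * 1 +
          (2 * mat g (pZ m 0) (pZ m j) * 0 + a * (mat g (pZ m 0) (pZ m j) * 0 +
            mat g (pZ m 1) (pZ m j) * 0) + 2 * b * mat g (pZ m 1) (pZ m j) * 0) =
          mat g (pE m k) (pZ m j) := by ring
      rw [← h4, h]
      ring
    refine ⟨hZ 0, hZ 1, ?_⟩
    have h := quad_mat g (Pi.single (pF m k) 1)
    unfold QF at h
    simp only [single_col] at h
    have hr1 : ∀ i : Fin m, (Pi.single (pF m k) (1 : F) : Fin (2 * m + 2) → F) (pE m i) *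
        (Pi.single (pF m k) (1 : F) : Fin (2 * m + 2) → F) (pF m i) = 0 := by
      intro i
      rw [hsingE i, zero_mul]
    rw [Finset.sum_congr rfl (fun i _ => hr1 i), Finset.sum_const_zero, hsingF 0, hsingF 1,
      hz0, hz1] at h
    have hsum : ∑ i : Fin m, mat g (pE m i) (pF m k) * mat g (pF m i) (pF m k) =
        mat g (pE m k) (pF m k) * mat g (pF m k) (pF m k) := by
      refine Finset.sum_eq_single k ?_ (fun h0 => absurd (Finset.mem_univ _) h0)
      intro c _ hc
      rw [hlow _ _ (hFlt c hc), mul_zero]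
    rw [hsum, hdiag] at h
    have h4 : mat g (pE m k) (pF m k) * 1 + ((0 : F) ^ 2 + a * 0 * 0 + b * 0 ^ 2) =
        mat g (pE m k) (pF m k) := by ring
    rw [← h4, h]
    ring

end Cfsg.Agent.H24.StN
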