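import Cfsg.Agent.H23.StbDecDefs2

/-!
# S2156 team project (helper23), piece SD-NF1 (parallel take)
Every automorphism is, up to an inner automorphism, one that maps `X_{±α_i}` onto `X_{±α_{π i}}`
through additive bijections of the field (assembly of SYL, OPP, NEG, POSG, MATCHG, ROOTMAPG).
-/

set_option autoImplicit false

universe u

namespace Cfsg.Agent.H24.StbD

open Cfsg.Lie Cfsg.Agent.H23 Cfsg.Agent.H23.Stb Cfsg.Agent.H23.StbD

/-- SD-NF1 -/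
theorem nf1 (h1 : StSyl.{u}) (h2 : StOpp.{u}) (h3 : StNeg.{u})
    (h4 : Cfsg.Agent.H78.StbG.StPosG.{u}) (h5 : Cfsg.Agent.H78.StbG.StMatchG.{u})
    (h6 : StRootMapG.{u}) : StNF1.{u} := by
  intro D F _ _ p _ z η rT w0 hC adj τ hSyl hτlt hττ hw0 hc2 hadj θ
  obtain ⟨g₁, hg₁⟩ := h1 D F p θ hSyl
  obtain ⟨u, hu1, hu2⟩ := h2 D F z η rT w0 hC (conjL g₁ θ) hg₁
  have hconj : conjL u (conjL g₁ θ) = conjL (u * g₁) θ := by
    apply MulEquiv.ext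
    intro y
    rw [conjL_apply, conjL_apply, conjL_apply]
    group
  have hneg := h3 D F z η rT w0 hC (conjL u (conjL g₁ θ)) hu1 hu2
  have hpos := h4 D F z η rT w0 hC (conjL u (conjL g₁ θ)) τ hτlt hττ hw0 hu1 hu2
  obtain ⟨π, hπlt, hπinj, hπadj, hπ⟩ :=
    h5 D F z η rT w0 hC (conjL u (conjL g₁ θ)) adj hpos hneg hc2 hadj
  rw [hconj] at hπ
  have hφ : ∀ i : ℕ, ∃ φ : F ≃+ F, i < D.rank → ∀ t : F,
      conjL (u * g₁) θ (xG hC.hP.sem (D.simple i) t) = xG hC.hP.sem (D.simple (π i)) (φ t) := by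
    intro i
    by_cases hi : i < D.rank
    · obtain ⟨φ, hφ⟩ := h6 D F z η hC.hP (conjL (u * g₁) θ) (D.simple i) (D.simple (π i))
        (hC.hP.tab.simple_lt i hi) (hC.hP.tab.simple_lt (π i) (hπlt i hi)) (hπ i hi).1
      exact ⟨φ, fun _ => hφ⟩
    · exact ⟨AddEquiv.refl F, fun h => absurd h hi⟩
  have hψ : ∀ i : ℕ, ∃ ψ : F ≃+ F, i < D.rank → ∀ t : F,
      conjL (u * g₁) θ (xG hC.hP.sem (D.neg (D.simple i)) t)
        = xG hC.hP.sem (D.neg (D.simple (π i))) (ψ t) := by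
    intro i
    by_cases hi : i < D.rank
    · obtain ⟨ψ, hψ⟩ := h6 D F z η hC.hP (conjL (u * g₁) θ) (D.neg (D.simple i))
        (D.neg (D.simple (π i))) (hC.hP.tab.neg_lt _ (hC.hP.tab.simple_lt i hi))
        (hC.hP.tab.neg_lt _ (hC.hP.tab.simple_lt (π i) (hπlt i hi))) (hπ i hi).2
      exact ⟨ψ, fun _ => hψ⟩
    · exact ⟨AddEquiv.refl F, fun h => absurd h hi⟩
  choose φ hφ' using hφ
  choose ψ hψ' using hψ
  exact ⟨u * g₁, π, φ, ψ, hπlt, hπinj, hπadj, fun i hi t => hφ' i hi t,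
    fun i hi t => hψ' i hi t⟩

end Cfsg.Agent.H24.StbD

namespace Cfsg.Agent.H24.StbDNF1Check

open Cfsg.Lie Cfsg.Agent.H23 Cfsg.Agent.H23.Stb Cfsg.Agent.H23.StbD

example (h1 : StSyl.{u}) (h2 : StOpp.{u}) (h3 : StNeg.{u})
    (h4 : Cfsg.Agent.H78.StbG.StPosG.{u}) (h5 : Cfsg.Agent.H78.StbG.StMatchG.{u})
    (h6 : StRootMapG.{u}) : Cfsg.Agent.H23.StbD.StNF1.{u} :=
  Cfsg.Agent.H24.StbD.nf1 h1 h2 h3 h4 h5 h6

end Cfsg.Agent.H24.StbDNF1Check
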