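import Mathlib
import Cfsg.Prelude.Def_GeometricClasses
import Cfsg.Agent.H44.SL2Card

set_option autoImplicit false

/-!
# S5965-IDXN2: for `q = q₀²` and an odd prime `r ∣ q₀ + 1`, the index in `SL₂(q)` of the subfield
subgroup is prime to `r`
-/

namespace Cfsg.Agent.H24.Sub

open scoped MatrixGroups

variable {F : Type*} [Field F] [Fintype F]

theorem idxn2_arith (q₀ : ℕ) (hq₀ : 1 ≤ q₀) :
    q₀ ^ 2 * ((q₀ ^ 2) ^ 2 - 1) = (q₀ * (q₀ ^ 2 - 1)) * (q₀ * (q₀ ^ 2 + 1)) := by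
  obtain ⟨m, hm⟩ : ∃ m, q₀ ^ 2 = m + 1 :=
    ⟨q₀ ^ 2 - 1, by have : 1 ≤ q₀ ^ 2 := Nat.one_le_pow _ _ hq₀; omega⟩
  rw [hm]
  have h1 : (m + 1) ^ 2 - 1 = m * (m + 2) := by
    have : (m + 1) ^ 2 = m * (m + 2) + 1 := by ring
    omega
  rw [h1, Nat.add_sub_cancel]
  have h2 : q₀ * m * (q₀ * (m + 1 + 1)) = q₀ ^ 2 * (m * (m + 2)) := by ring
  rw [h2, hm]

theorem not_dvd_index_two (F₀ : Subfield F) (r : ℕ) (hr : r.Prime) (hr2 : r ≠ 2)
    (hq : Fintype.card F = Nat.card ↥F₀ ^ 2) (hr₀ : r ∣ Nat.card ↥F₀ + 1) :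
    ¬ r ∣ ((Cfsg.Geo.subfieldSubgroup F₀ 1).comap
      (Matrix.SpecialLinearGroup.toGL :
        Matrix.SpecialLinearGroup (Fin 2) F →* GL (Fin 2) F)).index := by
  classical
  let _ : Fintype ↥F₀ := Fintype.ofFinite _
  obtain ⟨q₀, hq₀def⟩ : ∃ q₀ : ℕ, q₀ = Nat.card ↥F₀ := ⟨_, rfl⟩
  rw [← hq₀def] at hq hr₀
  have hq₀1 : 1 ≤ q₀ := by
    rw [hq₀def]
    exact Nat.card_pos
  obtain ⟨φ, hφ⟩ : ∃ φ : Matrix.SpecialLinearGroup (Fin 2) ↥F₀ →*
      Matrix.SpecialLinearGroup (Fin 2) F, φ = Matrix.SpecialLinearGroup.map F₀.subtype :=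
    ⟨_, rfl⟩
  have hφinj : Function.Injective φ := by
    intro A B hAB
    apply Subtype.ext
    ext i j
    have h1 := congrArg
      (fun M : Matrix.SpecialLinearGroup (Fin 2) F => (M : Matrix (Fin 2) (Fin 2) F) i j) hAB
    rw [hφ] at h1
    simp only [Matrix.SpecialLinearGroup.map_apply_coe, RingHom.mapMatrix_apply,
      Matrix.map_apply] at h1
    exact h1
  have hle : φ.range ≤ (Cfsg.Geo.subfieldSubgroup F₀ 1).comap
      (Matrix.SpecialLinearGroup.toGL :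
        Matrix.SpecialLinearGroup (Fin 2) F →* GL (Fin 2) F) := by
    rintro _ ⟨A, rfl⟩
    rw [Subgroup.mem_comap]
    unfold Cfsg.Geo.subfieldSubgroup
    rw [Subgroup.mem_map]
    refine ⟨Matrix.GeneralLinearGroup.map F₀.subtype (Matrix.SpecialLinearGroup.toGL A),
      Subgroup.mem_sup_left ⟨_, rfl⟩, ?_⟩
    rw [hφ]
    show (MulAut.conj (1 : GL (Fin 2) F))
      (Matrix.GeneralLinearGroup.map F₀.subtype (Matrix.SpecialLinearGroup.toGL A)) = _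
    rw [MulAut.conj_apply, one_mul, inv_one, mul_one]
    apply Units.ext
    ext i j
    rfl
  intro hdvd
  have h1 : r ∣ φ.range.index := hdvd.trans (Subgroup.index_dvd_of_le hle)
  have hcard_range : Nat.card φ.range = q₀ * (q₀ ^ 2 - 1) := by
    rw [Nat.card_congr (MonoidHom.ofInjective hφinj).toEquiv.symm, Cfsg.Agent.H44.card_SL2,
      ← Nat.card_eq_fintype_card, ← hq₀def]
  have hcardG : Nat.card (Matrix.SpecialLinearGroup (Fin 2) F) = q₀ ^ 2 * ((q₀ ^ 2) ^ 2 - 1) := by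
    rw [Cfsg.Agent.H44.card_SL2, hq]
  have h2 := Subgroup.card_mul_index φ.range
  rw [hcard_range, hcardG, idxn2_arith q₀ hq₀1] at h2
  have hpos : 0 < q₀ * (q₀ ^ 2 - 1) := by
    rw [← hcard_range]
    exact Nat.card_pos
  have h3 : φ.range.index = q₀ * (q₀ ^ 2 + 1) := Nat.eq_of_mul_eq_mul_left hpos h2
  rw [h3] at h1
  rcases (Nat.Prime.dvd_mul hr).mp h1 with h4 | h4
  · have h5 : r ∣ 1 := (Nat.dvd_add_right h4).mp hr₀
    exact hr.one_lt.ne' (Nat.dvd_one.mp h5)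
  · have h5 : r ∣ (q₀ + 1) ^ 2 := Dvd.dvd.pow hr₀ (by norm_num)
    have h6 : (q₀ + 1) ^ 2 = (q₀ ^ 2 + 1) + 2 * q₀ := by ring
    rw [h6] at h5
    have h7 : r ∣ 2 * q₀ := (Nat.dvd_add_right h4).mp h5
    rcases (Nat.Prime.dvd_mul hr).mp h7 with h8 | h8
    · exact hr2 ((Nat.prime_dvd_prime_iff_eq hr Nat.prime_two).mp h8)
    · have h9 : r ∣ 1 := (Nat.dvd_add_right h8).mp hr₀
      exact hr.one_lt.ne' (Nat.dvd_one.mp h9)

end Cfsg.Agent.H24.Sub
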