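import Mathlib
import Cfsg.Agent.H34.ThDefs

/-!
# TH-DECOMP (helper34's team project S1632)

The `LDLᵀ` (Schur complement) induction: a positive definite real symmetric matrix is reached by
the steps `qS`, `qD`, and the dual form satisfies `q' (B x) = q x`.
-/

set_option autoImplicit false

namespace Cfsg.Agent.H24.Th

open Real Matrix Cfsg.Agent.H34.Th

/-- `∑ x'_j (b_j c) = (∑ b_j x'_j) c`. -/
theorem decomp_aux {n : ℕ} (b x' : Fin n → ℝ) (c : ℝ) :
    ∑ j, x' j * (b j * c) = (∑ j, b j * x' j) * c := by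
  rw [Finset.sum_mul]
  exact Finset.sum_congr rfl (fun j _ => by ring)

/-- `∑ (b_j / a) x'_j = (∑ b_j x'_j) / a`. -/
theorem decomp_sum_l {n : ℕ} (a : ℝ) (b x' : Fin n → ℝ) :
    ∑ j, b j / a * x' j = (∑ j, b j * x' j) / a := by
  rw [Finset.sum_div]
  exact Finset.sum_congr rfl (fun j _ => by ring)

/-- The Schur complement applied to a vector. -/
theorem decomp_S_mulVec {n : ℕ} (a : ℝ) (b : Fin n → ℝ) (C : Fin n → Fin n → ℝ)
    (x' : Fin n → ℝ) (j : Fin n) :
    ((Matrix.of fun j k => C j k - b j * b k / a) *ᵥ x') j =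
      (∑ k, C j k * x' k) - b j * (∑ k, b k * x' k) / a := by
  simp only [Matrix.mulVec, dotProduct, Matrix.of_apply, sub_mul, Finset.sum_sub_distrib]
  congr 1
  rw [Finset.mul_sum, Finset.sum_div]
  exact Finset.sum_congr rfl (fun k _ => by ring)

/-- The quadratic form of the Schur complement. -/
theorem decomp_schur_quad {n : ℕ} (a : ℝ) (b : Fin n → ℝ) (C : Fin n → Fin n → ℝ)
    (x' : Fin n → ℝ) :
    x' ⬝ᵥ ((Matrix.of fun j k => C j k - b j * b k / a) *ᵥ x') =
      (∑ j, x' j * ∑ k, C j k * x' k) - (∑ j, b j * x' j) * ((∑ j, b j * x' j) / a) := by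
  have h1 : x' ⬝ᵥ ((Matrix.of fun j k => C j k - b j * b k / a) *ᵥ x') =
      ∑ j, x' j * ((∑ k, C j k * x' k) - b j * (∑ k, b k * x' k) / a) := by
    simp only [dotProduct]
    exact Finset.sum_congr rfl (fun j _ => by rw [decomp_S_mulVec])
  rw [h1]
  simp only [mul_sub, Finset.sum_sub_distrib]
  congr 1
  rw [← decomp_aux]
  exact Finset.sum_congr rfl (fun j _ => by ring)

/-- Expansion of the quadratic form of a symmetric matrix along the first coordinate. -/
theorem decomp_quad_expand {n : ℕ} (B : Matrix (Fin (n + 1)) (Fin (n + 1)) ℝ) (hB : B.IsSymm)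
    (x : Fin (n + 1) → ℝ) :
    x ⬝ᵥ (B *ᵥ x) = B 0 0 * (x 0) ^ 2 + 2 * x 0 * (∑ j : Fin n, B 0 j.succ * x j.succ) +
      ∑ j : Fin n, x j.succ * ∑ k : Fin n, B j.succ k.succ * x k.succ := by
  have hsym : ∀ j : Fin n, B j.succ 0 = B 0 j.succ := fun j => hB.apply 0 j.succ
  simp only [dotProduct, Matrix.mulVec, Fin.sum_univ_succ, hsym]
  have h1 : ∑ j : Fin n, x j.succ * (B 0 j.succ * x 0 + ∑ k : Fin n, B j.succ k.succ * x k.succ) =
      x 0 * (∑ j : Fin n, B 0 j.succ * x j.succ) +
        ∑ j : Fin n, x j.succ * ∑ k : Fin n, B j.succ k.succ * x k.succ := by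
    rw [Finset.mul_sum, ← Finset.sum_add_distrib]
    exact Finset.sum_congr rfl (fun j _ => by ring)
  rw [h1]
  ring

theorem decomp : StDecomp := by
  intro P hP0 hPs n
  induction n with
  | zero =>
    intro B _ _
    refine ⟨fun _ => 0, fun _ => 0, 1, hP0, fun x => ?_, fun x => rfl⟩
    simp [dotProduct]
  | succ n ih =>
    intro B hB hpos
    obtain ⟨a, ha⟩ : ∃ a, a = B 0 0 := ⟨_, rfl⟩
    obtain ⟨b, hb⟩ : ∃ b : Fin n → ℝ, b = fun j => B 0 j.succ := ⟨_, rfl⟩
    obtain ⟨C, hC⟩ : ∃ C : Fin n → Fin n → ℝ, C = fun j k => B j.succ k.succ := ⟨_, rfl⟩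
    have hexp : ∀ x : Fin (n + 1) → ℝ, x ⬝ᵥ (B *ᵥ x) =
        a * (x 0) ^ 2 + 2 * x 0 * (∑ j : Fin n, b j * x j.succ) +
          ∑ j : Fin n, x j.succ * ∑ k : Fin n, C j k * x k.succ := by
      intro x
      rw [decomp_quad_expand B hB x, ha, hb, hC]
    -- `a > 0`
    have hapos : 0 < a := by
      have h1 := hpos (Pi.single 0 1) (by
        intro h0
        have := congrFun h0 0
        simp at this)
      rw [hexp] at h1
      have h2 : ∀ j : Fin n, (Pi.single 0 1 : Fin (n + 1) → ℝ) j.succ = 0 :=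
        fun j => by simp [Fin.succ_ne_zero]
      simp only [h2, mul_zero, Finset.sum_const_zero, Pi.single_eq_same] at h1
      simpa using h1
    have hane : a ≠ 0 := hapos.ne'
    -- the Schur complement
    obtain ⟨S, hS⟩ : ∃ S : Matrix (Fin n) (Fin n) ℝ,
        S = Matrix.of fun j k => C j k - b j * b k / a := ⟨_, rfl⟩
    have hSsymm : S.IsSymm := by
      apply Matrix.IsSymm.ext
      intro j k
      rw [hS, Matrix.of_apply, Matrix.of_apply, hC]
      show B k.succ j.succ - b k * b j / a = B j.succ k.succ - b j * b k / a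
      rw [hB.apply j.succ k.succ]
      ring
    have hSq : ∀ x' : Fin n → ℝ, x' ⬝ᵥ (S *ᵥ x') =
        (∑ j, x' j * ∑ k, C j k * x' k) - (∑ j, b j * x' j) * ((∑ j, b j * x' j) / a) := by
      intro x'
      rw [hS, decomp_schur_quad]
    have hSpos : ∀ x' : Fin n → ℝ, x' ≠ 0 → 0 < x' ⬝ᵥ (S *ᵥ x') := by
      intro x' hx'
      have h1 := hpos (Fin.cons (-((∑ j, b j * x' j) / a)) x') (by
        intro h0
        apply hx'
        funext j
        have := congrFun h0 j.succ
        simpa using this)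
      rw [hexp] at h1
      simp only [Fin.cons_zero, Fin.cons_succ] at h1
      rw [hSq]
      have e : a * (-((∑ j, b j * x' j) / a)) ^ 2 +
          2 * (-((∑ j, b j * x' j) / a)) * (∑ j, b j * x' j) +
            ∑ j, x' j * ∑ k, C j k * x' k =
          (∑ j, x' j * ∑ k, C j k * x' k) - (∑ j, b j * x' j) * ((∑ j, b j * x' j) / a) := by
        field_simp
        ring
      rw [e] at h1
      exact h1
    obtain ⟨q, q', c, hP, hq, hq'⟩ := ih S hSsymm hSpos
    refine ⟨qS a (fun j => b j / a) q, qD a (fun j => b j / a) q', c / Real.sqrt a,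
      hPs n q q' c hP a hapos _, ?_, ?_⟩
    · intro x
      rw [hexp]
      unfold qS
      rw [hq, hSq, decomp_sum_l]
      field_simp
      ring
    · intro x
      unfold qD qS
      have h0 : (B *ᵥ x) 0 = a * x 0 + ∑ j : Fin n, b j * x j.succ := by
        simp only [Matrix.mulVec, dotProduct, Fin.sum_univ_succ]
        rw [ha, hb]
      have h1 : (fun j : Fin n => (B *ᵥ x) j.succ - (B *ᵥ x) 0 * (b j / a)) =
          S *ᵥ (fun j => x j.succ) := by
        funext j
        rw [h0, hS, decomp_S_mulVec]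
        have h2 : (B *ᵥ x) j.succ = b j * x 0 + ∑ k : Fin n, C j k * x k.succ := by
          simp only [Matrix.mulVec, dotProduct, Fin.sum_univ_succ]
          rw [hb, hC, hB.apply 0 j.succ]
        rw [h2]
        field_simp
        ring
      rw [h1, hq', h0, decomp_sum_l]
      field_simp

example : StDecomp := decomp

end Cfsg.Agent.H24.Th
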