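import Mathlib
import Cfsg.Agent.H77.TmDefs2

/-!
# S5987-FIB (helper77's team project S5987), port of helper98's `H98/OtFib.lean`

Every totally singular `m`-space of the minus-type space has `∏_{j<m} (q^m - q^j)` ordered bases.
-/

set_option autoImplicit false
open scoped MatrixGroups
open scoped Matrix

namespace Cfsg.Agent.H24.Tm

open Cfsg.Agent.H77.Tm Cfsg.Agent.H77.Tq Module

universe u

theorem fib_span_polar {F : Type u} [Field F] {V : Type*} [AddCommGroup V] [Module F V]
    (Q : QuadraticForm F V) (m : ℕ) (v : Fin m → V)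
    (h : ∀ a b, QuadraticMap.polar (⇑Q) (v a) (v b) = 0) :
    ∀ u ∈ Submodule.span F (Set.range v), ∀ w ∈ Submodule.span F (Set.range v),
      QuadraticMap.polar (⇑Q) u w = 0 := by
  intro u hu w hw
  refine Submodule.span_induction (p := fun u _ => QuadraticMap.polar (⇑Q) u w = 0) ?_ ?_ ?_ ?_ hu
  · rintro _ ⟨a, rfl⟩
    refine Submodule.span_induction
      (p := fun w _ => QuadraticMap.polar (⇑Q) (v a) w = 0) ?_ ?_ ?_ ?_ hw
    · rintro _ ⟨b, rfl⟩
      exact h a b
    · simp
    · intro x y _ _ hx hy
      rw [QuadraticMap.polar_add_right, hx, hy, add_zero]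
    · intro c x _ hx
      rw [QuadraticMap.polar_smul_right, hx, smul_zero]
  · simp
  · intro x y _ _ hx hy
    rw [QuadraticMap.polar_add_left, hx, hy, add_zero]
  · intro c x _ hx
    rw [QuadraticMap.polar_smul_left, hx, smul_zero]

theorem fib_span_ts {F : Type u} [Field F] {V : Type*} [AddCommGroup V] [Module F V]
    (Q : QuadraticForm F V) (m : ℕ) (v : Fin m → V) (h0 : ∀ a, Q (v a) = 0)
    (h : ∀ a b, QuadraticMap.polar (⇑Q) (v a) (v b) = 0) :
    ∀ w ∈ Submodule.span F (Set.range v), Q w = 0 := by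
  intro w hw
  refine Submodule.span_induction (p := fun w _ => Q w = 0) ?_ ?_ ?_ ?_ hw
  · rintro _ ⟨a, rfl⟩
    exact h0 a
  · exact map_zero Q
  · intro x y hx hy hx0 hy0
    have h1 := fib_span_polar Q m v h x hx y hy
    unfold QuadraticMap.polar at h1
    rw [hx0, hy0, sub_zero, sub_zero] at h1
    exact h1
  · intro c x _ hx
    rw [QuadraticMap.map_smul, hx, smul_zero]

theorem fibM : StFibM.{u} := by
  classical
  intro F _ _ k m a b
  unfold NM
  let f : {v : Fin m → (MI k → F) // LinearIndependent F v ∧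
        (∀ i, Cfsg.quadFormMinus k F a b (v i) = 0) ∧
        ∀ i j, QuadraticMap.polar (Cfsg.quadFormMinus k F a b) (v i) (v j) = 0} →
      {W : Submodule F (MI k → F) // Module.finrank F ↥W = m ∧
        Cfsg.Geo.IsTotallySingularQuad (Cfsg.quadFormMinus k F a b) W} :=
    fun v => ⟨Submodule.span F (Set.range v.1),
      by rw [finrank_span_eq_card v.2.1, Fintype.card_fin],
      fun w hw => fib_span_ts (Cfsg.Agent.H49.QMin k F a b) m v.1 v.2.2.1 v.2.2.2 w hw⟩
  have hfib : ∀ W : {W : Submodule F (MI k → F) // Module.finrank F ↥W = m ∧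
        Cfsg.Geo.IsTotallySingularQuad (Cfsg.quadFormMinus k F a b) W},
      Nat.card {v // f v = W} =
        ∏ j ∈ Finset.range m, (Fintype.card F ^ m - Fintype.card F ^ j) := by
    intro W
    have hcl := card_linearIndependent (K := F) (V := W.1) (k := m) (le_of_eq W.2.1.symm)
    rw [W.2.1, Fin.prod_univ_eq_prod_range (fun j => Fintype.card F ^ m - Fintype.card F ^ j) m]
      at hcl
    rw [← hcl]
    refine Nat.card_congr ?_
    refine
      { toFun := fun v => ⟨fun i => ⟨v.1.1 i, ?_⟩, ?_⟩
        invFun := fun s => ⟨⟨fun i => (s.1 i : (MI k → F)), ?_, ?_, ?_⟩, ?_⟩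
        left_inv := ?_
        right_inv := ?_ }
    · have h1 : Submodule.span F (Set.range v.1.1) = W.1 := congrArg Subtype.val v.2
      rw [← h1]
      exact Submodule.subset_span ⟨i, rfl⟩
    · refine LinearIndependent.of_comp W.1.subtype ?_
      exact v.1.2.1
    · exact s.2.map' W.1.subtype (Submodule.ker_subtype _)
    · intro i
      exact W.2.2 _ (s.1 i).2
    · intro i j
      unfold QuadraticMap.polar
      rw [W.2.2 _ (s.1 i).2, W.2.2 _ (s.1 j).2, W.2.2 _ (W.1.add_mem (s.1 i).2 (s.1 j).2)]
      simp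
    · refine Subtype.ext ?_
      show Submodule.span F (Set.range fun i => (s.1 i : (MI k → F))) = W.1
      have hLI : LinearIndependent F (fun i => (s.1 i : (MI k → F))) :=
        s.2.map' W.1.subtype (Submodule.ker_subtype _)
      refine Submodule.eq_of_le_of_finrank_eq ?_ ?_
      · rw [Submodule.span_le]
        rintro _ ⟨i, rfl⟩
        exact (s.1 i).2
      · rw [finrank_span_eq_card hLI, Fintype.card_fin, W.2.1]
    · intro v
      exact Subtype.ext (Subtype.ext rfl)
    · intro s
      exact Subtype.ext rfl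
  have : Fintype {W : Submodule F (MI k → F) // Module.finrank F ↥W = m ∧
        Cfsg.Geo.IsTotallySingularQuad (Cfsg.quadFormMinus k F a b) W} := Fintype.ofFinite _
  rw [← Nat.card_congr (Equiv.sigmaFiberEquiv f), Nat.card_sigma,
    Finset.sum_congr rfl (fun W _ => hfib W), Finset.sum_const, Finset.card_univ,
    smul_eq_mul, Nat.card_eq_fintype_card]

example : StFibM.{u} := fibM

end Cfsg.Agent.H24.Tm
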