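import Mathlib
import Cfsg.Agent.H77.TmDefs2
import Cfsg.Agent.H49.InvOmega
import Cfsg.Agent.H49.SimpleForms

/-!
# S5987-MODD (helper77's team project S5987)

`i` odd: the structure of the invariant totally singular subspaces of an isometry `y` of the
minus-type space with `y ^ r = 1`, from the generic pieces QSTRUCT and QWITT.
-/

set_option autoImplicit false
open scoped MatrixGroups
open scoped Matrix

namespace Cfsg.Agent.H24.Tm

open Cfsg.Agent.H45 Cfsg.Agent.H42.Spd Cfsg.Agent.H42.Ti Cfsg.Agent.H77.Tq Cfsg.Agent.H77.Tm Module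

universe u v

section Generic

variable {F : Type u} [Field F] {V : Type v} [AddCommGroup V] [Module F V]

/-- The sum of two mutually orthogonal totally singular subspaces is totally singular. -/
theorem mOdd_ts_sup (Q : QuadraticForm F V) {C U J L : Submodule F V}
    (hperp : ∀ c ∈ C, ∀ u ∈ U, QuadraticMap.polar ⇑Q c u = 0) (hJC : J ≤ C) (hLU : L ≤ U)
    (hJ : TS Q J) (hL : TS Q L) : TS Q (J ⊔ L) := by
  intro x hx
  obtain ⟨c, hc, u, hu, rfl⟩ := Submodule.mem_sup.1 hx
  have h1 := hperp c (hJC hc) u (hLU hu)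
  unfold QuadraticMap.polar at h1
  rw [hJ c hc, hL u hu, sub_zero, sub_zero] at h1
  exact h1

/-- Dimension of the sum of subspaces of two independent subspaces. -/
theorem mOdd_finrank_sup [FiniteDimensional F V] {C U J L : Submodule F V} (hCU : C ⊓ U = ⊥)
    (hJC : J ≤ C) (hLU : L ≤ U) :
    Module.finrank F ↥(J ⊔ L) = Module.finrank F ↥J + Module.finrank F ↥L := by
  have h1 := Submodule.finrank_sup_add_finrank_inf_eq J L
  have h2 : J ⊓ L = ⊥ := le_bot_iff.1 (le_trans (inf_le_inf hJC hLU) hCU.le)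
  rw [h2, finrank_bot, add_zero] at h1
  exact h1

/-- The sum of a pointwise fixed subspace and an invariant subspace is invariant. -/
theorem mOdd_map_sup (T : Module.End F V) {J L : Submodule F V}
    (hJ : J ≤ LinearMap.ker (T - 1)) (hL : L ∈ T.invtSubmodule) :
    (J ⊔ L).map T ≤ J ⊔ L := by
  rintro _ ⟨x, hx, rfl⟩
  obtain ⟨c, hc, u, hu, rfl⟩ := Submodule.mem_sup.1 hx
  have h1 : T c = c := by
    have := hJ hc
    rw [LinearMap.mem_ker, LinearMap.sub_apply, sub_eq_zero] at this
    exact this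
  have h2 : T u ∈ L := (Module.End.mem_invtSubmodule_iff_forall_mem_of_mem T).1 hL u hu
  show T (c + u) ∈ J ⊔ L
  rw [map_add, h1]
  exact Submodule.add_mem _ (Submodule.mem_sup_left hc) (Submodule.mem_sup_right h2)

end Generic

theorem mOdd (hQS : StQStruct.{u, u}) (hW : StQWitt.{u, u}) : StMOdd.{u} := by
  intro F _ _ p _ _ k a b r hab hr hr2 hrp hodd y hy hyr
  have hd := Cfsg.Agent.H49.disc_ne_zero_of_aniso a b hab
  have hnd := Cfsg.Agent.H49.QMin_nondeg k a b hd
  have hQc : ∀ v, Cfsg.Agent.H49.QMin k F a b v = Cfsg.quadFormMinus k F a b v := fun v => rfl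
  obtain ⟨T, hT⟩ : ∃ T : Module.End F (MI k → F),
      T = Matrix.toLin' (y : Matrix (MI k) (MI k) F) := ⟨_, rfl⟩
  have hctx : QCtx r (Cfsg.Agent.H49.QMin k F a b) T :=
    { prime := hr
      ne_two := hr2
      cast_ne := by
        intro h0
        have h1 := (CharP.cast_eq_zero_iff F p r).1 h0
        exact hrp ((Nat.prime_dvd_prime_iff_eq (Fact.out : p.Prime) hr).1 h1).symm
      nondeg := fun x hx => hnd.1 x (fun z => hx z)
      isom := by
        intro x
        rw [hQc, hQc, hT, Matrix.toLin'_apply]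
        exact hy x x
      pow := by
        rw [hT, ← Matrix.toLin'_pow, ← Units.val_pow_eq_pow_val, hyr]
        exact Matrix.toLin'_one }
  obtain ⟨⟨hCU, hCUtop, hperp, hCnd, hUnd⟩, ⟨A, hA⟩, hup, hbuild⟩ :=
    hQS F (MI k → F) r (Cfsg.Agent.H49.QMin k F a b) T hctx
  have hodd' : ¬ Even (orderOf (Fintype.card F : ZMod r)) := Nat.not_even_iff_odd.2 hodd
  have hcc : cc F r = 2 * ii F r := by
    unfold cc
    rw [if_neg hodd']
    rfl
  have hipos : 0 < ii F r := hodd.pos
  obtain ⟨i, hi⟩ : ∃ i, i = ii F r := ⟨_, rfl⟩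
  rw [hcc] at hA
  rw [← hi] at hA hipos hup hbuild ⊢
  have hne : ¬ Even i := by rw [hi]; exact hodd'
  have hio : Odd i := Nat.not_even_iff_odd.1 hne
  -- dimensions
  have hV : Module.finrank F (MI k → F) = 2 * k + 2 := by
    rw [Module.finrank_fintype_fun_eq_card]
    simp only [Fintype.card_sum, Fintype.card_fin]
    ring
  have hrn := LinearMap.finrank_range_add_finrank_ker (T - 1)
  rw [hV, hA] at hrn
  have hfix : fixDim k y = Module.finrank F ↥(LinearMap.ker (T - 1)) := by
    unfold fixDim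
    rw [hT]
  -- the big totally singular subspace of the non-fixed part
  obtain ⟨L₀, hL₀U, hL₀inv, hL₀ts, hL₀fin⟩ := hbuild A (fun _ => by rw [hA])
    (fun he => absurd he hne)
  have hiAk : i * A ≤ k := by
    have := Cfsg.Agent.H49.QMin_ts_le k a b hab hd L₀ hL₀ts
    rw [hL₀fin] at this
    exact this
  refine ⟨A, hiAk, ?_, ?_, ?_⟩
  · rw [hfix]
    omega
  · -- existence
    intro j w hjA hw
    obtain ⟨WU, hWUU, hWUinv, hWUts, hWUfin⟩ := hbuild j
      (fun _ => by
        rw [hA]
        exact Nat.mul_le_mul_left _ hjA)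
      (fun he => absurd he hne)
    have hCfin : 2 * w + 1 ≤ Module.finrank F ↥(LinearMap.ker (T - 1)) := by
      have e : 2 * i * A = 2 * (i * A) := by ring
      omega
    obtain ⟨J, hJC, hJts, hJfin⟩ := hW F (MI k → F) (Cfsg.Agent.H49.QMin k F a b)
      (LinearMap.ker (T - 1)) w hCnd hCfin
    refine ⟨J ⊔ WU, ⟨?_, ?_⟩, ?_⟩
    · rw [mOdd_finrank_sup hCU hJC hWUU, hJfin, hWUfin]
      ring
    · exact mOdd_ts_sup _ hperp hJC hWUU hJts hWUts
    · rw [← hT]
      exact mOdd_map_sup T hJC hWUinv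
  · -- upper bound
    intro W hWts hWinv
    have hinv : W ∈ T.invtSubmodule := by
      rw [Module.End.mem_invtSubmodule_iff_forall_mem_of_mem]
      intro x hx
      rw [hT]
      exact hWinv ⟨x, hx, rfl⟩
    obtain ⟨s, hfin, hbound, -⟩ := hup W hinv hWts
    refine ⟨s, Module.finrank F ↥(W ⊓ LinearMap.ker (T - 1)), by rw [hfin]; ring, ?_, ?_⟩
    · rw [hA] at hbound
      have e : 2 * i * A = 2 * (i * A) := by ring
      rw [e] at hbound
      have h1 : i * s ≤ i * A := by omega
      exact Nat.le_of_mul_le_mul_left h1 hipos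
    · have hts : TS (Cfsg.Agent.H49.QMin k F a b) ((W ⊓ LinearMap.ker (T - 1)) ⊔ L₀) :=
        mOdd_ts_sup _ hperp inf_le_right hL₀U (fun x hx => hWts x hx.1) hL₀ts
      have := Cfsg.Agent.H49.QMin_ts_le k a b hab hd _ hts
      rw [mOdd_finrank_sup hCU inf_le_right hL₀U, hL₀fin] at this
      exact this

example (hQS : StQStruct.{u, u}) (hW : StQWitt.{u, u}) : StMOdd.{u} := mOdd hQS hW

end Cfsg.Agent.H24.Tm
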