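import Mathlib
import Cfsg.Agent.H77.TmDefs2
import Cfsg.Agent.H49.SimpleForms
import Cfsg.Agent.H48.TqBAdapt

/-!
# S5987-NEGEVEN (helper77's team project S5987)

Every isometry `x` of the minus-type space with `x * x = -1` fixes a totally singular `m`-space
for every even `m ≤ k`: in an adapted basis `v_l, x v_l` (S5978-BADAPT) and with
`α² + β² = -1`, the vectors `u_l = v_{2l} + α v_{2l+1} + β x v_{2l+1}` and `x u_l`, `l < m / 2`,
span such a space.
-/

set_option autoImplicit false
open scoped MatrixGroups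
open scoped Matrix

namespace Cfsg.Agent.H24.Tm

open Cfsg.Agent.H77.Tq Cfsg.Agent.H77.Tm Module

universe u

/-- The span of a family of pairwise polar-orthogonal vectors is totally isotropic for the polar
form. -/
theorem negEven_span_polar {F : Type u} [Field F] {V : Type*} [AddCommGroup V] [Module F V]
    (Q : QuadraticForm F V) {κ : Type*} (v : κ → V)
    (h : ∀ a b, QuadraticMap.polar (⇑Q) (v a) (v b) = 0) :
    ∀ u ∈ Submodule.span F (Set.range v), ∀ w ∈ Submodule.span F (Set.range v),
      QuadraticMap.polar (⇑Q) u w = 0 := by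
  intro u hu w hw
  refine Submodule.span_induction (p := fun u _ => QuadraticMap.polar (⇑Q) u w = 0) ?_ ?_ ?_ ?_ hu
  · rintro _ ⟨a, rfl⟩
    refine Submodule.span_induction
      (p := fun w _ => QuadraticMap.polar (⇑Q) (v a) w = 0) ?_ ?_ ?_ ?_ hw
    · rintro _ ⟨b, rfl⟩
      exact h a b
    · simp
    · intro x y _ _ hx hy
      rw [QuadraticMap.polar_add_right, hx, hy, add_zero]
    · intro c x _ hx
      rw [QuadraticMap.polar_smul_right, hx, smul_zero]
  · simp
  · intro x y _ _ hx hy
    rw [QuadraticMap.polar_add_left, hx, hy, add_zero]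
  · intro c x _ hx
    rw [QuadraticMap.polar_smul_left, hx, smul_zero]

theorem negEven (hAd : Cfsg.Agent.H77.Tq.StBAdapt.{u}) (_hC : Cfsg.Agent.H77.Tq.StBCond.{u}) :
    StNegEven.{u} := by
  classical
  intro F _ _ k a b m h2 hab hmk hm x hx hxx
  have hd := Cfsg.Agent.H49.disc_ne_zero_of_aniso a b hab
  have hnd := Cfsg.Agent.H49.QMin_nondeg k a b hd
  obtain ⟨n, bs, hbx, hbQ, hbp⟩ :=
    hAd F (MI k) (Cfsg.Agent.H49.QMin k F a b) h2 hnd x hx hxx
  have hn : n = k + 1 := by
    have h1 := Module.finrank_eq_card_basis bs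
    rw [Module.finrank_fintype_fun_eq_card] at h1
    simp only [Fintype.card_sum, Fintype.card_fin] at h1
    omega
  obtain ⟨m', hm'⟩ := hm
  obtain ⟨α, β, hαβ⟩ := Cfsg.Agent.H48.Tq.sum_two_sq (-1 : F)
  -- the index maps `l ↦ 2 l`, `l ↦ 2 l + 1`
  obtain ⟨σ, hσv⟩ : ∃ σ : Fin m' → Fin n, ∀ l, (σ l).val = 2 * l.val :=
    ⟨fun l => ⟨2 * l.val, by have := l.isLt; omega⟩, fun _ => rfl⟩
  obtain ⟨τ, hτv⟩ : ∃ τ : Fin m' → Fin n, ∀ l, (τ l).val = 2 * l.val + 1 :=
    ⟨fun l => ⟨2 * l.val + 1, by have := l.isLt; omega⟩, fun _ => rfl⟩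
  have hσ : ∀ l l', σ l = σ l' ↔ l = l' := by
    intro l l'
    constructor
    · intro h
      have := congrArg Fin.val h
      rw [hσv, hσv] at this
      exact Fin.ext (by omega)
    · rintro rfl; rfl
  have hτ : ∀ l l', τ l = τ l' ↔ l = l' := by
    intro l l'
    constructor
    · intro h
      have := congrArg Fin.val h
      rw [hτv, hτv] at this
      exact Fin.ext (by omega)
    · rintro rfl; rfl
  have hστ : ∀ l l', σ l ≠ τ l' := by
    intro l l' h
    have := congrArg Fin.val h
    rw [hσv, hτv] at this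
    omega
  have hτσ : ∀ l l', τ l ≠ σ l' := fun l l' h => hστ l' l h.symm
  -- the polar form on the basis
  obtain ⟨B, hBdef⟩ : ∃ B : (MI k → F) →ₗ[F] (MI k → F) →ₗ[F] F,
      B = QuadraticMap.polarBilin (Cfsg.Agent.H49.QMin k F a b) := ⟨_, rfl⟩
  have hBp : ∀ v w, B v w = QuadraticMap.polar (⇑(Cfsg.Agent.H49.QMin k F a b)) v w := by
    intro v w; rw [hBdef]; rfl
  have hB : ∀ i j, B (bs i) (bs j) = if i = j then 2 else 0 := by
    intro i j
    by_cases hij : i = j
    · subst hij
      rw [if_pos rfl, hBp, QuadraticMap.polar_self, hbQ]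
      simp
    · rw [if_neg hij, hBp, hbp i j hij]
  -- the action of `x` on the basis
  obtain ⟨X, hX⟩ : ∃ X : (MI k → F) →ₗ[F] (MI k → F),
      X = Matrix.toLin' (x : Matrix (MI k) (MI k) F) := ⟨_, rfl⟩
  have hXl : ∀ l, X (bs (Sum.inl l)) = bs (Sum.inr l) := by
    intro l
    rw [hX, Matrix.toLin'_apply, hbx]
  have hXX : ∀ v, X (X v) = -v := by
    intro v
    rw [hX, ← LinearMap.comp_apply, ← Matrix.toLin'_mul, hxx]
    simp
  have hXr : ∀ l, X (bs (Sum.inr l)) = -bs (Sum.inl l) := by
    intro l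
    rw [← hXl, hXX]
  -- the vectors
  obtain ⟨u, hu⟩ : ∃ u : Fin m' → (MI k → F), u = fun l =>
      bs (Sum.inl (σ l)) + α • bs (Sum.inl (τ l)) + β • bs (Sum.inr (τ l)) := ⟨_, rfl⟩
  obtain ⟨xu, hxu⟩ : ∃ xu : Fin m' → (MI k → F), xu = fun l =>
      bs (Sum.inr (σ l)) + α • bs (Sum.inr (τ l)) - β • bs (Sum.inl (τ l)) := ⟨_, rfl⟩
  have hXu : ∀ l, X (u l) = xu l := by
    intro l
    rw [hu, hxu]
    simp only [map_add, map_smul, hXl, hXr]
    rw [smul_neg, sub_eq_add_neg]
  have hXxu : ∀ l, X (xu l) = -u l := by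
    intro l
    rw [← hXu, hXX]
  have hBuu : ∀ l l', B (u l) (u l') = 0 := by
    intro l l'
    rw [hu]
    simp only [map_add, map_smul, LinearMap.add_apply, LinearMap.smul_apply, hB, smul_eq_mul,
      Sum.inl.injEq, Sum.inr.injEq, reduceCtorEq, hσ, hτ, hστ, hτσ, if_false, mul_zero, add_zero,
      zero_add]
    by_cases h : l = l'
    · simp only [h, if_true]
      linear_combination (2 : F) * hαβ
    · simp only [h, if_false, mul_zero, add_zero]
  have hBxx : ∀ l l', B (xu l) (xu l') = 0 := by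
    intro l l'
    rw [hxu]
    simp only [map_add, map_sub, map_smul, LinearMap.add_apply, LinearMap.sub_apply,
      LinearMap.smul_apply, hB, smul_eq_mul,
      Sum.inl.injEq, Sum.inr.injEq, reduceCtorEq, hσ, hτ, hστ, hτσ, if_false, mul_zero, add_zero,
      zero_add, sub_zero, zero_sub]
    by_cases h : l = l'
    · simp only [h, if_true]
      linear_combination (2 : F) * hαβ
    · simp only [h, if_false, mul_zero, add_zero, sub_zero, neg_zero]
  have hBux : ∀ l l', B (u l) (xu l') = 0 := by
    intro l l'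
    rw [hu, hxu]
    simp only [map_add, map_sub, map_smul, LinearMap.add_apply, LinearMap.sub_apply,
      LinearMap.smul_apply, hB, smul_eq_mul,
      Sum.inl.injEq, Sum.inr.injEq, reduceCtorEq, hσ, hτ, hστ, hτσ, if_false, mul_zero, add_zero,
      zero_add, sub_zero, zero_sub]
    by_cases h : l = l'
    · simp only [h, if_true]
      ring
    · simp only [h, if_false, mul_zero, add_zero, sub_zero, neg_zero]
  have hBxu : ∀ l l', B (xu l) (u l') = 0 := by
    intro l l'
    rw [hBp, QuadraticMap.polar_comm, ← hBp]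
    exact hBux l' l
  -- the family and its span
  obtain ⟨w, hw⟩ : ∃ w : Fin m' ⊕ Fin m' → (MI k → F), w = Sum.elim u xu := ⟨_, rfl⟩
  have hwp : ∀ i j, QuadraticMap.polar (⇑(Cfsg.Agent.H49.QMin k F a b)) (w i) (w j) = 0 := by
    intro i j
    rw [← hBp, hw]
    rcases i with l | l <;> rcases j with l' | l'
    · exact hBuu l l'
    · exact hBux l l'
    · exact hBxu l l'
    · exact hBxx l l'
  -- linear independence
  have hli : LinearIndependent F w := by
    obtain ⟨φ, hφ⟩ : ∃ φ : (MI k → F) →ₗ[F] (Fin m' ⊕ Fin m' → F),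
        ∀ v idx, φ v idx = bs.repr v (Sum.map σ σ idx) :=
      ⟨LinearMap.pi fun idx => (Finsupp.lapply (Sum.map σ σ idx)).comp bs.repr.toLinearMap,
        fun v idx => rfl⟩
    apply LinearIndependent.of_comp φ
    have hcomp : φ ∘ w = fun i => Pi.single i (1 : F) := by
      funext i j
      rw [Function.comp_apply, hφ, hw]
      rcases i with l | l <;> rcases j with l' | l'
      · simp only [hu, Sum.map_inl, Sum.elim_inl, map_add, map_smul, Basis.repr_self,
          Finsupp.add_apply, Finsupp.smul_apply, Finsupp.single_apply, Sum.inl.injEq,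
          reduceCtorEq, hσ, hτσ, if_false, smul_eq_mul, mul_zero, add_zero, Pi.single_apply]
        by_cases h : l = l'
        · simp [h]
        · simp [h, Ne.symm h]
      · simp only [hu, Sum.map_inr, Sum.elim_inl, map_add, map_smul, Basis.repr_self,
          Finsupp.add_apply, Finsupp.smul_apply, Finsupp.single_apply, Sum.inr.injEq,
          reduceCtorEq, hσ, hτσ, if_false, smul_eq_mul, mul_zero, add_zero, Pi.single_apply]
      · simp only [hxu, Sum.map_inl, Sum.elim_inr, map_add, map_sub, map_smul, Basis.repr_self,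
          Finsupp.add_apply, Finsupp.sub_apply, Finsupp.smul_apply, Finsupp.single_apply,
          Sum.inl.injEq, reduceCtorEq, hσ, hτσ, if_false, smul_eq_mul, mul_zero, add_zero,
          sub_zero, Pi.single_apply]
      · simp only [hxu, Sum.map_inr, Sum.elim_inr, map_add, map_sub, map_smul, Basis.repr_self,
          Finsupp.add_apply, Finsupp.sub_apply, Finsupp.smul_apply, Finsupp.single_apply,
          Sum.inr.injEq, reduceCtorEq, hσ, hτσ, if_false, smul_eq_mul, mul_zero, add_zero,
          sub_zero, Pi.single_apply]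
        by_cases h : l = l'
        · simp [h]
        · simp [h, Ne.symm h]
    rw [hcomp]
    exact Pi.linearIndependent_single_one _ F
  refine ⟨Submodule.span F (Set.range w), ⟨?_, ?_⟩, ?_⟩
  · rw [finrank_span_eq_card hli]
    simp only [Fintype.card_sum, Fintype.card_fin]
    exact hm'.symm
  · intro v hv
    have h1 := negEven_span_polar (Cfsg.Agent.H49.QMin k F a b) w hwp v hv v hv
    rw [QuadraticMap.polar_self] at h1
    have h3 : (2 : F) * (Cfsg.Agent.H49.QMin k F a b) v = 0 := by
      rw [← h1]; simp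
    rcases mul_eq_zero.1 h3 with h4 | h4
    · exact absurd h4 h2
    · exact h4
  · rw [← hX, Submodule.map_span_le]
    rintro _ ⟨i, rfl⟩
    rcases i with l | l
    · rw [hw]
      show X (u l) ∈ _
      rw [hXu]
      exact Submodule.subset_span ⟨Sum.inr l, rfl⟩
    · rw [hw]
      show X (xu l) ∈ _
      rw [hXxu]
      exact Submodule.neg_mem _ (Submodule.subset_span ⟨Sum.inl l, rfl⟩)

example (hAd : Cfsg.Agent.H77.Tq.StBAdapt.{u}) (hC : Cfsg.Agent.H77.Tq.StBCond.{u}) :
    StNegEven.{u} := negEven hAd hC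

end Cfsg.Agent.H24.Tm
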