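import Mathlib
import Cfsg.Agent.H77.TmDefs2

/-!
# S5987-NEGODD (helper77's team project S5987)

The invariant subspaces of an isometry `x` of the minus-type form with `x * x = -1` have even
dimension (`-1` is a nonsquare by S5978-BCOND; determinant of the restriction).
-/

set_option autoImplicit false
open scoped MatrixGroups
open scoped Matrix

namespace Cfsg.Agent.H24.Tm

open Cfsg.Agent.H77.Tm Cfsg.Agent.H77.Tq Module

universe u

/-- A subspace invariant under an endomorphism of square `-1` has even dimension when `-1` is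
not a square. -/
theorem negOdd_even {F : Type u} [Field F] {V : Type*} [AddCommGroup V] [Module F V]
    [FiniteDimensional F V] (T : Module.End F V) (hsq : ¬ IsSquare (-1 : F))
    (hT : ∀ v, T (T v) = -v) (W : Submodule F V) (hW : ∀ w ∈ W, T w ∈ W) :
    Even (Module.finrank F ↥W) := by
  by_contra hodd
  rw [Nat.not_even_iff_odd] at hodd
  have hT' : T.restrict hW * T.restrict hW = (-1 : F) • (1 : Module.End F ↥W) := by
    ext x
    simp [hT]
  have hdet : LinearMap.det (T.restrict hW) * LinearMap.det (T.restrict hW) =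
      (-1 : F) ^ Module.finrank F ↥W := by
    rw [← map_mul, hT', LinearMap.det_smul, map_one, mul_one]
  rw [hodd.neg_one_pow] at hdet
  exact hsq ⟨LinearMap.det (T.restrict hW), hdet.symm⟩

theorem negOdd (hC : Cfsg.Agent.H77.Tq.StBCond.{u}) : StNegOdd.{u} := by
  intro F _ _ k a b h2 hab x hx hxx W hW
  have hsq : ¬ IsSquare (-1 : F) := (hC F k a b h2 hab x hx hxx).1
  refine negOdd_even (Matrix.toLin' (x : Matrix (MI k) (MI k) F)) hsq ?_ W
    (fun w hw => hW ⟨w, hw, rfl⟩)
  intro v
  rw [← LinearMap.comp_apply, ← Matrix.toLin'_mul, hxx]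
  simp

example (hC : Cfsg.Agent.H77.Tq.StBCond.{u}) : StNegOdd.{u} := negOdd hC

end Cfsg.Agent.H24.Tm
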