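import Mathlib
import Cfsg.Agent.H77.TmDefs

/-!
# S5987-ORD (helper77's team project S5987)

The order of `q` modulo a prime `r ∤ q`.
-/

set_option autoImplicit false

namespace Cfsg.Agent.H24.Tm

open Cfsg.Agent.H77.Tm

theorem ord : StOrd := by
  intro q r hr hrq
  have : Fact r.Prime := ⟨hr⟩
  have hq0 : (q : ZMod r) ≠ 0 := by
    intro h0
    exact hrq ((ZMod.natCast_eq_zero_iff q r).1 h0)
  have hqpos : 0 < q := by
    rcases Nat.eq_zero_or_pos q with h | h
    · exact absurd (h ▸ dvd_zero r) hrq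
    · exact h
  have hfer : (q : ZMod r) ^ (r - 1) = 1 := ZMod.pow_card_sub_one_eq_one hq0
  have hpos : 0 < orderOf (q : ZMod r) := by
    rw [orderOf_pos_iff, isOfFinOrder_iff_pow_eq_one]
    exact ⟨r - 1, Nat.sub_pos_of_lt hr.one_lt, hfer⟩
  refine ⟨hpos, orderOf_dvd_of_pow_eq_one hfer, fun e he => ⟨?_, ?_⟩⟩
  · intro hdvd
    apply orderOf_dvd_of_pow_eq_one
    have h1 : 1 ≤ q ^ e := Nat.one_le_pow _ _ hqpos
    have h2 : ((q ^ e - 1 : ℕ) : ZMod r) = 0 := (ZMod.natCast_eq_zero_iff _ _).2 hdvd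
    rw [Nat.cast_sub h1, Nat.cast_pow, Nat.cast_one, sub_eq_zero] at h2
    exact h2
  · intro hr2 hdvd
    have h2 : ((q ^ e + 1 : ℕ) : ZMod r) = 0 := (ZMod.natCast_eq_zero_iff _ _).2 hdvd
    rw [Nat.cast_add, Nat.cast_pow, Nat.cast_one] at h2
    have hm1 : (q : ZMod r) ^ e = -1 := eq_neg_of_add_eq_zero_left h2
    -- `-1 ≠ 1` as `r` is odd
    have hne : (q : ZMod r) ^ e ≠ 1 := by
      rw [hm1]
      intro h
      have h3 : ((2 : ℕ) : ZMod r) = 0 := by
        have : (1 : ZMod r) + 1 = 0 := by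
          nth_rewrite 1 [← h]
          exact neg_add_cancel 1
        rw [Nat.cast_ofNat, ← one_add_one_eq_two]
        exact this
      have h4 : r ∣ 2 := (ZMod.natCast_eq_zero_iff _ _).1 h3
      exact hr2 ((Nat.prime_dvd_prime_iff_eq hr Nat.prime_two).1 h4)
    have hnd : ¬ orderOf (q : ZMod r) ∣ e := fun h => hne (orderOf_dvd_iff_pow_eq_one.1 h)
    have hd2 : orderOf (q : ZMod r) ∣ 2 * e := by
      apply orderOf_dvd_of_pow_eq_one
      rw [mul_comm, pow_mul, hm1]
      norm_num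
    obtain ⟨o, ho⟩ : ∃ o, o = orderOf (q : ZMod r) := ⟨_, rfl⟩
    rw [← ho] at hpos hnd hd2 ⊢
    have hev : Even o := by
      by_contra hodd
      have hodd' : Odd o := Nat.not_even_iff_odd.1 hodd
      have hc : Nat.Coprime o 2 := Nat.Coprime.symm (Nat.coprime_two_left.2 hodd')
      exact hnd (hc.dvd_of_dvd_mul_left hd2)
    obtain ⟨h, hh⟩ := hev
    have hhpos : 0 < h := by omega
    have hhe : h ∣ e := by
      have h3 : 2 * h ∣ 2 * e := by
        rw [two_mul h, ← hh]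
        exact hd2
      exact (Nat.mul_dvd_mul_iff_left (by norm_num)).1 h3
    obtain ⟨t, ht⟩ := hhe
    have htodd : ¬ Even t := by
      rintro ⟨s, hs⟩
      apply hnd
      rw [hh, ht, hs]
      exact ⟨s, by ring⟩
    obtain ⟨s, hs⟩ := Nat.not_even_iff_odd.1 htodd
    refine ⟨⟨h, hh⟩, ?_⟩
    have he' : e = h + o * s := by rw [ht, hs, hh]; ring
    rw [he', Nat.add_mul_mod_self_left, Nat.mod_eq_of_lt (by omega)]
    omega

example : StOrd := ord

end Cfsg.Agent.H24.Tm
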