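import Mathlib
import Cfsg.Agent.H77.TmDefs

/-!
# S5987-SCAL (helper77's team project S5987)

A scalar isometry of the minus-type form is `±1`.
-/

set_option autoImplicit false
open scoped MatrixGroups
open scoped Matrix

namespace Cfsg.Agent.H24.Tm

open Cfsg.Agent.H77.Tm Cfsg.Agent.H77.Tq

universe u

/-- Membership in the isometry group of the minus-type form. -/
theorem scal_mem_iff {F : Type u} [Field F] (k : ℕ) (a b : F) (x : GL (MI k) F) :
    x ∈ Cfsg.isometryGroup F (Cfsg.quadFormMinus k F a b) ↔
      ∀ u : MI k → F, Cfsg.quadFormMinus k F a b ((x : Matrix (MI k) (MI k) F) *ᵥ u) =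
        Cfsg.quadFormMinus k F a b u :=
  ⟨fun h u => h u u, fun h u _ => h u⟩

/-- The value of the minus-type form on a multiple of the basis vector `e_{inr 0}`. -/
theorem scal_single {F : Type u} [Field F] (k : ℕ) (a b c : F) :
    Cfsg.quadFormMinus k F a b (Pi.single (Sum.inr 0) c) = c ^ 2 := by
  unfold Cfsg.quadFormMinus
  simp

theorem scal : StScal.{u} := by
  intro F _ _ k a b x z hx hxz
  have h1 := (scal_mem_iff k a b x).1 hx (Pi.single (Sum.inr 0) 1)
  rw [hxz, Matrix.smul_mulVec, Matrix.one_mulVec, scal_single] at h1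
  have h2 : (z • (Pi.single (Sum.inr 0) 1 : MI k → F)) = Pi.single (Sum.inr 0) z := by
    funext i
    by_cases hi : i = Sum.inr 0
    · subst hi; simp
    · simp [Pi.single_eq_of_ne hi]
  rw [h2, scal_single] at h1
  rw [← sq, h1]
  norm_num

example : StScal.{u} := scal

end Cfsg.Agent.H24.Tm
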