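import Mathlib
import Cfsg.Agent.H77.TmDefs
import Cfsg.Agent.H24.TmScal

/-!
# S5987-SIGN (helper77's team project S5987)

An isometry `x` with `x ^ r` scalar, `r` odd, has the same invariant subspaces as an isometry
`y = ± x` with `y ^ r = 1`.
-/

set_option autoImplicit false
open scoped MatrixGroups
open scoped Matrix

namespace Cfsg.Agent.H24.Tm

open Cfsg.Agent.H77.Tm Cfsg.Agent.H77.Tq

universe u

/-- The minus-type form is even. -/
theorem sign_neg {F : Type u} [Field F] (k : ℕ) (a b : F) (w : MI k → F) :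
    Cfsg.quadFormMinus k F a b (-w) = Cfsg.quadFormMinus k F a b w := by
  unfold Cfsg.quadFormMinus
  simp only [Pi.neg_apply]
  congr 1
  · exact Finset.sum_congr rfl fun i _ => by ring
  · ring

theorem sign (hScal : StScal.{u}) : StSign.{u} := by
  intro F _ _ k a b x r z hr hx hxr
  have hxrO : x ^ r ∈ Cfsg.isometryGroup F (Cfsg.quadFormMinus k F a b) := pow_mem hx r
  have hz : z * z = 1 := hScal F k a b (x ^ r) z hxrO hxr
  rcases mul_self_eq_one_iff.1 hz with h1 | h1
  · -- `z = 1`
    refine ⟨x, hx, ?_, fun W hW => hW⟩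
    apply Units.ext
    rw [hxr, h1, one_smul, Units.val_one]
  · -- `z = -1`
    refine ⟨-x, ?_, ?_, ?_⟩
    · rw [scal_mem_iff]
      intro u
      rw [Units.val_neg, Matrix.neg_mulVec, sign_neg]
      exact (scal_mem_iff k a b x).1 hx u
    · apply Units.ext
      rw [Units.val_pow_eq_pow_val, Units.val_neg, hr.neg_pow, ← Units.val_pow_eq_pow_val, hxr, h1,
        Units.val_one]
      simp
    · intro W hW
      rintro _ ⟨w, hw, rfl⟩
      have h2 : Matrix.toLin' ((-x : GL (MI k) F) : Matrix (MI k) (MI k) F) w ∈ W :=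
        hW ⟨w, hw, rfl⟩
      rw [Units.val_neg, map_neg, LinearMap.neg_apply] at h2
      have h3 := W.neg_mem h2
      rwa [neg_neg] at h3

example (hScal : StScal.{u}) : StSign.{u} := sign hScal

end Cfsg.Agent.H24.Tm
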