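import Mathlib
import Cfsg.Agent.H77.TqDefs

set_option autoImplicit false
open scoped MatrixGroups
open scoped Matrix

/-!
# S5978-TYPEA (team project of helper77): every non-scalar involution of `Ω` is `Ω`-conjugate
into `N(K)` (assembly from ARANK, AMODEL, ACONJO, ADJA)
-/

namespace Cfsg.Agent.H24.Tq

open Cfsg.Agent.H77.Tq Module

universe u

theorem rank_eq_zero_imp {F : Type*} [Field F] {ι : Type*} [Fintype ι] [DecidableEq ι]
    (A : Matrix ι ι F) (h : A.rank = 0) : A = 0 := by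
  unfold Matrix.rank at h
  have h1 : LinearMap.range A.mulVecLin = ⊥ := Submodule.finrank_eq_zero.mp h
  have h2 : A.mulVecLin = 0 := LinearMap.range_eq_bot.mp h1
  ext i j
  have h3 := congrFun (LinearMap.congr_fun h2 (Pi.single j 1)) i
  simpa using h3

theorem omegaGL_le {F : Type*} [Field F] {ι : Type} [Fintype ι] [DecidableEq ι]
    (Q : (ι → F) → F) : Cfsg.Geo.omegaGL Q ≤ Cfsg.isometryGroup F Q := by
  unfold Cfsg.Geo.omegaGL
  exact Subgroup.map_subtype_le _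

theorem typeA (hRank : StARank.{u}) (hModel : StAModel.{u}) (hConj : StAConjO.{u})
    (hAdj : StAdjA.{u}) : StTypeA.{u} := by
  intro F _ _ ι _ _ Q K hKO hev x hx hx2 hns
  have h2 := hKO.two
  have hnd := hKO.nondeg
  have hkev := hRank F ι Q h2 x hx hx2
  have hprod : ((x : Matrix ι ι F) - 1) * ((x : Matrix ι ι F) + 1) = 0 := by
    rw [Matrix.sub_mul, Matrix.mul_add, Matrix.mul_one, Matrix.one_mul, hx2]
    abel
  have hk0 : ((x : Matrix ι ι F) - 1).rank ≠ 0 := by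
    intro h0
    have h3 := rank_eq_zero_imp _ h0
    apply hns 1
    rw [one_smul]
    exact sub_eq_zero.mp h3
  have hkc : ((x : Matrix ι ι F) - 1).rank ≠ Fintype.card ι := by
    intro hc
    have h3 := Matrix.rank_add_rank_le_card_of_mul_eq_zero hprod
    have h4 : ((x : Matrix ι ι F) + 1).rank = 0 := by omega
    have h5 := rank_eq_zero_imp _ h4
    apply hns (-1)
    rw [neg_smul, one_smul]
    exact eq_neg_of_add_eq_zero_left h5
  have hkle : ((x : Matrix ι ι F) - 1).rank ≤ Fintype.card ι := Matrix.rank_le_card_width _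
  obtain ⟨j, hj⟩ := hkev
  obtain ⟨c, hc⟩ := hev
  have hj1 : 1 ≤ j := by omega
  have hj2 : 2 * j + 2 ≤ Fintype.card ι := by omega
  obtain ⟨y, hy, hyK, hy2, hyr⟩ := hModel F ι Q K hKO j hj1 hj2
  obtain ⟨g₀, hg₀, hg₀x⟩ := hConj F ι Q h2 hnd x y hx hy hx2 hy2 (by rw [hyr, hj]; ring)
  obtain ⟨c', hc', hcy, hcg⟩ := hAdj F ι Q h2 hnd y g₀ (omegaGL_le _ hy) hg₀ hy2
    (by rw [hyr]; exact hj2)
  refine ⟨(c' * g₀)⁻¹, Subgroup.inv_mem _ hcg, ?_⟩
  have hconj : ((c' * g₀)⁻¹)⁻¹ * x * (c' * g₀)⁻¹ = y := by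
    rw [inv_inv, mul_inv_rev]
    calc c' * g₀ * x * (g₀⁻¹ * c'⁻¹) = c' * (g₀ * x * g₀⁻¹) * c'⁻¹ := by group
      _ = c' * y * c'⁻¹ := by rw [hg₀x]
      _ = y := by rw [hcy, mul_inv_cancel_right]
  rw [hconj]
  exact hyK

example (hRank : StARank.{u}) (hModel : StAModel.{u}) (hConj : StAConjO.{u})
    (hAdj : StAdjA.{u}) : Cfsg.Agent.H77.Tq.StTypeA.{u} := typeA hRank hModel hConj hAdj

end Cfsg.Agent.H24.Tq
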