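import Mathlib
import Cfsg.Agent.H77.TqDefs
import Cfsg.Agent.H24.TqTypeA

set_option autoImplicit false
open scoped MatrixGroups
open scoped Matrix

/-!
# S5978-TYPEB (team project of helper77): every element of `Ω⁻` of square `-1` is `Ω`-conjugate
into `N(K)` (assembly from BCOND, STRUCT, DISC, SEMI, BCONJO, ADJB)
-/

namespace Cfsg.Agent.H24.Tq

open Cfsg.Agent.H77.Tq Module

universe u

theorem typeB (hCond : StBCond.{u}) (hS : StStruct.{u}) (hDisc : StDisc.{u})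
    (hSemi : StSemi.{u}) (hConj : StBConjO.{u}) (hAdj : StAdjB.{u}) : StTypeB.{u} := by
  intro F _ _ m a b K hAn hKO x hx hx2
  have h2 := hKO.two
  have hnd := hKO.nondeg
  have hxO : x ∈ Cfsg.isometryGroup F (Cfsg.quadFormMinus m F a b) := omegaGL_le _ hx
  obtain ⟨hneg, hmev⟩ := hCond F m a b h2 hAn x hxO hx2
  obtain ⟨n, L, iL, iFL, iAlg, ψ, φ, α, hKC, hns⟩ := hS F (MI m) (Cfsg.Agent.H49.QMin m F a b) K hKO
  have hdim := hKC.dim
  have hcard : Fintype.card (MI m) = 2 * m + 2 := by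
    simp only [MI, Fintype.card_sum, Fintype.card_fin]
    ring
  have hn : n = m + 1 := by omega
  have hnodd : Odd n := by
    rw [hn]
    exact hmev.add_one
  have hall : ∀ l : Fin n, ¬ IsSquare (α l) := by
    intro l
    by_cases hl : (l : ℕ) + 1 < n
    · exact hns l hl
    · have hl' : (l : ℕ) + 1 = n := by
        have := l.2
        omega
      have h3 := hDisc F m a b K L n ψ φ α h2 hAn hKC hns l hl'
      rw [hnodd.neg_one_pow] at h3
      intro h4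
      exact hneg (h3.mp h4)
  obtain ⟨y, hyO, hyK, hy2⟩ :=
    hSemi F (MI m) (Cfsg.Agent.H49.QMin m F a b) K L n ψ φ α hKO hKC hall
  obtain ⟨g₀, hg₀, hg₀x⟩ :=
    hConj F (MI m) (Cfsg.Agent.H49.QMin m F a b) h2 hnd x y hxO hyO hx2 hy2
  obtain ⟨c, hc, hcy, hcg⟩ :=
    hAdj F (MI m) (Cfsg.Agent.H49.QMin m F a b) n h2 hnd hneg hdim hnodd y g₀ hyO hg₀ hy2
  refine ⟨(c * g₀)⁻¹, Subgroup.inv_mem _ hcg, ?_⟩
  have hconj : ((c * g₀)⁻¹)⁻¹ * x * (c * g₀)⁻¹ = c * y * c⁻¹ := by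
    rw [inv_inv, mul_inv_rev]
    calc c * g₀ * x * (g₀⁻¹ * c⁻¹) = c * (g₀ * x * g₀⁻¹) * c⁻¹ := by group
      _ = c * y * c⁻¹ := by rw [hg₀x]
  rw [hconj]
  rcases hcy with h | h
  · rw [h]
    exact hyK
  · rw [h]
    exact Subgroup.inv_mem _ hyK

example (hCond : StBCond.{u}) (hS : StStruct.{u}) (hDisc : StDisc.{u})
    (hSemi : StSemi.{u}) (hConj : StBConjO.{u}) (hAdj : StAdjB.{u}) :
    Cfsg.Agent.H77.Tq.StTypeB.{u} := typeB hCond hS hDisc hSemi hConj hAdj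

end Cfsg.Agent.H24.Tq
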