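import Mathlib
import Cfsg.Agent.Lib.Helper96.TqPlusDefs
import Cfsg.Agent.S0287
import Cfsg.Agent.H24.TqTypeA

set_option autoImplicit false
open scoped MatrixGroups
open scoped Matrix

/-!
# S5977-IDX (team project of helper96): the arithmetic consequences of `r ∣ |Ω⁺ : N(K) ∩ Ω⁺|`
-/

namespace Cfsg.Agent.H24.Tqp

open Cfsg.Agent.H77.Tq Cfsg.Agent.Lib.Helper96.TqP

universe u

theorem not_dvd_card_of_ne {F : Type*} [Field F] [Fintype F] (p : ℕ) [Fact p.Prime] [CharP F p]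
    (r : ℕ) (hr : r.Prime) (hrp : r ≠ p) : ¬ r ∣ Fintype.card F := by
  obtain ⟨n, hp, hn⟩ := FiniteField.card F p
  rw [hn]
  intro h
  exact hrp ((Nat.prime_dvd_prime_iff_eq hr hp).mp (hr.dvd_of_dvd_pow h))

theorem order_dvd_of_dvd_pow_sub_one (q r k : ℕ) (hq : 1 ≤ q) (h : r ∣ q ^ k - 1) :
    orderOf (q : ZMod r) ∣ k := by
  apply orderOf_dvd_of_pow_eq_one
  have h1 : ((q ^ k - 1 : ℕ) : ZMod r) = 0 := (ZMod.natCast_eq_zero_iff _ _).mpr h
  rw [Nat.cast_sub (Nat.one_le_pow _ _ hq), Nat.cast_pow, Nat.cast_one, sub_eq_zero] at h1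
  exact h1

theorem idxP (hK : StKOrdP.{u}) : StIdxP.{u} := by
  intro F _ _ p _ _ d K hd hKO r hr hr2 hrp hdvd
  have hrq : ¬ r ∣ Fintype.card F := not_dvd_card_of_ne p r hr hrp
  have hq1 : 1 ≤ Fintype.card F := Fintype.card_pos
  have key : orderOf (Fintype.card F : ZMod r) ∣ d ∨
      ∃ j, j < d - 1 ∧ orderOf (Fintype.card F : ZMod r) ∣ 2 * (j + 1) := by
    have hcardO := Cfsg.Agent.S0287.result (F := F) rfl d hd
    have h1 : r ∣ Nat.card (Cfsg.isometryGroup F (Cfsg.quadFormPlus d F)) :=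
      (hdvd.trans (Subgroup.relIndex_dvd_card _ _)).trans
        (Subgroup.card_dvd_of_le (Cfsg.Agent.H24.Tq.omegaGL_le _))
    rw [hcardO] at h1
    rcases (Nat.Prime.dvd_mul hr).mp h1 with h2 | h2
    · rcases (Nat.Prime.dvd_mul hr).mp h2 with h3 | h3
      · rcases (Nat.Prime.dvd_mul hr).mp h3 with h4 | h4
        · exact absurd ((Nat.prime_dvd_prime_iff_eq hr Nat.prime_two).mp h4) hr2
        · exact absurd (hr.dvd_of_dvd_pow h4) hrq
      · left
        exact order_dvd_of_dvd_pow_sub_one _ r d hq1 h3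
    · right
      obtain ⟨j, hj, hjr⟩ := (hr.prime.dvd_finsetProd_iff _).mp h2
      exact ⟨j, Finset.mem_range.mp hj, order_dvd_of_dvd_pow_sub_one _ r _ hq1 hjr⟩
  refine ⟨?_, ?_, ?_⟩
  · intro hodd
    rcases key with h | ⟨j, hj, h⟩
    · exact Nat.le_of_dvd hd h
    · have h5 : orderOf (Fintype.card F : ZMod r) ∣ j + 1 :=
        (Nat.Coprime.dvd_of_dvd_mul_left hodd.coprime_two_right h)
      have h6 := Nat.le_of_dvd (Nat.succ_pos j) h5
      omega
  · intro hev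
    rcases key with h | ⟨j, hj, h⟩
    · have h6 := Nat.le_of_dvd hd h
      obtain ⟨c, hc⟩ := hev
      have hpos : 0 < orderOf (Fintype.card F : ZMod r) := Nat.pos_of_dvd_of_pos h hd
      omega
    · have h6 := Nat.le_of_dvd (by omega) h
      omega
  · intro h4
    exact hK F p d K hd hKO r hr hr2 hrp h4 hdvd

example (hK : StKOrdP.{u}) : Cfsg.Agent.Lib.Helper96.TqP.StIdxP.{u} := idxP hK

end Cfsg.Agent.H24.Tqp
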