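import Mathlib
import Cfsg.Agent.Lib.Helper96.TqPlusDefs
import Cfsg.Agent.S0287
import Cfsg.Agent.H24.TqpIdx

set_option autoImplicit false
open scoped MatrixGroups
open scoped Matrix

/-!
# S5977-KORD (team project of helper96): for `4 ∣ ord_r(q)` the prime `r` does not divide the
index of `N(K) ∩ Ω⁺` in `Ω⁺`
-/

namespace Cfsg.Agent.H24.Tqp

open Cfsg.Agent.H77.Tq Cfsg.Agent.Lib.Helper96.TqP

universe u

/-- If the square of every element of `H` lies in `S`, no odd prime divides `|H : H ∩ S|`. -/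
theorem not_dvd_relIndex_of_sq {G : Type*} [Group G] [Finite G] (S H : Subgroup G) (r : ℕ)
    (hr : r.Prime) (hr2 : r ≠ 2) (hsq : ∀ g ∈ H, g * g ∈ S) : ¬ r ∣ S.relIndex H := by
  have : Fact r.Prime := ⟨hr⟩
  obtain ⟨P⟩ : Nonempty (Sylow r H) := inferInstance
  have hP : (P : Subgroup H) ≤ S.subgroupOf H := by
    intro g hg
    rw [Subgroup.mem_subgroupOf]
    obtain ⟨k, hk⟩ := P.isPGroup' ⟨g, hg⟩
    have hk' : (g : G) ^ r ^ k = 1 := by
      have h := congrArg (fun x : (P : Subgroup H) => ((x : H) : G)) hk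
      simpa using h
    have hodd : Odd (r ^ k) := (hr.odd_of_ne_two hr2).pow
    obtain ⟨m, hm⟩ := hodd
    have hg2 : (g : G) * (g : G) ∈ S := hsq g g.2
    have h3 : (g : G) = ((g : G) * (g : G)) ^ (m + 1) := by
      rw [← pow_two, ← pow_mul]
      have h4 : 2 * (m + 1) = r ^ k + 1 := by omega
      rw [h4, pow_succ, hk', one_mul]
    rw [h3]
    exact S.pow_mem hg2 _
  intro hdvd
  have h1 : (S.subgroupOf H).index ∣ (P : Subgroup H).index := Subgroup.index_dvd_of_le hP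
  exact P.not_dvd_index (hdvd.trans h1)

theorem card_inf_mul_relIndex {G : Type*} [Group G] (A B : Subgroup G) :
    Nat.card ↥(A ⊓ B) * A.relIndex B = Nat.card B := by
  rw [← Subgroup.inf_relIndex_right A B, ← Subgroup.relIndex_bot_left,
    Subgroup.relIndex_mul_relIndex ⊥ (A ⊓ B) B bot_le inf_le_right, Subgroup.relIndex_bot_left]

theorem kOrdP (hC : StCentOrdP.{u}) (hAr : StArithOrdP) (hSq : StSqMem.{u}) : StKOrdP.{u} := by
  intro F _ _ p _ _ d K hd hKO r hr hr2 hrp h4 hdvd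
  obtain ⟨O, hOdef⟩ : ∃ O : Subgroup (GL (Fin d ⊕ Fin d) F),
      O = Cfsg.isometryGroup F (Cfsg.quadFormPlus d F) := ⟨_, rfl⟩
  obtain ⟨Ω, hΩdef⟩ : ∃ Ω : Subgroup (GL (Fin d ⊕ Fin d) F),
      Ω = Cfsg.Geo.omegaGL (Cfsg.quadFormPlus d F) := ⟨_, rfl⟩
  obtain ⟨N, hNdef⟩ : ∃ N : Subgroup (GL (Fin d ⊕ Fin d) F),
      N = Cfsg.Geo.subalgebraNormalizer K := ⟨_, rfl⟩
  rw [← hNdef, ← hΩdef] at hdvd
  have hΩO : Ω ≤ O := by
    rw [hΩdef, hOdef]
    exact Cfsg.Agent.H24.Tq.omegaGL_le _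
  obtain ⟨H, hHO, hHN, hHcard⟩ := hC F d K hd hKO
  rw [← hOdef] at hHO
  rw [← hNdef] at hHN
  have hq2 : 2 ≤ Fintype.card F := Fintype.one_lt_card
  have hrq : ¬ r ∣ Fintype.card F := not_dvd_card_of_ne p r hr hrp
  obtain ⟨M, hM, hMdvd⟩ := hAr (Fintype.card F) d r hq2 hr hr2 hrq h4
  have hcardO := Cfsg.Agent.S0287.result (F := F) rfl d hd
  rw [← hcardO, ← hHcard, ← hOdef] at hMdvd
  have hsqO : ∀ g ∈ O, g * g ∈ Ω := by
    intro g hg
    rw [hOdef] at hg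
    rw [hΩdef]
    exact hSq F (Fin d ⊕ Fin d) (Cfsg.Agent.H49.QP d F) hKO.two hKO.nondeg g hg
  have e2 : ¬ r ∣ Ω.relIndex H :=
    not_dvd_relIndex_of_sq Ω H r hr hr2 (fun g hg => hsqO g (hHO hg))
  have c1 : Nat.card ↥(Ω ⊓ O) * Ω.relIndex O = Nat.card O := card_inf_mul_relIndex Ω O
  rw [inf_eq_left.mpr hΩO] at c1
  have c2 : Nat.card ↥(Ω ⊓ H) * Ω.relIndex H = Nat.card H := card_inf_mul_relIndex Ω H
  have c3 : Nat.card ↥(N ⊓ Ω) * N.relIndex Ω = Nat.card Ω := card_inf_mul_relIndex N Ω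
  have c4 : Nat.card ↥(Ω ⊓ H) ∣ Nat.card ↥(N ⊓ Ω) :=
    Subgroup.card_dvd_of_le (le_inf (inf_le_right.trans hHN) inf_le_left)
  obtain ⟨c, hc⟩ := c4
  have hpos : 0 < Nat.card ↥(Ω ⊓ H) := Nat.card_pos
  have h5 : Nat.card ↥(Ω ⊓ H) * (c * N.relIndex Ω * Ω.relIndex O) ∣
      Nat.card ↥(Ω ⊓ H) * (M * Ω.relIndex H) := by
    have h6 := hMdvd
    rw [← c1, ← c3, ← c2, hc] at h6
    have e1 : Nat.card ↥(Ω ⊓ H) * (c * N.relIndex Ω * Ω.relIndex O) =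
        Nat.card ↥(Ω ⊓ H) * c * N.relIndex Ω * Ω.relIndex O := by ring
    have e3 : Nat.card ↥(Ω ⊓ H) * (M * Ω.relIndex H) =
        M * (Nat.card ↥(Ω ⊓ H) * Ω.relIndex H) := by ring
    rw [e1, e3]
    exact h6
  have h7 := Nat.dvd_of_mul_dvd_mul_left hpos h5
  have h8 : r ∣ M * Ω.relIndex H :=
    (hdvd.trans (Dvd.intro_left c rfl)).trans ((Dvd.intro _ rfl).trans h7)
  rcases (Nat.Prime.dvd_mul hr).mp h8 with h | h
  · exact hM h
  · exact e2 h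

example (hC : StCentOrdP.{u}) (hAr : StArithOrdP) (hSq : StSqMem.{u}) :
    Cfsg.Agent.Lib.Helper96.TqP.StKOrdP.{u} := kOrdP hC hAr hSq

end Cfsg.Agent.H24.Tqp
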