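import Mathlib
import Cfsg.Agent.H74.TsDefs
import Cfsg.Agent.H82.JxDefs
import Cfsg.Agent.H36.JxAct
import Cfsg.Agent.H63.JxCnt
import Cfsg.Agent.H12.JxSq
import Cfsg.Agent.H53.JxFun
import Cfsg.Agent.H70.SpJEq

set_option autoImplicit false

/-!
TS-W4 (helper24, for helper74: S2948): `|W_K| ∈ {1, 4}` and `W_K` has exponent 2, for `K` with
`|K : O₂(K)| = 3`, `O₂(K) ≤ T` and `K = [K, J(T)]`.

Bridge to helper82's JX chain (`Cfsg.Agent.H82.Jx.StW4`, pieces SQ / FUN / ACT / CNT landed by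
helper12, helper53, helper36, helper63).  `x ∈ K` of order 3 (Cauchy), `K = O₂(K)⟨x⟩`; every
element of `N(K)` centralizes or inverts `x` modulo `O := O₂(K)`; the centralizing ones form a
subgroup `D`, which centralizes `K` modulo `O`; as `K = [K, J(T)] ≰ O`, some elementary abelian
subgroup `A` of largest order of `T` has an element `a ∉ D`; `B := A ⊓ D` has index 2 in `A`,
and `Q := O ⊔ B` does the job.
-/

namespace Cfsg.Agent.H24.Ts

open Cfsg
open scoped commutatorElement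

universe u

/-- helper82's W4 from the four landed JX pieces. -/
theorem jxW4 : Cfsg.Agent.H82.Jx.StW4.{u} :=
  Cfsg.Agent.H82.Jx.w4_of Cfsg.Agent.H36.Jx.act Cfsg.Agent.H63.Jx.cnt Cfsg.Agent.H12.Jx.sq
    Cfsg.Agent.H53.Jx.fn

/-- The elements of `N` normalizing `O` and centralizing `x` modulo `O`. -/
def centMod {G : Type u} [Group G] (N O : Subgroup G) (x : G) : Subgroup G where
  carrier := {g | g ∈ N ∧ g ∈ Subgroup.normalizer (O : Set G) ∧ g * x * g⁻¹ * x⁻¹ ∈ O}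
  one_mem' := ⟨N.one_mem, Subgroup.one_mem _, by simp⟩
  mul_mem' := by
    rintro g h ⟨hg1, hg2, hg3⟩ ⟨hh1, hh2, hh3⟩
    refine ⟨N.mul_mem hg1 hh1, Subgroup.mul_mem _ hg2 hh2, ?_⟩
    have e : g * h * x * (g * h)⁻¹ * x⁻¹ =
        (g * (h * x * h⁻¹ * x⁻¹) * g⁻¹) * (g * x * g⁻¹ * x⁻¹) := by group
    rw [e]
    exact O.mul_mem ((Subgroup.mem_normalizer_iff.mp hg2 _).mp hh3) hg3
  inv_mem' := by
    rintro g ⟨hg1, hg2, hg3⟩
    refine ⟨N.inv_mem hg1, Subgroup.inv_mem _ hg2, ?_⟩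
    have e : g⁻¹ * x * g⁻¹⁻¹ * x⁻¹ = g⁻¹ * (g * x * g⁻¹ * x⁻¹)⁻¹ * g⁻¹⁻¹ := by group
    rw [e]
    exact (Subgroup.mem_normalizer_iff.mp (Subgroup.inv_mem _ hg2) _).mp (O.inv_mem hg3)

theorem mem_centMod {G : Type u} [Group G] {N O : Subgroup G} {x g : G} :
    g ∈ centMod N O x ↔
      g ∈ N ∧ g ∈ Subgroup.normalizer (O : Set G) ∧ g * x * g⁻¹ * x⁻¹ ∈ O := Iff.rfl

theorem w4 : Cfsg.Agent.H74.Ts.StW4.{u} := by
  intro G _ _ T K hT hidx hOT hKJ
  obtain ⟨hOK, hKO, hO2⟩ := Cfsg.Agent.H51.Jc.pCoreOf_facts K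
  have hJN : thompsonSubgroupOf 2 T ≤ Subgroup.normalizer (K : Set G) :=
    Cfsg.Agent.H51.Jc.le_normalizer_of_comm hKJ
  have hNO : Subgroup.normalizer (K : Set G) ≤ Subgroup.normalizer (pCoreOf 2 K : Set G) :=
    Cfsg.Agent.H31.X.H54.normalizer_le_normalizer_pCoreOf K
  have conjNO : ∀ g ∈ Subgroup.normalizer (K : Set G), ∀ o ∈ pCoreOf 2 K,
      g * o * g⁻¹ ∈ pCoreOf 2 K :=
    fun g hg o ho => (Subgroup.mem_normalizer_iff.mp (hNO hg) o).mp ho
  have conjO : ∀ g ∈ K, ∀ o ∈ pCoreOf 2 K, g * o * g⁻¹ ∈ pCoreOf 2 K :=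
    fun g hg o ho => conjNO g (Subgroup.le_normalizer hg) o ho
  -- an element of order 3
  obtain ⟨x, hxK, hx3⟩ : ∃ x ∈ K, orderOf x = 3 := by
    have h3 : 3 ∣ Nat.card ↥K := by
      have h := Subgroup.relIndex_dvd_card (pCoreOf 2 K) K
      rwa [hidx] at h
    have : Fact (Nat.Prime 3) := ⟨by norm_num⟩
    obtain ⟨y, hy⟩ := exists_prime_orderOf_dvd_card' 3 h3
    exact ⟨y, y.2, by rw [← hy]; exact Subgroup.orderOf_coe y⟩
  have hx31 : x ^ 3 = 1 := by rw [← hx3]; exact pow_orderOf_eq_one x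
  have hxO : x ∉ pCoreOf 2 K := by
    intro hx
    obtain ⟨n, hn⟩ := hO2 ⟨x, hx⟩
    have h1 : x ^ 2 ^ n = 1 := by
      have h := congrArg Subtype.val hn
      simpa using h
    have h2 : orderOf x ∣ 2 ^ n := orderOf_dvd_of_pow_eq_one h1
    rw [hx3] at h2
    have h3 : (3 : ℕ) ∣ 2 := Nat.Prime.dvd_of_dvd_pow (by norm_num) h2
    omega
  have hKgen : K = pCoreOf 2 K ⊔ Subgroup.zpowers x := by
    have hle : pCoreOf 2 K ⊔ Subgroup.zpowers x ≤ K :=
      sup_le hOK (by rw [Subgroup.zpowers_le]; exact hxK)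
    apply le_antisymm _ hle
    have hmul := Subgroup.relIndex_mul_relIndex (pCoreOf 2 K)
      (pCoreOf 2 K ⊔ Subgroup.zpowers x) K le_sup_left hle
    rw [hidx] at hmul
    have hne : (pCoreOf 2 K).relIndex (pCoreOf 2 K ⊔ Subgroup.zpowers x) ≠ 1 := by
      rw [Ne, Subgroup.relIndex_eq_one]
      intro hle'
      exact hxO (hle' (Subgroup.mem_sup_right (Subgroup.mem_zpowers x)))
    have hb : (pCoreOf 2 K ⊔ Subgroup.zpowers x).relIndex K = 1 := by
      have hp : Nat.Prime 3 := by norm_num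
      rcases (Nat.dvd_prime hp).mp (Dvd.intro _ hmul) with h | h
      · exact absurd h hne
      · rw [h] at hmul; omega
    exact Subgroup.relIndex_eq_one.mp hb
  have hKle : K ≤ Subgroup.closure ((pCoreOf 2 K : Set G) ∪ {x}) := by
    rw [Subgroup.closure_union, Subgroup.closure_eq, ← Subgroup.zpowers_eq_closure]
    exact hKgen.le
  -- the cosets of `O` in `K`
  have tri0 : ∀ k ∈ Subgroup.closure ((pCoreOf 2 K : Set G) ∪ {x}),
      ∃ n : ℕ, k * x ^ n ∈ pCoreOf 2 K := by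
    intro k hk
    induction hk using Subgroup.closure_induction with
    | mem k hk =>
      rcases hk with hk | hk
      · exact ⟨0, by simpa using hk⟩
      · rw [Set.mem_singleton_iff] at hk
        refine ⟨2, ?_⟩
        rw [hk, ← pow_succ', hx31]
        exact Subgroup.one_mem _
    | one => exact ⟨0, by simp⟩
    | mul k l _ _ hk hl =>
      obtain ⟨n, hn⟩ := hk
      obtain ⟨m, hm⟩ := hl
      refine ⟨m + n, ?_⟩
      have e : k * l * x ^ (m + n) =
          (k * x ^ n) * ((x ^ n)⁻¹ * (l * x ^ m) * (x ^ n)⁻¹⁻¹) := by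
        rw [pow_add]; group
      rw [e]
      exact Subgroup.mul_mem _ hn (conjO ((x ^ n)⁻¹) (K.inv_mem (K.pow_mem hxK n)) _ hm)
    | inv k _ hk =>
      obtain ⟨n, hn⟩ := hk
      refine ⟨2 * n, ?_⟩
      have hy3 : x ^ n * x ^ n * x ^ n = 1 := by
        have e : x ^ n * x ^ n * x ^ n = (x ^ 3) ^ n := by
          rw [← pow_mul, ← pow_add, ← pow_add]; congr 1; ring
        rw [e, hx31, one_pow]
      have e : k⁻¹ * x ^ (2 * n) =
          (x ^ n * (k * x ^ n)⁻¹ * (x ^ n)⁻¹) * (x ^ n * x ^ n * x ^ n) := by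
        rw [two_mul, pow_add]; group
      rw [e, hy3, mul_one]
      exact conjO (x ^ n) (K.pow_mem hxK n) _ (Subgroup.inv_mem _ hn)
  have hx2 : x ^ 2 = x⁻¹ := by
    rw [eq_inv_iff_mul_eq_one, ← pow_succ, hx31]
  have tri : ∀ k ∈ K, k ∈ pCoreOf 2 K ∨ k * x ∈ pCoreOf 2 K ∨ k * x⁻¹ ∈ pCoreOf 2 K := by
    intro k hk
    obtain ⟨n, hn⟩ := tri0 k (hKle hk)
    rw [pow_eq_pow_mod n hx31] at hn
    have hlt : n % 3 < 3 := Nat.mod_lt _ (by norm_num)
    generalize n % 3 = r at hn hlt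
    interval_cases r
    · left; simpa using hn
    · right; left; simpa using hn
    · right; right; rw [hx2] at hn; exact hn
  have hF3 : ∀ g ∈ Subgroup.normalizer (K : Set G),
      g * x * g⁻¹ * x⁻¹ ∈ pCoreOf 2 K ∨ g * x * g⁻¹ * x ∈ pCoreOf 2 K := by
    intro g hg
    have hgx : g * x * g⁻¹ ∈ K := (Subgroup.mem_normalizer_iff.mp hg x).mp hxK
    rcases tri _ hgx with h | h | h
    · exfalso
      have h' := conjNO g⁻¹ (Subgroup.inv_mem _ hg) _ h
      have e : g⁻¹ * (g * x * g⁻¹) * g⁻¹⁻¹ = x := by group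
      rw [e] at h'
      exact hxO h'
    · right; exact h
    · left; exact h
  -- the centralizer of `K / O` in `N(K)`
  have hF7 : ∀ g ∈ centMod (Subgroup.normalizer (K : Set G)) (pCoreOf 2 K) x, ∀ k ∈ K,
      ⁅k, g⁆ ∈ pCoreOf 2 K := by
    intro g hg k hk
    obtain ⟨hg1, hg2, hg3⟩ := mem_centMod.mp hg
    have key : ∀ k ∈ Subgroup.closure ((pCoreOf 2 K : Set G) ∪ {x}),
        k ∈ K ∧ ⁅k, g⁆ ∈ pCoreOf 2 K := by
      intro k hk
      induction hk using Subgroup.closure_induction with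
      | mem k hk =>
        rcases hk with hk | hk
        · refine ⟨hOK hk, ?_⟩
          have e : ⁅k, g⁆ = k * (g * k⁻¹ * g⁻¹) := by
            simp only [commutatorElement_def]; group
          rw [e]
          exact Subgroup.mul_mem _ hk
            ((Subgroup.mem_normalizer_iff.mp hg2 _).mp (Subgroup.inv_mem _ hk))
        · rw [Set.mem_singleton_iff] at hk
          rw [hk]
          refine ⟨hxK, ?_⟩
          have e : ⁅x, g⁆ = (g * x * g⁻¹ * x⁻¹)⁻¹ := by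
            simp only [commutatorElement_def]; group
          rw [e]; exact Subgroup.inv_mem _ hg3
      | one => exact ⟨K.one_mem, by simp⟩
      | mul k l _ _ hk hl =>
        refine ⟨K.mul_mem hk.1 hl.1, ?_⟩
        have e : ⁅k * l, g⁆ = (k * ⁅l, g⁆ * k⁻¹) * ⁅k, g⁆ := by
          simp only [commutatorElement_def]; group
        rw [e]
        exact Subgroup.mul_mem _ (conjO k hk.1 _ hl.2) hk.2
      | inv k _ hk =>
        refine ⟨K.inv_mem hk.1, ?_⟩
        have e : ⁅k⁻¹, g⁆ = k⁻¹ * ⁅k, g⁆⁻¹ * k⁻¹⁻¹ := by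
          simp only [commutatorElement_def]; group
        rw [e]
        exact conjO k⁻¹ (K.inv_mem hk.1) _ (Subgroup.inv_mem _ hk.2)
    exact (key k (hKle hk)).2
  -- some `A` is not inside `D`
  obtain ⟨A, hA, hAD⟩ : ∃ A, Cfsg.Agent.H70.Sp.IsMaxEA T A ∧
      ¬ A ≤ centMod (Subgroup.normalizer (K : Set G)) (pCoreOf 2 K) x := by
    by_contra hcon
    have hcon' : ∀ A, Cfsg.Agent.H70.Sp.IsMaxEA T A →
        A ≤ centMod (Subgroup.normalizer (K : Set G)) (pCoreOf 2 K) x := by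
      intro A hA
      by_contra h
      exact hcon ⟨A, hA, h⟩
    have hJD : thompsonSubgroupOf 2 T ≤
        centMod (Subgroup.normalizer (K : Set G)) (pCoreOf 2 K) x :=
      Cfsg.Agent.H70.Sp.thompson_le_of_isMaxEA T _ hcon'
    have h1 : ⁅K, thompsonSubgroupOf 2 T⁆ ≤ pCoreOf 2 K := by
      rw [Subgroup.commutator_le]
      intro k hk j hj
      exact hF7 j (hJD hj) k hk
    have h2 : K ≤ pCoreOf 2 K := hKJ.ge.trans h1
    rw [Subgroup.relIndex_eq_one.mpr h2] at hidx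
    omega
  obtain ⟨a, haA, haD⟩ := SetLike.not_le_iff_exists.mp hAD
  have hAN : A ≤ Subgroup.normalizer (K : Set G) :=
    (Cfsg.Agent.H70.Sp.isMaxEA_le_thompson T hA).trans hJN
  have hinvert : ∀ g ∈ Subgroup.normalizer (K : Set G),
      g ∉ centMod (Subgroup.normalizer (K : Set G)) (pCoreOf 2 K) x →
      g * x * g⁻¹ * x ∈ pCoreOf 2 K := by
    intro g hg hgD
    rcases hF3 g hg with h | h
    · exact absurd (mem_centMod.mpr ⟨hg, hNO hg, h⟩) hgD
    · exact h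
  have haK : a ∈ Subgroup.normalizer (K : Set G) := hAN haA
  have hax : a * x * a⁻¹ * x ∈ pCoreOf 2 K := hinvert a haK haD
  -- two inverting elements multiply to a centralizing one
  have hF6 : ∀ g ∈ Subgroup.normalizer (K : Set G), ∀ h ∈ Subgroup.normalizer (K : Set G),
      g * x * g⁻¹ * x ∈ pCoreOf 2 K → h * x * h⁻¹ * x ∈ pCoreOf 2 K →
      g * h ∈ centMod (Subgroup.normalizer (K : Set G)) (pCoreOf 2 K) x := by
    intro g hg h hh hgx hhx
    refine mem_centMod.mpr ⟨Subgroup.mul_mem _ hg hh, hNO (Subgroup.mul_mem _ hg hh), ?_⟩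
    have e : g * h * x * (g * h)⁻¹ * x⁻¹ =
        (g * (h * x * h⁻¹ * x) * g⁻¹) * (x * (g * x * g⁻¹ * x)⁻¹ * x⁻¹) := by group
    rw [e]
    exact Subgroup.mul_mem _ (conjNO g hg _ hhx) (conjO x hxK _ (Subgroup.inv_mem _ hgx))
  -- `B := A ⊓ D` has index 2 in `A`
  have hBA : A ⊓ centMod (Subgroup.normalizer (K : Set G)) (pCoreOf 2 K) x ≤ A := inf_le_left
  have hidx2 : ((A ⊓ centMod (Subgroup.normalizer (K : Set G)) (pCoreOf 2 K) x).subgroupOf
      A).index = 2 := by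
    rw [Subgroup.index_eq_two_iff]
    refine ⟨⟨a, haA⟩, fun b => ?_⟩
    by_cases hb : (b : G) ∈ centMod (Subgroup.normalizer (K : Set G)) (pCoreOf 2 K) x
    · right
      refine ⟨Subgroup.mem_subgroupOf.mpr ⟨b.2, hb⟩, fun hba => ?_⟩
      have hba' : (b : G) * a ∈ centMod (Subgroup.normalizer (K : Set G)) (pCoreOf 2 K) x :=
        (Subgroup.mem_subgroupOf.mp hba).2
      have h1 := Subgroup.mul_mem _ (Subgroup.inv_mem _ hb) hba'
      rw [inv_mul_cancel_left] at h1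
      exact haD h1
    · left
      refine ⟨Subgroup.mem_subgroupOf.mpr ⟨A.mul_mem b.2 haA, ?_⟩, fun hbm => ?_⟩
      · exact hF6 _ (hAN b.2) a haK (hinvert _ (hAN b.2) hb) hax
      · exact hb (Subgroup.mem_subgroupOf.mp hbm).2
  have hcardA : Nat.card ↥A =
      2 * Nat.card ↥(A ⊓ centMod (Subgroup.normalizer (K : Set G)) (pCoreOf 2 K) x) := by
    have h1 := Subgroup.card_mul_index
      ((A ⊓ centMod (Subgroup.normalizer (K : Set G)) (pCoreOf 2 K) x).subgroupOf A)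
    rw [hidx2, Nat.card_congr (Subgroup.subgroupOfEquivOfLe hBA).toEquiv] at h1
    omega
  -- `Q := O ⊔ B`
  have hQT : pCoreOf 2 K ⊔ (A ⊓ centMod (Subgroup.normalizer (K : Set G)) (pCoreOf 2 K) x) ≤ T :=
    sup_le hOT (hBA.trans hA.1)
  have hQ2 : IsPGroup 2
      ↥(pCoreOf 2 K ⊔ (A ⊓ centMod (Subgroup.normalizer (K : Set G)) (pCoreOf 2 K) x)) :=
    hT.to_le hQT
  have hKQ : K ≤ Subgroup.normalizer
      ((pCoreOf 2 K ⊔ (A ⊓ centMod (Subgroup.normalizer (K : Set G)) (pCoreOf 2 K) x) :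
        Subgroup G) : Set G) := by
    apply Cfsg.Agent.H31.X.H54.le_normalizer_of_conj_mem
    intro k hk q hq
    rw [Subgroup.sup_eq_closure] at hq ⊢
    apply Cfsg.Agent.H51.Jc.conj_mem_closure_of _ hq
    intro q hq
    rcases hq with hq | hq
    · exact Subgroup.subset_closure (Or.inl (conjO k hk q hq))
    · have e : k * q * k⁻¹ = ⁅k, q⁆ * q := by
        simp only [commutatorElement_def]; group
      rw [e]
      exact Subgroup.mul_mem _ (Subgroup.subset_closure (Or.inl (hF7 q hq.2 k hk)))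
        (Subgroup.subset_closure (Or.inr hq))
  have hQK : pCoreOf 2 K ⊔ (A ⊓ centMod (Subgroup.normalizer (K : Set G)) (pCoreOf 2 K) x) ≤
      Subgroup.normalizer (K : Set G) :=
    sup_le (hOK.trans Subgroup.le_normalizer) (hBA.trans hAN)
  have hcard : Nat.card ↥A ≤ 2 * Nat.card ↥(A ⊓
      (pCoreOf 2 K ⊔ (A ⊓ centMod (Subgroup.normalizer (K : Set G)) (pCoreOf 2 K) x))) := by
    rw [hcardA]
    exact Nat.mul_le_mul_left 2 (Subgroup.card_le_of_le (le_inf hBA le_sup_right))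
  have hres := jxW4 T
    (pCoreOf 2 K ⊔ (A ⊓ centMod (Subgroup.normalizer (K : Set G)) (pCoreOf 2 K) x)) A K a x
    hQ2 hQT hKQ hQK le_sup_left hA.1 hA.2.1 hA.2.2 haA haK hxK hx3
    (Subgroup.mem_sup_left hax) hcard hKgen
  exact ⟨hres.1.symm, hres.2⟩

example : ∀ {G : Type u} [Group G] [Finite G] (T K : Subgroup G), IsPGroup 2 ↥T →
  (pCoreOf 2 K).relIndex K = 3 → pCoreOf 2 K ≤ T → ⁅K, thompsonSubgroupOf 2 T⁆ = K →
  (Nat.card ↥(wOf K) = 4 ∨ wOf K = ⊥) ∧ ∀ w ∈ wOf K, w * w = 1 := w4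

end Cfsg.Agent.H24.Ts
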