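import Mathlib
import Cfsg.Agent.H42.UnDefs
import Cfsg.Agent.H62.SpnKerAdd

set_option autoImplicit false

/-!
# UN-MODC (S5954 team project of helper42): the non-fixed part of an invariant nondegenerate
subspace of a hermitian space has dimension divisible by `c = cu q r`
-/

namespace Cfsg.Agent.H24.Un

open Cfsg.Agent.H45 Cfsg.Agent.H42.Spd Cfsg.Agent.H42.Un Module

universe u v

theorem cu_pos_of_cast_ne {F : Type u} [Field F] [Fintype F] (q r : ℕ)
    (hq : Fintype.card F = q ^ 2) (hr : r.Prime) (hrF : (r : F) ≠ 0) : 0 < cu q r := by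
  have : Fact r.Prime := ⟨hr⟩
  have hq0 : (q : ZMod r) ≠ 0 := by
    intro h
    rw [ZMod.natCast_eq_zero_iff] at h
    have h' : r ∣ Fintype.card F := by
      rw [hq]
      exact h.trans (dvd_pow_self q (by norm_num))
    obtain ⟨n, hp, hcard⟩ := FiniteField.card F (ringChar F)
    rw [hcard] at h'
    have h1 : r ∣ ringChar F := hr.dvd_of_dvd_pow h'
    have h2 : r = ringChar F := (Nat.prime_dvd_prime_iff_eq hr hp).mp h1
    apply hrF
    rw [h2]
    exact CharP.cast_eq_zero F (ringChar F)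
  have ho : 0 < orderOf (q : ZMod r) := by
    rw [orderOf_pos_iff, isOfFinOrder_iff_pow_eq_one]
    exact ⟨r - 1, Nat.sub_pos_of_lt hr.one_lt, ZMod.pow_card_sub_one_eq_one hq0⟩
  unfold cu
  split_ifs <;> omega

section

variable {F : Type u} [Field F] {V : Type v} [AddCommGroup V] [Module F V]

theorem kk_fix (T : Module.End F V) (W : Submodule F V) :
    kk T (W ⊓ LinearMap.ker (T - 1)) = kk T W := by
  unfold kk
  rw [inf_assoc, inf_idem]

theorem kk_eq_zero_of_inf (T : Module.End F V) (W : Submodule F V)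
    (h : W ⊓ LinearMap.ker (T - 1) = ⊥) : kk T W = 0 := by
  unfold kk
  rw [h]
  exact finrank_bot F V

theorem inf_ker_of_kk_eq_zero [FiniteDimensional F V] (T : Module.End F V) (W : Submodule F V)
    (h : kk T W = 0) : W ⊓ LinearMap.ker (T - 1) = ⊥ :=
  Submodule.finrank_eq_zero.mp h

theorem invt_sub_one (T : Module.End F V) (U : Submodule F V) (h : U ∈ T.invtSubmodule) :
    U ∈ (T - 1).invtSubmodule := by
  rw [Module.End.mem_invtSubmodule_iff_forall_mem_of_mem] at h ⊢
  intro x hx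
  rw [LinearMap.sub_apply, Module.End.one_apply]
  exact U.sub_mem (h x hx) hx

/-- `kk` is additive on independent invariant subspaces. -/
theorem kk_sup [FiniteDimensional F V] (T : Module.End F V) (U W : Submodule F V)
    (hU : U ∈ T.invtSubmodule) (hW : W ∈ T.invtSubmodule) (hUW : U ⊓ W = ⊥) :
    kk T (U ⊔ W) = kk T U + kk T W :=
  Cfsg.Agent.H62.Spn.kerAdd F V (T - 1) U W (invt_sub_one T U hU) (invt_sub_one T W hW) hUW

end

/-- UN-COMPL together with the additivity of `kk`. -/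
theorem compl_kk (hC : StUCompl.{u,v})
    (F : Type u) [Field F] [Fintype F] (σ : F →+* F) (V : Type v) [AddCommGroup V] [Module F V]
    [FiniteDimensional F V] (B : V →ₗ[F] V →ₛₗ[σ] F) (T : Module.End F V)
    (hiso : UIso B T) (U W : Submodule F V) (hU : UNd B T U) (hW : UNd B T W) (hUW : U ≤ W) :
    UNd B T (W ⊓ perp B U) ∧ U ⊔ (W ⊓ perp B U) = W ∧
      Module.finrank F U + Module.finrank F ↥(W ⊓ perp B U) = Module.finrank F W ∧
      kk T U + kk T (W ⊓ perp B U) = kk T W := by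
  obtain ⟨h1, h2, h3⟩ := hC F σ V B T hiso U W hU hW hUW
  refine ⟨h1, h2, h3, ?_⟩
  have hinf : U ⊓ (W ⊓ perp B U) = ⊥ := by
    apply le_bot_iff.mp
    rw [← hU.2]
    exact inf_le_inf_left _ inf_le_right
  have h4 := kk_sup T U (W ⊓ perp B U) hU.1 h1.1 hinf
  rw [h2] at h4
  exact h4.symm

/-- UN-SUM together with the additivity of `kk`. -/
theorem sum_kk (hS : StUSum.{u,v})
    (F : Type u) [Field F] [Fintype F] (σ : F →+* F) (V : Type v) [AddCommGroup V] [Module F V]
    [FiniteDimensional F V] (B : V →ₗ[F] V →ₛₗ[σ] F) (T : Module.End F V)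
    (hiso : UIso B T) (U U' : Submodule F V) (hU : UNd B T U) (hU' : UNd B T U')
    (hperp : U' ≤ perp B U) :
    UNd B T (U ⊔ U') ∧
      Module.finrank F ↥(U ⊔ U') = Module.finrank F U + Module.finrank F U' ∧
      kk T (U ⊔ U') = kk T U + kk T U' := by
  obtain ⟨h1, h2⟩ := hS F σ V B T hiso U U' hU hU' hperp
  refine ⟨h1, h2, ?_⟩
  have hinf : U ⊓ U' = ⊥ := by
    apply le_bot_iff.mp
    rw [← hU.2]
    exact inf_le_inf_left _ hperp
  exact kk_sup T U U' hU.1 hU'.1 hinf

/-- The fixed-point-free case. -/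
theorem uModc_free (hB : StUBlockRel.{u,v}) (hC : StUCompl.{u,v})
    (F : Type u) [Field F] [Fintype F] (q : ℕ) (σ : F →+* F) (V : Type v) [AddCommGroup V]
    [Module F V] [FiniteDimensional F V] (r : ℕ) (B : V →ₗ[F] V →ₛₗ[σ] F) (T : Module.End F V)
    (hq : Fintype.card F = q ^ 2) (hσ : ∀ x, σ x = x ^ q)
    (hctx : UCtx r B T) : ∀ (n : ℕ) (W : Submodule F V), Module.finrank F W = n → UNd B T W →
      W ⊓ LinearMap.ker (T - 1) = ⊥ → ∃ s : ℕ, Module.finrank F W = cu q r * s := by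
  intro n
  induction n using Nat.strong_induction_on with
  | _ n ih =>
    intro W hn hW hker
    by_cases hW0 : W = ⊥
    · refine ⟨0, ?_⟩
      rw [hW0, finrank_bot, mul_zero]
    · obtain ⟨U, hUW, hU, hUc⟩ := hB F q σ V r B T hq hσ hctx W hW hker hW0
      obtain ⟨hW', -, hfr⟩ := hC F σ V B T hctx.iso U W hU hW hUW
      have hpos := cu_pos_of_cast_ne (F := F) q r hq hctx.prime hctx.cast_ne
      have hlt : Module.finrank F ↥(W ⊓ perp B U) < n := by omega
      have hker' : (W ⊓ perp B U) ⊓ LinearMap.ker (T - 1) = ⊥ := by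
        apply le_bot_iff.mp
        rw [← hker]
        exact inf_le_inf_right _ inf_le_left
      obtain ⟨s, hs⟩ := ih _ hlt (W ⊓ perp B U) rfl hW' hker'
      refine ⟨s + 1, ?_⟩
      rw [← hfr, hUc, hs]
      ring

theorem uModc (hB : StUBlockRel.{u,v}) (hF : StUFix.{u,v}) (hC : StUCompl.{u,v}) :
    StUModc.{u,v} := by
  intro F _ _ q σ V _ _ _ r B T hq hσ hctx W hW
  have hW0 := hF F σ V r B T hctx W hW
  obtain ⟨hW', -, hfr, hkk⟩ :=
    compl_kk hC F σ V B T hctx.iso (W ⊓ LinearMap.ker (T - 1)) W hW0 hW inf_le_left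
  rw [kk_fix] at hkk
  have hk0 : kk T (W ⊓ perp B (W ⊓ LinearMap.ker (T - 1))) = 0 := by omega
  obtain ⟨s, hs⟩ := uModc_free hB hC F q σ V r B T hq hσ hctx _ _ rfl hW'
    (inf_ker_of_kk_eq_zero T _ hk0)
  refine ⟨s, ?_⟩
  rw [← hfr, hs]
  rfl

example (hB : StUBlockRel.{u,v}) (hF : StUFix.{u,v}) (hC : StUCompl.{u,v}) :
    Cfsg.Agent.H42.Un.StUModc.{u,v} := uModc hB hF hC

end Cfsg.Agent.H24.Un
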