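import Mathlib
import Cfsg.Agent.H42.UnDefs
import Cfsg.Agent.H24.UnModc

set_option autoImplicit false

/-!
# UN-SUB (S5954 team project of helper42): invariant nondegenerate subspaces of a hermitian space
with prescribed numbers of blocks and of fixed dimensions
-/

namespace Cfsg.Agent.H24.Un

open Cfsg.Agent.H45 Cfsg.Agent.H42.Spd Cfsg.Agent.H42.Un Module

universe u v

section

variable {F : Type u} [Field F] {σ : F →+* F} {V : Type v} [AddCommGroup V] [Module F V]

theorem und_bot (B : V →ₗ[F] V →ₛₗ[σ] F) (T : Module.End F V) : UNd B T ⊥ := by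
  refine ⟨?_, bot_inf_eq _⟩
  rw [Module.End.mem_invtSubmodule]
  exact bot_le

theorem invt_of_le_ker (T : Module.End F V) (P : Submodule F V)
    (h : P ≤ LinearMap.ker (T - 1)) : P ∈ T.invtSubmodule := by
  rw [Module.End.mem_invtSubmodule]
  intro x hx
  have hx1 : (T - 1) x = 0 := LinearMap.mem_ker.mp (h hx)
  have hx2 : T x = x := by
    rw [LinearMap.sub_apply, Module.End.one_apply, sub_eq_zero] at hx1
    exact hx1
  show T x ∈ P
  rw [hx2]
  exact hx

theorem kk_of_le_ker (T : Module.End F V) (P : Submodule F V)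
    (h : P ≤ LinearMap.ker (T - 1)) : kk T P = Module.finrank F P := by
  unfold kk
  rw [inf_eq_left.mpr h]

end

theorem uSub (hB : StUBlockRel.{u,v}) (hH : StUHyp.{u,v}) (hF : StUFix.{u,v})
    (hC : StUCompl.{u,v}) (hS : StUSum.{u,v}) : StUSub.{u,v} := by
  intro F _ _ q σ V _ _ _ r B T hq hσ hctx W hW
  have hpos := cu_pos_of_cast_ne (F := F) q r hq hctx.prime hctx.cast_ne
  have key : ∀ n j l : ℕ, j + l = n → kk T W + cu q r * j ≤ Module.finrank F W →
      l ≤ kk T W →
      ∃ U : Submodule F V, U ≤ W ∧ UNd B T U ∧ Module.finrank F U = cu q r * j + l ∧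
        kk T U = l := by
    intro n
    induction n with
    | zero =>
      intro j l hjl _ _
      have hj : j = 0 := by omega
      have hl : l = 0 := by omega
      subst hj
      subst hl
      refine ⟨⊥, bot_le, und_bot B T, ?_, ?_⟩
      · rw [finrank_bot, mul_zero, add_zero]
      · rw [kk_eq_zero_of_inf T ⊥ (bot_inf_eq _)]
    | succ n ih =>
      intro j l hjl h1 h2
      rcases Nat.eq_zero_or_pos l with hl | hl
      · -- `l = 0 < j`: add a block
        subst hl
        obtain ⟨j', rfl⟩ : ∃ j', j = j' + 1 := ⟨j - 1, by omega⟩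
        have hmul : cu q r * (j' + 1) = cu q r * j' + cu q r := by ring
        have h1' : kk T W + cu q r * j' ≤ Module.finrank F W := by omega
        obtain ⟨U', hU'W, hU', hfU', hkU'⟩ := ih j' 0 (by omega) h1' (by omega)
        obtain ⟨hW', -, hfr, hkk⟩ := compl_kk hC F σ V B T hctx.iso U' W hU' hW hU'W
        have hW0' := hF F σ V r B T hctx _ hW'
        obtain ⟨hW'', -, hfr2, hkk2⟩ :=
          compl_kk hC F σ V B T hctx.iso _ _ hW0' hW' inf_le_left
        rw [kk_fix] at hkk2
        obtain ⟨W', hW'def⟩ : ∃ W' : Submodule F V, W' = W ⊓ perp B U' := ⟨_, rfl⟩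
        rw [← hW'def] at hW' hfr hkk hW0' hW'' hfr2 hkk2
        obtain ⟨W'', hW''def⟩ : ∃ W'' : Submodule F V,
            W'' = W' ⊓ perp B (W' ⊓ LinearMap.ker (T - 1)) := ⟨_, rfl⟩
        rw [← hW''def] at hW'' hfr2 hkk2
        have hk0 : kk T W'' = 0 := by omega
        have hker'' := inf_ker_of_kk_eq_zero T W'' hk0
        have hfk : Module.finrank F ↥(W' ⊓ LinearMap.ker (T - 1)) = kk T W' := rfl
        have hne : W'' ≠ ⊥ := by
          intro h0
          have h3 : Module.finrank F W'' = 0 := by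
            rw [h0, finrank_bot]
          omega
        obtain ⟨U1, hU1W, hU1, hfU1⟩ := hB F q σ V r B T hq hσ hctx W'' hW'' hker'' hne
        have hW''W' : W'' ≤ W' := hW''def ▸ inf_le_left
        have hW'W : W' ≤ W := hW'def ▸ inf_le_left
        have hW'p : W' ≤ perp B U' := hW'def ▸ inf_le_right
        have hkU1 : kk T U1 = 0 := by
          apply kk_eq_zero_of_inf
          apply le_bot_iff.mp
          rw [← hker'']
          exact inf_le_inf_right _ hU1W
        have hperp : U1 ≤ perp B U' := hU1W.trans (hW''W'.trans hW'p)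
        obtain ⟨hNd, hfs, hks⟩ := sum_kk hS F σ V B T hctx.iso U' U1 hU' hU1 hperp
        refine ⟨U' ⊔ U1, sup_le hU'W (hU1W.trans (hW''W'.trans hW'W)), hNd, ?_, ?_⟩
        · rw [hfs, hfU', hfU1]
          ring
        · rw [hks, hkU', hkU1]
      · -- `l > 0`: add a fixed line
        obtain ⟨l', rfl⟩ : ∃ l', l = l' + 1 := ⟨l - 1, by omega⟩
        obtain ⟨U', hU'W, hU', hfU', hkU'⟩ := ih j l' (by omega) h1 (by omega)
        obtain ⟨hW', -, hfr, hkk⟩ := compl_kk hC F σ V B T hctx.iso U' W hU' hW hU'W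
        obtain ⟨W', hW'def⟩ : ∃ W' : Submodule F V, W' = W ⊓ perp B U' := ⟨_, rfl⟩
        rw [← hW'def] at hW' hfr hkk
        have hK := hF F σ V r B T hctx _ hW'
        have hKne : W' ⊓ LinearMap.ker (T - 1) ≠ ⊥ := by
          intro h0
          have h3 : kk T W' = 0 := kk_eq_zero_of_inf T W' h0
          omega
        obtain ⟨P, hPK, hPnd, hfP⟩ := hH F σ V B T hctx.iso _ hK.2 hKne
        have hPker : P ≤ LinearMap.ker (T - 1) := hPK.trans inf_le_right
        have hP : UNd B T P := ⟨invt_of_le_ker T P hPker, hPnd⟩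
        have hkP : kk T P = 1 := by
          rw [kk_of_le_ker T P hPker]
          exact hfP
        have hW'W : W' ≤ W := hW'def ▸ inf_le_left
        have hW'p : W' ≤ perp B U' := hW'def ▸ inf_le_right
        have hperp : P ≤ perp B U' := hPK.trans (inf_le_left.trans hW'p)
        obtain ⟨hNd, hfs, hks⟩ := sum_kk hS F σ V B T hctx.iso U' P hU' hP hperp
        refine ⟨U' ⊔ P, sup_le hU'W (hPK.trans (inf_le_left.trans hW'W)), hNd, ?_, ?_⟩
        · rw [hfs, hfU', hfP]
          ring
        · rw [hks, hkU', hkP]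
  intro j l h1 h2
  exact key (j + l) j l rfl h1 h2

example (hB : StUBlockRel.{u,v}) (hH : StUHyp.{u,v}) (hF : StUFix.{u,v}) (hC : StUCompl.{u,v})
    (hS : StUSum.{u,v}) : Cfsg.Agent.H42.Un.StUSub.{u,v} := uSub hB hH hF hC hS

end Cfsg.Agent.H24.Un
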