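import Mathlib

set_option autoImplicit false

/-!
# S5982-EXCD (helper99): a diagonal matrix of `r`-th roots of unity (`r ∣ q₀ - 1`) whose
eigenvalue multiplicities are symmetric under inversion preserves a Hermitian Gram matrix
-/

open scoped MatrixGroups

namespace Cfsg.Agent.H24.Uni

/-- the position of `i` within its fibre of `d` -/
def fibPos {n : ℕ} {α : Type*} [DecidableEq α] (d : Fin n → α) (i : Fin n) : ℕ :=
  (Finset.univ.filter (fun j : Fin n => d j = d i ∧ j < i)).card

theorem fibPos_lt_of_lt {n : ℕ} {α : Type*} [DecidableEq α] (d : Fin n → α) {j j' : Fin n}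
    (hd : d j = d j') (hlt : j < j') : fibPos d j < fibPos d j' := by
  unfold fibPos
  apply Finset.card_lt_card
  rw [Finset.ssubset_iff_of_subset]
  · refine ⟨j, ?_, ?_⟩
    · rw [Finset.mem_filter]
      exact ⟨Finset.mem_univ _, hd, hlt⟩
    · rw [Finset.mem_filter]
      rintro ⟨-, -, h⟩
      exact lt_irrefl _ h
  · intro k hk
    rw [Finset.mem_filter] at hk ⊢
    exact ⟨Finset.mem_univ _, hk.2.1.trans hd, hk.2.2.trans hlt⟩

theorem fibPos_inj {n : ℕ} {α : Type*} [DecidableEq α] (d : Fin n → α) {j j' : Fin n}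
    (hd : d j = d j') (h : fibPos d j = fibPos d j') : j = j' := by
  rcases lt_trichotomy j j' with hlt | heq | hgt
  · exact absurd h (ne_of_lt (fibPos_lt_of_lt d hd hlt))
  · exact heq
  · exact absurd h.symm (ne_of_lt (fibPos_lt_of_lt d hd.symm hgt))

theorem fibPos_lt_card {n : ℕ} {α : Type*} [DecidableEq α] (d : Fin n → α) (j : Fin n) :
    fibPos d j < (Finset.univ.filter (fun i : Fin n => d i = d j)).card := by
  unfold fibPos
  apply Finset.card_lt_card
  rw [Finset.ssubset_iff_of_subset]
  · refine ⟨j, ?_, ?_⟩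
    · rw [Finset.mem_filter]
      exact ⟨Finset.mem_univ _, rfl⟩
    · rw [Finset.mem_filter]
      rintro ⟨-, -, h⟩
      exact lt_irrefl _ h
  · intro k hk
    rw [Finset.mem_filter] at hk ⊢
    exact ⟨Finset.mem_univ _, hk.2.1⟩

/-- every position below the size of a fibre occurs in the fibre -/
theorem exists_fibPos_eq {n : ℕ} {α : Type*} [DecidableEq α] (d : Fin n → α) (ν : α) (k : ℕ)
    (hk : k < (Finset.univ.filter (fun i : Fin n => d i = ν)).card) :
    ∃ j, d j = ν ∧ fibPos d j = k := by
  have hsub : (Finset.univ.filter (fun i : Fin n => d i = ν)).image (fibPos d) ⊆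
      Finset.range (Finset.univ.filter (fun i : Fin n => d i = ν)).card := by
    intro x hx
    rw [Finset.mem_image] at hx
    obtain ⟨j, hj, rfl⟩ := hx
    rw [Finset.mem_filter] at hj
    rw [Finset.mem_range]
    have := fibPos_lt_card d j
    rw [hj.2] at this
    exact this
  have hcard : ((Finset.univ.filter (fun i : Fin n => d i = ν)).image (fibPos d)).card =
      (Finset.univ.filter (fun i : Fin n => d i = ν)).card := by
    apply Finset.card_image_of_injOn
    intro a ha b hb hab
    rw [Finset.mem_coe, Finset.mem_filter] at ha hb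
    exact fibPos_inj d (ha.2.trans hb.2.symm) hab
  have heq := Finset.eq_of_subset_of_card_le hsub (by rw [hcard, Finset.card_range])
  have hk' : k ∈ (Finset.univ.filter (fun i : Fin n => d i = ν)).image (fibPos d) := by
    rw [heq, Finset.mem_range]
    exact hk
  rw [Finset.mem_image] at hk'
  obtain ⟨j, hj, rfl⟩ := hk'
  rw [Finset.mem_filter] at hj
  exact ⟨j, hj.2, rfl⟩

/-- an involution of the index set inverting the values of `d`, when the fibres of `ν` and
`ν⁻¹` have the same size -/
theorem exists_involution_inv {n : ℕ} {α : Type*} [DecidableEq α] [InvolutiveInv α]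
    (d : Fin n → α)
    (hsym : ∀ ν : α, Nat.card {i // d i = ν} = Nat.card {i // d i = ν⁻¹}) :
    ∃ π : Fin n → Fin n, (∀ i, π (π i) = i) ∧ ∀ i, d (π i) = (d i)⁻¹ := by
  have hc : ∀ ν : α, (Finset.univ.filter (fun i : Fin n => d i = ν)).card =
      (Finset.univ.filter (fun i : Fin n => d i = ν⁻¹)).card := by
    intro ν
    have h := hsym ν
    rw [Nat.card_eq_fintype_card, Nat.card_eq_fintype_card, Fintype.card_subtype,
      Fintype.card_subtype] at h
    exact h
  have hex : ∀ i, ∃ j, d j = (d i)⁻¹ ∧ fibPos d j = fibPos d i := by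
    intro i
    apply exists_fibPos_eq
    rw [← hc]
    exact fibPos_lt_card d i
  choose π hπd hπp using hex
  refine ⟨π, fun i => ?_, hπd⟩
  apply fibPos_inj d
  · rw [hπd, hπd, inv_inv]
  · rw [hπp, hπp]

variable {F : Type*} [Field F] [Fintype F]

theorem exists_gram_of_symm (q₀ n r : ℕ) (hF : Fintype.card F = q₀ ^ 2) (hr : r.Prime)
    (hrq : r ∣ q₀ - 1) (d : Fin n → F) (hd : ∀ i, d i ^ r = 1)
    (hsym : ∀ ν : F, Nat.card {i // d i = ν} = Nat.card {i // d i = ν⁻¹}) :
    ∃ A : Matrix (Fin n) (Fin n) F, IsUnit A.det ∧ (∀ i j, A j i = (A i j) ^ q₀) ∧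
      (Matrix.diagonal d).transpose * A * (Matrix.diagonal d).map (fun a => a ^ q₀) = A := by
  classical
  have hq0 : q₀ ≠ 0 := by
    rintro rfl
    have h1 : 1 < Fintype.card F := Fintype.one_lt_card
    rw [hF] at h1
    norm_num at h1
  have hdne : ∀ i, d i ≠ 0 := by
    intro i h0
    have := hd i
    rw [h0, zero_pow hr.ne_zero] at this
    exact zero_ne_one this
  have hdq : ∀ i, d i ^ q₀ = d i := by
    intro i
    obtain ⟨m, hm⟩ := hrq
    have e : q₀ = r * m + 1 := by omega
    rw [e, pow_succ, pow_mul, hd i, one_pow, one_mul]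
  obtain ⟨π, hπ2, hπd⟩ := exists_involution_inv d hsym
  have hπiff : ∀ i j : Fin n, i = π j ↔ j = π i := by
    intro i j
    constructor
    · intro h
      rw [h, hπ2]
    · intro h
      rw [h, hπ2]
  refine ⟨Matrix.of (fun i j => if j = π i then (1 : F) else 0), ?_, ?_, ?_⟩
  · have hAA : Matrix.of (fun i j => if j = π i then (1 : F) else 0) *
        Matrix.of (fun i j => if j = π i then (1 : F) else 0) = 1 := by
      ext i k
      rw [Matrix.mul_apply]
      simp only [Matrix.of_apply]
      rw [Finset.sum_eq_single (π i)]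
      · rw [if_pos rfl, one_mul, hπ2, Matrix.one_apply]
        by_cases hik : i = k
        · rw [if_pos hik, if_pos hik.symm]
        · rw [if_neg hik, if_neg (fun h => hik h.symm)]
      · intro j _ hj
        rw [if_neg hj, zero_mul]
      · intro h
        exact absurd (Finset.mem_univ _) h
    have hdet : (Matrix.of (fun i j => if j = π i then (1 : F) else 0)).det *
        (Matrix.of (fun i j => if j = π i then (1 : F) else 0)).det = 1 := by
      rw [← Matrix.det_mul, hAA, Matrix.det_one]
    exact IsUnit.of_mul_eq_one _ hdet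
  · intro i j
    simp only [Matrix.of_apply]
    by_cases h : j = π i
    · rw [if_pos h, if_pos ((hπiff i j).2 h), one_pow]
    · rw [if_neg h, if_neg (fun h' => h ((hπiff i j).1 h')), zero_pow hq0]
  · rw [Matrix.diagonal_transpose, Matrix.diagonal_map (by simp [hq0])]
    ext i j
    rw [Matrix.mul_diagonal, Matrix.diagonal_mul]
    simp only [Matrix.of_apply]
    by_cases h : j = π i
    · rw [if_pos h, mul_one, h, hdq, hπd, mul_inv_cancel₀ (hdne i)]
    · rw [if_neg h, mul_zero, zero_mul]

example (q₀ n r : ℕ) (hF : Fintype.card F = q₀ ^ 2) (hr : r.Prime)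
    (hrq : r ∣ q₀ - 1) (d : Fin n → F) (hd : ∀ i, d i ^ r = 1)
    (hsym : ∀ ν : F, Nat.card {i // d i = ν} = Nat.card {i // d i = ν⁻¹}) :
    ∃ A : Matrix (Fin n) (Fin n) F, IsUnit A.det ∧ (∀ i j, A j i = (A i j) ^ q₀) ∧
      (Matrix.diagonal d).transpose * A * (Matrix.diagonal d).map (fun a => a ^ q₀) = A :=
  exists_gram_of_symm q₀ n r hF hr hrq d hd hsym

end Cfsg.Agent.H24.Uni
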