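import Mathlib
import Cfsg.Agent.H77.SubRANKEXT
import Cfsg.Agent.H7.Herm

set_option autoImplicit false

/-!
# S5982-SYM (helper99): the eigenvalue multiplicities of a unitary similarity are symmetric
under `ν ↦ c * (ν⁻¹) ^ q₀`
-/

open scoped MatrixGroups

namespace Cfsg.Agent.H24.Uni

variable {F : Type*} [Field F] [Fintype F]

omit [Fintype F] in
/-- conjugate matrices minus the same scalar have the same rank -/
theorem rank_sub_smul_of_conj {n : ℕ} (x P s : Matrix (Fin n) (Fin n) F) (hP : IsUnit P.det)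
    (h : x * P = P * s) (μ : F) :
    (x - μ • (1 : Matrix (Fin n) (Fin n) F)).rank
      = (s - μ • (1 : Matrix (Fin n) (Fin n) F)).rank := by
  have e : (x - μ • (1 : Matrix (Fin n) (Fin n) F)) * P
      = P * (s - μ • (1 : Matrix (Fin n) (Fin n) F)) := by
    rw [Matrix.sub_mul, Matrix.mul_sub, h, Matrix.smul_mul, Matrix.mul_smul, Matrix.one_mul,
      Matrix.mul_one]
  rw [← Matrix.rank_mul_eq_left_of_isUnit_det P _ hP, e,
    Matrix.rank_mul_eq_right_of_isUnit_det P _ hP]

omit [Fintype F] in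
/-- the rank of a nonzero scalar multiple -/
theorem rank_smul_of_ne_zero {n : ℕ} (a : F) (ha : a ≠ 0) (M : Matrix (Fin n) (Fin n) F) :
    (a • M).rank = M.rank := by
  have e : a • M = (a • (1 : Matrix (Fin n) (Fin n) F)) * M := by
    rw [Matrix.smul_mul, Matrix.one_mul]
  have hu : IsUnit (a • (1 : Matrix (Fin n) (Fin n) F)).det := by
    rw [Matrix.det_smul, Matrix.det_one, mul_one]
    exact isUnit_iff_ne_zero.2 (pow_ne_zero _ ha)
  rw [e, Matrix.rank_mul_eq_right_of_isUnit_det _ _ hu]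

theorem rank_symm_of_unitary_sim (q₀ n : ℕ) (hF : Fintype.card F = q₀ ^ 2)
    (x P s : Matrix (Fin n) (Fin n) F) (hP : IsUnit P.det) (c : F) (hc : c ≠ 0)
    (h : x * P = P * s)
    (hs : s.transpose * s.map (fun a => a ^ q₀) = c • (1 : Matrix (Fin n) (Fin n) F)) (ν : F) :
    (x - ν • (1 : Matrix (Fin n) (Fin n) F)).rank
      = (x - (c * (ν⁻¹) ^ q₀) • (1 : Matrix (Fin n) (Fin n) F)).rank := by
  have hq0 : q₀ ≠ 0 := by
    rintro rfl
    have h1 : 1 < Fintype.card F := Fintype.one_lt_card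
    rw [hF] at h1
    norm_num at h1
  by_cases hν : ν = 0
  · subst hν
    rw [inv_zero, zero_pow hq0, mul_zero]
  obtain ⟨frob, hfrob⟩ := Cfsg.Agent.H7.exists_frobQ hF
  have hνq : ν ^ q₀ ≠ 0 := pow_ne_zero _ hν
  -- the transpose of `s` is invertible
  have hst : IsUnit s.transpose.det := by
    have e : s.transpose.det * (s.map (fun a => a ^ q₀)).det = c ^ n := by
      rw [← Matrix.det_mul, hs, Matrix.det_smul, Matrix.det_one, mul_one, Fintype.card_fin]
    exact isUnit_iff_ne_zero.2 (fun h0 => pow_ne_zero n hc (by rw [← e, h0, zero_mul]))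
  -- the image of `s - ν` under the Frobenius map
  have hmap : (s - ν • (1 : Matrix (Fin n) (Fin n) F)).map frob
      = s.map (fun a => a ^ q₀) - (ν ^ q₀) • (1 : Matrix (Fin n) (Fin n) F) := by
    ext i j
    rw [Matrix.map_apply, Matrix.sub_apply, Matrix.sub_apply, Matrix.map_apply,
      Matrix.smul_apply, Matrix.smul_apply, map_sub, smul_eq_mul, smul_eq_mul, map_mul, hfrob,
      hfrob]
    congr 2
    rw [Matrix.one_apply]
    split_ifs
    · rw [map_one]
    · rw [map_zero]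
  have key : s.transpose * (s.map (fun a => a ^ q₀) - (ν ^ q₀) • (1 : Matrix (Fin n) (Fin n) F))
      = (-(ν ^ q₀)) • (s - (c * (ν⁻¹) ^ q₀) • (1 : Matrix (Fin n) (Fin n) F)).transpose := by
    rw [Matrix.mul_sub, hs, Matrix.mul_smul, Matrix.mul_one, Matrix.transpose_sub,
      Matrix.transpose_smul, Matrix.transpose_one, smul_sub, smul_smul]
    have e : -ν ^ q₀ * (c * ν⁻¹ ^ q₀) = -c := by
      rw [inv_pow]
      field_simp
    rw [e, neg_smul, neg_smul]
    abel
  rw [rank_sub_smul_of_conj x P s hP h ν, rank_sub_smul_of_conj x P s hP h (c * (ν⁻¹) ^ q₀),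
    ← Cfsg.Agent.H77.Sub.rank_map_field frob (s - ν • (1 : Matrix (Fin n) (Fin n) F)), hmap,
    ← Matrix.rank_mul_eq_right_of_isUnit_det s.transpose _ hst, key,
    rank_smul_of_ne_zero _ (neg_ne_zero.2 hνq), Matrix.rank_transpose]

example (q₀ n : ℕ) (hF : Fintype.card F = q₀ ^ 2)
    (x P s : Matrix (Fin n) (Fin n) F) (hP : IsUnit P.det) (c : F) (hc : c ≠ 0)
    (h : x * P = P * s)
    (hs : s.transpose * s.map (fun a => a ^ q₀) = c • (1 : Matrix (Fin n) (Fin n) F)) (ν : F) :
    (x - ν • (1 : Matrix (Fin n) (Fin n) F)).rank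
      = (x - (c * (ν⁻¹) ^ q₀) • (1 : Matrix (Fin n) (Fin n) F)).rank :=
  rank_symm_of_unitary_sim q₀ n hF x P s hP c hc h hs ν

end Cfsg.Agent.H24.Uni
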