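import Mathlib

/-!
# Central-extension lemmas for Steinberg's Theorem 10 (S2398 pieces LIFT, SCALE, COMM)
-/

set_option autoImplicit false

namespace Cfsg.Agent.H24.Univ

variable {G E K : Type*} [Group G] [Group E] [Field K]

/-- Elements with the same image under a hom with central kernel act the same by conjugation. -/
theorem conj_eq_of_map_eq (ρ : E →* G) (hc : ρ.ker ≤ Subgroup.center E) {a a' : E}
    (h : ρ a = ρ a') (b : E) : a * b * a⁻¹ = a' * b * a'⁻¹ := by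
  have hz : a⁻¹ * a' ∈ Subgroup.center E := hc (by
    rw [MonoidHom.mem_ker, map_mul, map_inv, h, inv_mul_cancel])
  have hz' := Subgroup.mem_center_iff.mp hz b
  calc a * b * a⁻¹ = a * (b * (a⁻¹ * a')) * a'⁻¹ := by group
    _ = a * ((a⁻¹ * a') * b) * a'⁻¹ := by rw [hz']
    _ = a' * b * a'⁻¹ := by group

/-- Commutators only depend on the images under a hom with central kernel. -/
theorem comm_eq_of_map_eq (ρ : E →* G) (hc : ρ.ker ≤ Subgroup.center E) {a a' b b' : E}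
    (ha : ρ a = ρ a') (hb : ρ b = ρ b') :
    a * b * a⁻¹ * b⁻¹ = a' * b' * a'⁻¹ * b'⁻¹ := by
  calc a * b * a⁻¹ * b⁻¹ = a' * b * a'⁻¹ * b⁻¹ := by rw [conj_eq_of_map_eq ρ hc ha b]
    _ = a' * (b * a'⁻¹ * b⁻¹) := by group
    _ = a' * (b' * a'⁻¹ * b'⁻¹) := by rw [conj_eq_of_map_eq ρ hc hb a'⁻¹]
    _ = a' * b' * a'⁻¹ * b'⁻¹ := by group

/-- **S2398-LIFT (1).** -/
theorem exists_lift (ρ : E →* G) (hc : ρ.ker ≤ Subgroup.center E) (x : K → G) (T : Set G)
    (hx : ∀ t u : K, x (t + u) = x t * x u) (hxl : ∀ t : K, ∃ e : E, ρ e = x t)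
    (h₀ : G) (hh₀ : ∃ e : E, ρ e = h₀) (a : K) (ha : a - 1 ≠ 0)
    (hact : ∀ t : K, h₀ * x t * h₀⁻¹ = x (a * t))
    (hcomm : ∀ g ∈ T, g * h₀ = h₀ * g) :
    ∃ y : K → E, (∀ t : K, ρ (y t) = x t) ∧
      (∀ (h : E) (χ : K), ρ h ∈ T → (∀ t : K, ρ h * x t * (ρ h)⁻¹ = x (χ * t)) →
        ∀ t : K, h * y t * h⁻¹ = y (χ * t)) ∧
      (∀ (h e : E) (t : K), ρ h = h₀ → ρ e = x t → h * e * h⁻¹ * e⁻¹ = y ((a - 1) * t)) := by
  obtain ⟨H, hH⟩ := hh₀
  choose l hl using hxl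
  refine ⟨fun t => H * l (t / (a - 1)) * H⁻¹ * (l (t / (a - 1)))⁻¹, ?_, ?_, ?_⟩
  · intro t
    simp only [map_mul, map_inv, hH, hl, hact]
    have h1 : a * (t / (a - 1)) = t + t / (a - 1) := by field_simp; ring
    rw [h1, hx]; group
  · intro h χ hT hχ t
    have e1 : ρ (h * H * h⁻¹) = ρ H := by
      rw [map_mul, map_mul, map_inv, hH, hcomm _ hT]; group
    have e2 : ρ (h * l (t / (a - 1)) * h⁻¹) = ρ (l (χ * t / (a - 1))) := by
      rw [map_mul, map_mul, map_inv, hl, hl, hχ, mul_div_assoc]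
    have key := comm_eq_of_map_eq ρ hc e1 e2
    calc h * (H * l (t / (a - 1)) * H⁻¹ * (l (t / (a - 1)))⁻¹) * h⁻¹
        = (h * H * h⁻¹) * (h * l (t / (a - 1)) * h⁻¹) * (h * H * h⁻¹)⁻¹
          * (h * l (t / (a - 1)) * h⁻¹)⁻¹ := by group
      _ = _ := key
  · intro h e t hh he
    have e1 : ρ h = ρ H := by rw [hh, hH]
    have e2 : ρ e = ρ (l ((a - 1) * t / (a - 1))) := by
      rw [he, hl, mul_div_cancel_left₀ _ ha]
    exact comm_eq_of_map_eq ρ hc e1 e2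

/-- **S2398-LIFT (2).** -/
theorem add_of_comm (ρ : E →* G) (x : K → G) (y : K → E)
    (hx : ∀ t u : K, x (t + u) = x t * x u) (hmap : ∀ t : K, ρ (y t) = x t)
    (h : E) (b : K) (hb : b ≠ 0)
    (hdef : ∀ (e : E) (t : K), ρ e = x t → h * e * h⁻¹ * e⁻¹ = y (b * t))
    (hcomm : ∀ t u : K, y t * y u = y u * y t) :
    ∀ t u : K, y (t + u) = y t * y u := by
  have key : ∀ t u : K, y (b * (t + u)) = y (b * t) * y (b * u) := by
    intro t u
    have h1 := hdef (y t * y u) (t + u) (by rw [map_mul, hmap, hmap, hx])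
    have h2 := hdef (y t) t (hmap t)
    have h3 := hdef (y u) u (hmap u)
    rw [← h1]
    calc h * (y t * y u) * h⁻¹ * (y t * y u)⁻¹
        = (h * y t * h⁻¹ * (y t)⁻¹) * (y t * (h * y u * h⁻¹ * (y u)⁻¹)) * (y t)⁻¹ := by group
      _ = y (b * t) * (y t * y (b * u)) * (y t)⁻¹ := by rw [h2, h3]
      _ = y (b * t) * (y (b * u) * y t) * (y t)⁻¹ := by rw [hcomm t (b * u)]
      _ = y (b * t) * y (b * u) := by group
  intro t u
  have h1 := key (t / b) (u / b)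
  rw [mul_add, mul_div_cancel₀ _ hb, mul_div_cancel₀ _ hb] at h1
  exact h1

/-- **S2398-COMM (1).** -/
theorem comm_of_comm (ρ : E →* G) (hc : ρ.ker ≤ Subgroup.center E) (y : K → E)
    (H : ∀ a : K, ∃ b c d : E, (∀ s : K, ρ b * ρ (y s) = ρ (y s) * ρ b) ∧
      (∀ s : K, ρ c * ρ (y s) = ρ (y s) * ρ c) ∧ (∀ s : K, d * y s = y s * d) ∧
      ρ (b * c * b⁻¹ * c⁻¹) = ρ (d * y a)) :
    ∀ s a : K, y s * y a = y a * y s := by
  intro s a
  obtain ⟨b, c, d, hb, hcc, hd, hbc⟩ := H a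
  -- `y s` commutes with the commutator of `b` and `c`
  have e1 : ρ (y s * b * (y s)⁻¹) = ρ b := by
    rw [map_mul, map_mul, map_inv, ← hb s]; group
  have e2 : ρ (y s * c * (y s)⁻¹) = ρ c := by
    rw [map_mul, map_mul, map_inv, ← hcc s]; group
  have h1 := comm_eq_of_map_eq ρ hc e1 e2
  have h2 : y s * (b * c * b⁻¹ * c⁻¹) * (y s)⁻¹ = b * c * b⁻¹ * c⁻¹ := by
    calc y s * (b * c * b⁻¹ * c⁻¹) * (y s)⁻¹
        = y s * b * (y s)⁻¹ * (y s * c * (y s)⁻¹) * (y s * b * (y s)⁻¹)⁻¹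
          * (y s * c * (y s)⁻¹)⁻¹ := by group
      _ = _ := h1
  -- conjugation by the commutator is conjugation by `d * y a`
  have h3 := conj_eq_of_map_eq ρ hc hbc (y s)
  have h4 : (b * c * b⁻¹ * c⁻¹) * y s * (b * c * b⁻¹ * c⁻¹)⁻¹ = y s := by
    calc (b * c * b⁻¹ * c⁻¹) * y s * (b * c * b⁻¹ * c⁻¹)⁻¹
        = (y s * (b * c * b⁻¹ * c⁻¹) * (y s)⁻¹) * y s * (b * c * b⁻¹ * c⁻¹)⁻¹ := by rw [h2]
      _ = y s := by group
  rw [h4] at h3
  -- h3 : y s = d * y a * y s * (d * y a)⁻¹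
  have h5 : y s * (d * y a) = d * y a * y s := by
    calc y s * (d * y a) = (d * y a * y s * (d * y a)⁻¹) * (d * y a) := by rw [← h3]
      _ = d * y a * y s := by group
  have h6 : d * (y s * y a) = d * (y a * y s) := by
    calc d * (y s * y a) = (d * y s) * y a := by group
      _ = (y s * d) * y a := by rw [hd s]
      _ = y s * (d * y a) := by group
      _ = d * y a * y s := h5
      _ = d * (y a * y s) := by group
  exact mul_left_cancel h6

/-- **S2398-COMM (2).** -/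
theorem comm_of_sep (ρ : E →* G) (hc : ρ.ker ≤ Subgroup.center E) (e : E) (y : K → E)
    (hadd : ∀ t u : K, ρ (y (t + u)) = ρ (y t) * ρ (y u))
    (hcomm : ∀ u : K, ρ e * ρ (y u) = ρ (y u) * ρ e)
    (h : E) (c : K) (hc1 : c - 1 ≠ 0) (he : h * e * h⁻¹ = e) (hy : ∀ u : K, h * y u * h⁻¹ = y (c * u)) :
    ∀ u : K, e * y u = y u * e := by
  -- the commutator `g u = [e, y u]` is central
  have hcen : ∀ u : K, ∀ w : E, w * (e * y u * e⁻¹ * (y u)⁻¹) = (e * y u * e⁻¹ * (y u)⁻¹) * w := by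
    intro u
    have : e * y u * e⁻¹ * (y u)⁻¹ ∈ Subgroup.center E := hc (by
      rw [MonoidHom.mem_ker, map_mul, map_mul, map_mul, map_inv, map_inv, hcomm u]; group)
    exact Subgroup.mem_center_iff.mp this
  -- additivity
  have hga : ∀ t u : K, e * y (t + u) * e⁻¹ * (y (t + u))⁻¹
      = (e * y t * e⁻¹ * (y t)⁻¹) * (e * y u * e⁻¹ * (y u)⁻¹) := by
    intro t u
    have h1 : ρ (y (t + u)) = ρ (y t * y u) := by rw [hadd, map_mul]
    rw [comm_eq_of_map_eq ρ hc (rfl : ρ e = ρ e) h1]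
    calc e * (y t * y u) * e⁻¹ * (y t * y u)⁻¹
        = (e * y t * e⁻¹ * (y t)⁻¹) * (y t * (e * y u * e⁻¹ * (y u)⁻¹)) * (y t)⁻¹ := by group
      _ = (e * y t * e⁻¹ * (y t)⁻¹) * ((e * y u * e⁻¹ * (y u)⁻¹) * y t) * (y t)⁻¹ := by
          rw [hcen u (y t)]
      _ = _ := by group
  -- invariance under scaling by `c`
  have hgc : ∀ u : K, e * y (c * u) * e⁻¹ * (y (c * u))⁻¹ = e * y u * e⁻¹ * (y u)⁻¹ := by
    intro u
    calc e * y (c * u) * e⁻¹ * (y (c * u))⁻¹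
        = (h * e * h⁻¹) * (h * y u * h⁻¹) * (h * e * h⁻¹)⁻¹ * (h * y u * h⁻¹)⁻¹ := by
          rw [he, hy]
      _ = (h * (e * y u * e⁻¹ * (y u)⁻¹)) * h⁻¹ := by group
      _ = ((e * y u * e⁻¹ * (y u)⁻¹) * h) * h⁻¹ := by rw [hcen u h]
      _ = _ := by group
  have hone : ∀ u : K, e * y ((c - 1) * u) * e⁻¹ * (y ((c - 1) * u))⁻¹ = 1 := by
    intro u
    have h1 := hga ((c - 1) * u) u
    have h2 : (c - 1) * u + u = c * u := by ring
    rw [h2, hgc u] at h1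
    exact (mul_eq_right.mp h1.symm)
  intro u
  have h1 := hone (u / (c - 1))
  rw [mul_div_cancel₀ _ hc1] at h1
  have h2 : e * y u * e⁻¹ = y u := by
    have := mul_inv_eq_one.mp h1
    exact this
  exact mul_inv_eq_iff_eq_mul.mp h2

/-- **S2398-SCALE.** -/
theorem comm_of_scale (ρ : E →* G) (hc : ρ.ker ≤ Subgroup.center E) (x : K → G) (y : K → E)
    (hx : ∀ t u : K, x (t + u) = x t * x u) (hmap : ∀ t : K, ρ (y t) = x t)
    (h₁ h₂ : E) (v : K) (hv0 : v ≠ 0) (hv2 : v ^ 2 + v + 1 ≠ 0)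
    (hs₁ : ∀ t : K, h₁ * y t * h₁⁻¹ = y (v * t)) (hs₂ : ∀ t : K, h₂ * y t * h₂⁻¹ = y ((v + 1) * t)) :
    ∀ t u : K, y t * y u = y u * y t := by
  have hxc : ∀ t u : K, x t * x u = x u * x t := by
    intro t u; rw [← hx, ← hx, add_comm]
  have hmem : ∀ t u : K, y t * y u * (y t)⁻¹ * (y u)⁻¹ ∈ Subgroup.center E := by
    intro t u
    apply hc
    rw [MonoidHom.mem_ker, map_mul, map_mul, map_mul, map_inv, map_inv, hmap, hmap, hxc t u]
    group
  obtain ⟨F, hF⟩ : ∃ F : K → K → Subgroup.center E,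
      ∀ t u, (F t u : E) = y t * y u * (y t)⁻¹ * (y u)⁻¹ :=
    ⟨fun t u => ⟨_, hmem t u⟩, fun t u => rfl⟩
  have hcen : ∀ (t u : K) (w : E), w * (F t u : E) = (F t u : E) * w :=
    fun t u w => Subgroup.mem_center_iff.mp (F t u).2 w
  -- additivity in the first variable
  have hA1 : ∀ t t' u : K, F (t + t') u = F t u * F t' u := by
    intro t t' u
    apply Subtype.ext
    rw [Subgroup.coe_mul, hF]
    have h1 : ρ (y (t + t')) = ρ (y t * y t') := by rw [hmap, hx, map_mul, hmap, hmap]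
    rw [comm_eq_of_map_eq ρ hc h1 (rfl : ρ (y u) = ρ (y u))]
    calc y t * y t' * y u * (y t * y t')⁻¹ * (y u)⁻¹
        = y t * (y t' * y u * (y t')⁻¹ * (y u)⁻¹) * (y u * (y t)⁻¹ * (y u)⁻¹) := by group
      _ = y t * (F t' u : E) * (y u * (y t)⁻¹ * (y u)⁻¹) := by rw [← hF t' u]
      _ = (F t' u : E) * y t * (y u * (y t)⁻¹ * (y u)⁻¹) := by rw [hcen t' u (y t)]
      _ = (F t' u : E) * (y t * y u * (y t)⁻¹ * (y u)⁻¹) := by group
      _ = (F t' u : E) * (F t u : E) := by rw [← hF t u]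
      _ = (F t u : E) * (F t' u : E) := hcen t u _
  have hanti : ∀ t u : K, F t u = (F u t)⁻¹ := by
    intro t u
    apply Subtype.ext
    rw [Subgroup.coe_inv, hF, hF]; group
  have hA2 : ∀ t u u' : K, F t (u + u') = F t u * F t u' := by
    intro t u u'
    rw [hanti t (u + u'), hA1, hanti t u, hanti t u']
    rw [mul_inv_rev]
    exact Subtype.ext (Subgroup.mem_center_iff.mp ((F u t)⁻¹).2 _)
  -- invariance under a scaling that is induced by a conjugation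
  have hinv : ∀ (h : E) (w : K), (∀ t : K, h * y t * h⁻¹ = y (w * t)) →
      ∀ t u : K, F (w * t) (w * u) = F t u := by
    intro h w hw t u
    apply Subtype.ext
    rw [hF, ← hw t, ← hw u]
    calc h * y t * h⁻¹ * (h * y u * h⁻¹) * (h * y t * h⁻¹)⁻¹ * (h * y u * h⁻¹)⁻¹
        = h * (y t * y u * (y t)⁻¹ * (y u)⁻¹) * h⁻¹ := by group
      _ = h * (F t u : E) * h⁻¹ := by rw [← hF t u]
      _ = (F t u : E) * h * h⁻¹ := by rw [hcen t u h]
      _ = (F t u : E) := by group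
  have hI1 := hinv h₁ v hs₁
  have hI2 := hinv h₂ (v + 1) hs₂
  have hkey : ∀ t u : K, F (v * t) u * (F t (v * u) * F t u) = 1 := by
    intro t u
    have h1 := hI2 t u
    have e1 : (v + 1) * t = v * t + t := by ring
    have e2 : (v + 1) * u = v * u + u := by ring
    rw [e1, e2, hA1, hA2, hA2, hI1] at h1
    have h2 : F t u * (F (v * t) u * (F t (v * u) * F t u)) = F t u * 1 := by
      rw [mul_one, ← mul_assoc]; exact h1
    exact mul_left_cancel h2
  have hw : v⁻¹ + v + 1 ≠ 0 := by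
    intro h
    apply hv2
    have : (v⁻¹ + v + 1) * v = v ^ 2 + v + 1 := by field_simp; ring
    rw [← this, h, zero_mul]
  have hone : ∀ t u : K, F t ((v⁻¹ + v + 1) * u) = 1 := by
    intro t u
    have e : (v⁻¹ + v + 1) * u = v⁻¹ * u + (v * u + u) := by ring
    rw [e, hA2, hA2]
    have h1 : F t (v⁻¹ * u) = F (v * t) u := by
      have := hI1 t (v⁻¹ * u)
      rw [mul_inv_cancel_left₀ hv0] at this
      exact this.symm
    rw [h1]; exact hkey t u
  intro t u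
  have h1 := hone t (u / (v⁻¹ + v + 1))
  rw [mul_div_cancel₀ _ hw] at h1
  have h2 : y t * y u * (y t)⁻¹ * (y u)⁻¹ = 1 := by rw [← hF, h1]; rfl
  have h3 : y t * y u * (y t)⁻¹ = y u := mul_inv_eq_one.mp h2
  exact mul_inv_eq_iff_eq_mul.mp h3

end Cfsg.Agent.H24.Univ
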