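import Mathlib
import Cfsg.Agent.H58.UqDefs
import Cfsg.Agent.S2944
import Cfsg.Agent.H12.SpConjG
import Cfsg.Agent.H70.SpJEq

set_option autoImplicit false

/-!
UQ-KEYA (helper24, for helper58: S2950): the `L`-conjugates of `K ∈ 𝒦₀(T)` are `J(T)`-components
inside `N_G(W_K)`.

By (S) in `L` every `L`-conjugate of `J = J(T)` normalizes `W_K`; `K^x = [K^x, J^x]` is generated
by commutators `k j k⁻¹ j⁻¹` with `k ∈ K^x ≤ L`, `j ∈ J^x`, products of elements of conjugates of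
`J`; `J^(x⁻¹) ≤ N(W_K)` gives `J ≤ N(W_{K^x})`, and S2944 applied to `(T^x, K^x)` with `g = x⁻¹`
shows that `K^x` is a `J(T)`-component.
-/

namespace Cfsg.Agent.H24.Uq

open Cfsg
open Cfsg.Agent.H58.Uq
open scoped commutatorElement

universe u

theorem mem_map_conj_iff {G : Type u} [Group G] (W : Subgroup G) (x y : G) :
    y ∈ W.map (MulAut.conj x).toMonoidHom ↔ x⁻¹ * y * x ∈ W := by
  constructor
  · rintro ⟨w, hw, rfl⟩
    simp only [MulEquiv.coe_toMonoidHom, MulAut.conj_apply]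
    have e : x⁻¹ * (x * w * x⁻¹) * x = w := by group
    rw [e]; exact hw
  · intro h
    refine ⟨x⁻¹ * y * x, h, ?_⟩
    simp only [MulEquiv.coe_toMonoidHom, MulAut.conj_apply]
    group

theorem conj_mem_normalizer_map {G : Type u} [Group G] (W : Subgroup G) (x n : G)
    (hn : n ∈ Subgroup.normalizer (W : Set G)) :
    x * n * x⁻¹ ∈
      Subgroup.normalizer ((W.map (MulAut.conj x).toMonoidHom : Subgroup G) : Set G) := by
  rw [Subgroup.mem_normalizer_iff] at hn ⊢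
  intro y
  rw [mem_map_conj_iff, mem_map_conj_iff, hn (x⁻¹ * y * x)]
  have e : x⁻¹ * (x * n * x⁻¹ * y * (x * n * x⁻¹)⁻¹) * x = n * (x⁻¹ * y * x) * n⁻¹ := by group
  rw [e]

theorem keyA (hS : StS.{u}) (hK : StK0Conj.{u}) : StKeyA.{u} := by
  intro G _ _ hZN T hT hT1 L T₁ hL hJ K hK0 hKL x hx
  obtain ⟨hchar, hsolv, hz⟩ := id hZN
  have hL' : IsSylowTwoIn T₁ L ∧ ¬ thompsonSubgroupOf 2 T₁ ≤ pCoreOf 2 L ∧
      Subgroup.centralizer (pCoreOf 2 L : Set G) ≤ pCoreOf 2 L := hL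
  obtain ⟨hSyl, hnot, -⟩ := hL'
  obtain ⟨-, hT₁2, -⟩ := id hSyl
  have hT₁ne : T₁ ≠ ⊥ := by
    intro h
    apply hnot
    have h' : thompsonSubgroupOf 2 T₁ ≤ T₁ := Cfsg.Agent.H14.thompsonSubgroupOf_le 2 T₁
    exact h'.trans (by rw [h]; exact bot_le)
  obtain ⟨hcongr0, hcongr⟩ := k0_congr T T₁ hJ
  have hK0' : IsJComponent T K ∧ ∀ S : Subgroup G, thompsonSubgroupOf 2 T ≤ S →
      IsSylowTwoIn S (Subgroup.normalizer (wOf K : Set G)) →
      thompsonSubgroupOf 2 S = thompsonSubgroupOf 2 T := hK0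
  have hKc : IsJComponent T K := hK0'.1
  have hKc₁ : IsJComponent T₁ K := (hcongr K).mpr hKc
  have hK0₁ : K ∈ jComponentsZero (T₁.map (MulAut.conj (1 : G)).toMonoidHom) := by
    rw [Cfsg.Agent.H70.Sp.map_conj_one, hcongr0]; exact hK0
  -- (S) in `L`
  have h1 : ∀ l ∈ L, (thompsonSubgroupOf 2 T).map (MulAut.conj l).toMonoidHom ≤
      Subgroup.normalizer (wOf K : Set G) := by
    intro l hl
    have h := hS hZN T₁ hT₁2 hT₁ne L hL K hKc₁ hKL ⟨1, hK0₁⟩ l hl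
    rwa [hJ] at h
  have hKJ : ⁅K, thompsonSubgroupOf 2 T⁆ = K := hKc.2.1
  have hKxL : K.map (MulAut.conj x).toMonoidHom ≤ L := by
    rintro _ ⟨k, hk, rfl⟩
    simp only [MulEquiv.coe_toMonoidHom, MulAut.conj_apply]
    exact L.mul_mem (L.mul_mem hx (hKL hk)) (L.inv_mem hx)
  have h2 : K.map (MulAut.conj x).toMonoidHom ≤ Subgroup.normalizer (wOf K : Set G) := by
    have e : K.map (MulAut.conj x).toMonoidHom =
        ⁅K.map (MulAut.conj x).toMonoidHom,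
          (thompsonSubgroupOf 2 T).map (MulAut.conj x).toMonoidHom⁆ := by
      rw [← Subgroup.map_commutator, hKJ]
    rw [e, Subgroup.commutator_le]
    intro k hk j hj
    obtain ⟨j0, hj0, rfl⟩ := hj
    have hkL : k ∈ L := hKxL hk
    have e2 : ⁅k, (MulAut.conj x).toMonoidHom j0⁆ =
        ((k * x) * j0 * (k * x)⁻¹) * (x * j0 * x⁻¹)⁻¹ := by
      simp only [commutatorElement_def, MulEquiv.coe_toMonoidHom, MulAut.conj_apply]; group
    rw [e2]
    refine Subgroup.mul_mem _ ?_ (Subgroup.inv_mem _ ?_)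
    · exact h1 (k * x) (L.mul_mem hkL hx)
        ⟨j0, hj0, by rw [MulEquiv.coe_toMonoidHom, MulAut.conj_apply]⟩
    · exact h1 x hx ⟨j0, hj0, by rw [MulEquiv.coe_toMonoidHom, MulAut.conj_apply]⟩
  refine ⟨?_, h2⟩
  -- S2944 for `(T^x, K^x)` and `g = x⁻¹`
  have hKx0 : K.map (MulAut.conj x).toMonoidHom ∈
      jComponentsZero (T.map (MulAut.conj x).toMonoidHom) := hK T K x hK0
  have hTx2 : IsPGroup 2 ↥(T.map (MulAut.conj x).toMonoidHom) := hT.map _
  have hTxne : T.map (MulAut.conj x).toMonoidHom ≠ ⊥ := by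
    intro h
    apply hT1
    rwa [Subgroup.map_eq_bot_iff_of_injective _ (MulAut.conj x).injective] at h
  have h3 := (Cfsg.Agent.S2944.result hchar hsolv hz (T.map (MulAut.conj x).toMonoidHom) hTx2
    hTxne _ hKx0).2 x⁻¹
  rw [Cfsg.Agent.H12.Sp.map_conj_conj_inv] at h3
  apply h3
  rw [Cfsg.Agent.H12.Sp.wOf_conj_map]
  intro j hj
  have hj' : x⁻¹ * j * x ∈ Subgroup.normalizer (wOf K : Set G) := by
    have h := h1 x⁻¹ (L.inv_mem hx) ⟨j, hj, rfl⟩
    simpa [MulAut.conj_apply] using h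
  have e : j = x * (x⁻¹ * j * x) * x⁻¹ := by group
  rw [e]
  exact conj_mem_normalizer_map _ x _ hj'

example (hS : StS.{u}) (hK : StK0Conj.{u}) : ∀ {G : Type u} [Group G] [Finite G], ZN G →
  ∀ (T : Subgroup G), IsPGroup 2 ↥T → T ≠ ⊥ →
  ∀ (L T₁ : Subgroup G), L ∈ jOvergroups T₁ →
  thompsonSubgroupOf 2 T₁ = thompsonSubgroupOf 2 T →
  ∀ K : Subgroup G, K ∈ jComponentsZero T → K ≤ L →
  ∀ x ∈ L, IsJComponent T (K.map (MulAut.conj x).toMonoidHom) ∧
    K.map (MulAut.conj x).toMonoidHom ≤ Subgroup.normalizer (wOf K : Set G) :=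
  keyA hS hK

end Cfsg.Agent.H24.Uq
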