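import Mathlib
import Cfsg.Agent.H74.W2PDefs

/-!
# S0720-CYC: the conic count
-/

set_option autoImplicit false

namespace Cfsg.Agent.H24.W2P

open Cfsg.Agent.H74.W2P Equiv MulAction

variable {Ω : Type*} [Fintype Ω] [DecidableEq Ω]

/-- **S0720-CYC.** -/
theorem conic_count {p : ℕ} [Fact p.Prime] (t : ℕ) (hpt : p = 4 * t + 1) (s : ZMod p)
    (hs : s ≠ 0) : (conicSet p s).card ≤ t := by
  classical
  have hp : p.Prime := Fact.out
  have h2 : (2 : ZMod p) ≠ 0 := by
    intro h
    have h' : ((2 : ℕ) : ZMod p) = 0 := by exact_mod_cast h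
    rw [ZMod.natCast_eq_zero_iff] at h'
    have h3 := Nat.le_of_dvd (by norm_num) h'
    have h4 := hp.two_le
    omega
  have hneg : (1 : ZMod p) ≠ -1 := by
    intro h
    apply h2
    linear_combination h
  obtain ⟨i, hi⟩ : ∃ i : ZMod p, i * i = -1 := by
    have hsq : IsSquare (-1 : ZMod p) := by
      rw [ZMod.exists_sq_eq_neg_one_iff]; omega
    obtain ⟨i, hi⟩ := hsq
    exact ⟨i, hi.symm⟩
  have hi0 : i ≠ 0 := by
    rintro rfl
    rw [zero_mul] at hi
    have : (1 : ZMod p) = 0 := by linear_combination hi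
    exact one_ne_zero this
  obtain ⟨S, hS⟩ : ∃ S : Finset (ZMod p × ZMod p),
      S = Finset.univ.filter (fun q : ZMod p × ZMod p => q.1 * q.1 + q.2 * q.2 = s) := ⟨_, rfl⟩
  have hSmem : ∀ q : ZMod p × ZMod p, q ∈ S ↔ q.1 * q.1 + q.2 * q.2 = s := by
    intro q
    rw [hS, Finset.mem_filter]
    exact ⟨fun h => h.2, fun h => ⟨Finset.mem_univ _, h⟩⟩
  -- (a) at most `p - 1` points on the conic
  have hSa : S.card ≤ p - 1 := by
    have hcard : (Finset.univ.erase (0 : ZMod p)).card = p - 1 := by
      rw [Finset.card_erase_of_mem (Finset.mem_univ _), Finset.card_univ, ZMod.card]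
    rw [← hcard]
    have hfac : ∀ q : ZMod p × ZMod p, q ∈ S → (q.1 + i * q.2) * (q.1 - i * q.2) = s := by
      intro q hq
      rw [← (hSmem q).mp hq]
      linear_combination (-(q.2 * q.2)) * hi
    apply Finset.card_le_card_of_injOn (fun q : ZMod p × ZMod p => q.1 + i * q.2)
    · intro q hq
      rw [Finset.mem_coe] at hq
      rw [Finset.mem_coe, Finset.mem_erase]
      refine ⟨?_, Finset.mem_univ _⟩
      intro h0
      apply hs
      have h1 := hfac q hq
      simp only at h0
      rw [← h1, h0, zero_mul]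
    · intro q hq q' hq' heq
      rw [Finset.mem_coe] at hq hq'
      simp only at heq
      have e1 := hfac q hq
      have e2 := hfac q' hq'
      have hα : q.1 + i * q.2 ≠ 0 := by
        intro h0
        apply hs
        rw [← e1, h0, zero_mul]
      have e3 : q.1 - i * q.2 = q'.1 - i * q'.2 := by
        apply mul_left_cancel₀ hα
        rw [e1]
        rw [heq]
        exact e2.symm
      have e4 : q.1 = q'.1 := by
        have : 2 * q.1 = 2 * q'.1 := by linear_combination heq + e3
        exact mul_left_cancel₀ h2 this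
      have e5 : q.2 = q'.2 := by
        have : (2 * i) * q.2 = (2 * i) * q'.2 := by linear_combination heq - e3
        exact mul_left_cancel₀ (mul_ne_zero h2 hi0) this
      exact Prod.ext e4 e5
  -- (b) each point of the conic set gives four points of the conic
  have hsqex : ∀ y : ZMod p, ∃ r : ZMod p, IsSquare y → r * r = y := by
    intro y
    by_cases h : IsSquare y
    · obtain ⟨r, hr⟩ := h
      exact ⟨r, fun _ => hr.symm⟩
    · exact ⟨0, fun h' => absurd h' h⟩
  choose sq hsq using hsqex
  obtain ⟨sgn, hsgnT, hsgnF⟩ : ∃ sgn : Bool → ZMod p, sgn true = 1 ∧ sgn false = -1 :=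
    ⟨fun b => if b then 1 else -1, by simp, by simp⟩
  have hsgn : ∀ b, sgn b * sgn b = 1 := by
    intro b
    cases b
    · rw [hsgnF]; ring
    · rw [hsgnT]; ring
  have hsgninj : ∀ b b', sgn b = sgn b' → b = b' := by
    intro b b' h
    cases b <;> cases b'
    · rfl
    · rw [hsgnF, hsgnT] at h; exact absurd h.symm hneg
    · rw [hsgnF, hsgnT] at h; exact absurd h hneg
    · rfl
  have hval : ∀ (b : Bool) (y : ZMod p), IsSquare y → (sgn b * sq y) * (sgn b * sq y) = y := by
    intro b y hy
    calc (sgn b * sq y) * (sgn b * sq y) = (sgn b * sgn b) * (sq y * sq y) := by ring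
      _ = y := by rw [hsgn, hsq y hy, one_mul]
  have hmemC : ∀ y : ZMod p, y ∈ conicSet p s →
      y ≠ 0 ∧ IsSquare y ∧ s - y ≠ 0 ∧ IsSquare (s - y) := by
    intro y hy
    unfold conicSet at hy
    exact (Finset.mem_filter.mp hy).2
  have hSb : (conicSet p s).card * 4 ≤ S.card := by
    have hcard : ((conicSet p s) ×ˢ (Finset.univ : Finset (Bool × Bool))).card
        = (conicSet p s).card * 4 := by
      rw [Finset.card_product]; rfl
    rw [← hcard]
    apply Finset.card_le_card_of_injOn
      (fun z : ZMod p × Bool × Bool => (sgn z.2.1 * sq z.1, sgn z.2.2 * sq (s - z.1)))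
    · intro z hz
      rw [Finset.mem_coe] at hz
      obtain ⟨-, hysq, -, hsysq⟩ := hmemC z.1 (Finset.mem_product.mp hz).1
      rw [Finset.mem_coe, hSmem]
      simp only
      rw [hval _ _ hysq, hval _ _ hsysq]
      ring
    · intro z hz z' hz' heq
      rw [Finset.mem_coe] at hz hz'
      obtain ⟨hy0, hysq, hsy0, hsysq⟩ := hmemC z.1 (Finset.mem_product.mp hz).1
      obtain ⟨-, hysq', -, hsysq'⟩ := hmemC z'.1 (Finset.mem_product.mp hz').1
      simp only [Prod.mk.injEq] at heq
      obtain ⟨h1, h3⟩ := heq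
      have e1 : z.1 = z'.1 := by
        rw [← hval z.2.1 z.1 hysq, h1, hval z'.2.1 z'.1 hysq']
      rw [← e1] at h1 h3
      have hr1 : sq z.1 ≠ 0 := by
        intro h0
        apply hy0
        rw [← hsq z.1 hysq, h0, zero_mul]
      have hr2 : sq (s - z.1) ≠ 0 := by
        intro h0
        apply hsy0
        rw [← hsq (s - z.1) hsysq, h0, zero_mul]
      have e2 : z.2.1 = z'.2.1 := hsgninj _ _ (mul_right_cancel₀ hr1 h1)
      have e3 : z.2.2 = z'.2.2 := hsgninj _ _ (mul_right_cancel₀ hr2 h3)
      exact Prod.ext e1 (Prod.ext e2 e3)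
  omega

end Cfsg.Agent.H24.W2P
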