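import Mathlib
import Cfsg.Agent.H74.W2PDefs

/-!
# S0720-POLY3: sequences over `ZMod p` killed by a finite difference and invariant under
multiplication by an element of order `e₀`
-/

set_option autoImplicit false

namespace Cfsg.Agent.H24.W2P

open Cfsg.Agent.H74.W2P Equiv MulAction

variable {Ω : Type*} [Fintype Ω] [DecidableEq Ω]

/-- a sequence with vanishing `m`-th forward difference (`m < p`) is a polynomial of degree
`< m` in `(n : ZMod p)` -/
theorem exists_poly_of_fwdDiff {p : ℕ} (hp : p.Prime) (m : ℕ) (hm0 : 0 < m) (hm : m < p)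
    (f : ℕ → ZMod p) (hΔ : ∀ n, (fwdDiff (1 : ℕ))^[m] f n = 0) :
    ∃ P : Polynomial (ZMod p), P.natDegree < m ∧ ∀ n : ℕ, f n = P.eval (n : ZMod p) := by
  have : Fact p.Prime := ⟨hp⟩
  -- higher differences vanish
  have hzero : (fwdDiff (1 : ℕ))^[m] f = fun _ => (0 : ZMod p) := funext hΔ
  have hfix : fwdDiff (1 : ℕ) (fun _ : ℕ => (0 : ZMod p)) = fun _ => 0 := by
    funext n; simp [fwdDiff]
  have hΔk : ∀ k, m ≤ k → ∀ n, (fwdDiff (1 : ℕ))^[k] f n = 0 := by
    intro k hk n
    obtain ⟨j, rfl⟩ := Nat.exists_eq_add_of_le hk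
    rw [add_comm, Function.iterate_add_apply, hzero, Function.iterate_fixed hfix]
  -- Newton's formula
  have hN : ∀ n : ℕ, f n = ∑ k ∈ Finset.range m,
      (n.choose k : ZMod p) * (fwdDiff (1 : ℕ))^[k] f 0 := by
    intro n
    have h1 := shift_eq_sum_fwdDiff_iter (1 : ℕ) f n 0
    simp only [smul_eq_mul, mul_one, zero_add, nsmul_eq_mul] at h1
    rw [h1]
    have hA : ∑ k ∈ Finset.range (n + 1), (n.choose k : ZMod p) * (fwdDiff (1 : ℕ))^[k] f 0
        = ∑ k ∈ Finset.range (max (n + 1) m),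
          (n.choose k : ZMod p) * (fwdDiff (1 : ℕ))^[k] f 0 := by
      apply Finset.sum_subset (Finset.range_subset_range.mpr (le_max_left _ _))
      intro k _ hk
      rw [Finset.mem_range, not_lt] at hk
      rw [Nat.choose_eq_zero_of_lt (by omega), Nat.cast_zero, zero_mul]
    have hB : ∑ k ∈ Finset.range m, (n.choose k : ZMod p) * (fwdDiff (1 : ℕ))^[k] f 0
        = ∑ k ∈ Finset.range (max (n + 1) m),
          (n.choose k : ZMod p) * (fwdDiff (1 : ℕ))^[k] f 0 := by
      apply Finset.sum_subset (Finset.range_subset_range.mpr (le_max_right _ _))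
      intro k _ hk
      rw [Finset.mem_range, not_lt] at hk
      rw [hΔk k hk 0, mul_zero]
    rw [hA, hB]
  refine ⟨∑ k ∈ Finset.range m,
    Polynomial.C ((fwdDiff (1 : ℕ))^[k] f 0 * ((k.factorial : ℕ) : ZMod p)⁻¹)
      * descPochhammer (ZMod p) k, ?_, ?_⟩
  · have hle : (∑ k ∈ Finset.range m,
        Polynomial.C ((fwdDiff (1 : ℕ))^[k] f 0 * ((k.factorial : ℕ) : ZMod p)⁻¹)
          * descPochhammer (ZMod p) k).natDegree ≤ m - 1 := by
      apply Polynomial.natDegree_sum_le_of_forall_le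
      intro k hk
      refine (Polynomial.natDegree_C_mul_le _ _).trans ?_
      rw [descPochhammer_natDegree]
      have := Finset.mem_range.mp hk
      omega
    omega
  · intro n
    rw [hN n, Polynomial.eval_finsetSum]
    apply Finset.sum_congr rfl
    intro k hk
    have hk' : ((k.factorial : ℕ) : ZMod p) ≠ 0 := by
      rw [Ne, ZMod.natCast_eq_zero_iff, hp.dvd_factorial]
      have := Finset.mem_range.mp hk
      omega
    rw [Polynomial.eval_mul, Polynomial.eval_C, descPochhammer_eval_eq_descFactorial,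
      Nat.descFactorial_eq_factorial_mul_choose, Nat.cast_mul, mul_assoc,
      inv_mul_cancel_left₀ hk', mul_comm]

/-- **S0720-POLY3.** -/
theorem poly3 {p : ℕ} (hp : p.Prime) (e₀ : ℕ) (he₀ : 1 ≤ e₀) (hlt : 2 * e₀ + 1 < p)
    (f : ℕ → ZMod p)
    (hdiff : ∀ n, ∑ i ∈ Finset.range (2 * e₀ + 2),
      ((-1 : ZMod p) ^ i * ((2 * e₀ + 1).choose i : ZMod p)) * f (n + i) = 0)
    (a : ℕ) (ha : orderOf (a : ZMod p) = e₀) (hinv : ∀ n, f (a * n) = f n) :
    ∃ c₀ c₁ c₂ : ZMod p, ∀ n : ℕ,
      f n = c₀ + c₁ * (n : ZMod p) ^ e₀ + c₂ * (n : ZMod p) ^ (2 * e₀) := by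
  have : Fact p.Prime := ⟨hp⟩
  -- the `(2 e₀ + 1)`-th forward difference vanishes
  have hΔ : ∀ n, (fwdDiff (1 : ℕ))^[2 * e₀ + 1] f n = 0 := by
    intro n
    rw [fwdDiff_iter_eq_sum_shift]
    have hterm : ∀ k ∈ Finset.range (2 * e₀ + 1 + 1),
        ((-1 : ℤ) ^ (2 * e₀ + 1 - k) * ((2 * e₀ + 1).choose k : ℤ)) • f (n + k • 1)
          = -(((-1 : ZMod p) ^ k * ((2 * e₀ + 1).choose k : ZMod p)) * f (n + k)) := by
      intro k hk
      have hk' : k ≤ 2 * e₀ + 1 := by
        have := Finset.mem_range.mp hk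
        omega
      have h1 : (-1 : ZMod p) ^ (2 * e₀ + 1 - k) * (-1) ^ k = -1 := by
        rw [← pow_add, Nat.sub_add_cancel hk']
        exact Odd.neg_one_pow ⟨e₀, rfl⟩
      have h2 : (-1 : ZMod p) ^ k * (-1) ^ k = 1 := by
        rw [← mul_pow]; simp
      have hs : (-1 : ZMod p) ^ (2 * e₀ + 1 - k) = -(-1) ^ k := by
        calc (-1 : ZMod p) ^ (2 * e₀ + 1 - k)
            = (-1 : ZMod p) ^ (2 * e₀ + 1 - k) * ((-1) ^ k * (-1) ^ k) := by rw [h2, mul_one]
          _ = ((-1 : ZMod p) ^ (2 * e₀ + 1 - k) * (-1) ^ k) * (-1) ^ k := by ring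
          _ = -(-1) ^ k := by rw [h1]; ring
      rw [zsmul_eq_mul, smul_eq_mul, mul_one]
      push_cast
      rw [hs]
      ring
    rw [Finset.sum_congr rfl hterm, Finset.sum_neg_distrib, hdiff n, neg_zero]
  obtain ⟨P, hdeg, hP⟩ := exists_poly_of_fwdDiff hp (2 * e₀ + 1) (by omega) hlt f hΔ
  -- invariance of `P` under `z ↦ a z`
  have hPa : ∀ z : ZMod p, P.eval ((a : ZMod p) * z) = P.eval z := by
    intro z
    have hz : ((z.val : ℕ) : ZMod p) = z := ZMod.natCast_zmod_val z
    have h1 := hP (a * z.val)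
    rw [hinv, hP, Nat.cast_mul, hz] at h1
    exact h1.symm
  -- so `P (a X) = P`
  have hQ : P.comp (Polynomial.C (a : ZMod p) * Polynomial.X) - P = 0 := by
    apply Polynomial.eq_zero_of_natDegree_lt_card_of_eval_eq_zero _
      (Function.injective_id : Function.Injective (id : ZMod p → ZMod p))
    · intro z
      rw [Polynomial.eval_sub, Polynomial.eval_comp, Polynomial.eval_mul, Polynomial.eval_C,
        Polynomial.eval_X, id, hPa z, sub_self]
    · rw [ZMod.card]
      refine lt_of_le_of_lt (Polynomial.natDegree_sub_le _ _) ?_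
      have h1 : (P.comp (Polynomial.C (a : ZMod p) * Polynomial.X)).natDegree ≤ P.natDegree := by
        refine Polynomial.natDegree_comp_le.trans ?_
        have h2 : (Polynomial.C (a : ZMod p) * Polynomial.X).natDegree ≤ 1 :=
          (Polynomial.natDegree_C_mul_le _ _).trans Polynomial.natDegree_X_le
        calc P.natDegree * (Polynomial.C (a : ZMod p) * Polynomial.X).natDegree
            ≤ P.natDegree * 1 := Nat.mul_le_mul_left _ h2
          _ = P.natDegree := mul_one _
      have h3 : max (P.comp (Polynomial.C (a : ZMod p) * Polynomial.X)).natDegree P.natDegree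
          ≤ P.natDegree := max_le h1 le_rfl
      omega
  -- coefficients
  have hcoeff : ∀ i : ℕ, ¬ e₀ ∣ i → P.coeff i = 0 := by
    intro i hi
    have h1 := congrArg (fun q => Polynomial.coeff q i) hQ
    simp only [Polynomial.coeff_sub, Polynomial.comp_C_mul_X_coeff, Polynomial.coeff_zero] at h1
    have h2 : P.coeff i * ((a : ZMod p) ^ i - 1) = 0 := by rw [mul_sub, mul_one]; exact h1
    rcases mul_eq_zero.mp h2 with h3 | h3
    · exact h3
    · exfalso
      apply hi
      rw [← ha]
      exact orderOf_dvd_of_pow_eq_one (sub_eq_zero.mp h3)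
  refine ⟨P.coeff 0, P.coeff e₀, P.coeff (2 * e₀), fun n => ?_⟩
  rw [hP n, Polynomial.eval_eq_sum_range' hdeg]
  have hsub : ({0, e₀, 2 * e₀} : Finset ℕ) ⊆ Finset.range (2 * e₀ + 1) := by
    intro i hi
    simp only [Finset.mem_insert, Finset.mem_singleton] at hi
    rw [Finset.mem_range]
    omega
  rw [← Finset.sum_subset hsub]
  · rw [Finset.sum_insert (by simp only [Finset.mem_insert, Finset.mem_singleton]; omega),
      Finset.sum_pair (by omega)]
    rw [pow_zero, mul_one, add_assoc]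
  · intro i hi hni
    simp only [Finset.mem_insert, Finset.mem_singleton, not_or] at hni
    rw [Finset.mem_range] at hi
    have : ¬ e₀ ∣ i := by
      rintro ⟨c, rfl⟩
      have hc : c ≤ 2 := by
        have h1 : e₀ * c ≤ e₀ * 2 := by omega
        exact Nat.le_of_mul_le_mul_left h1 (by omega)
      interval_cases c
      · exact hni.1 (by ring)
      · exact hni.2.1 (by ring)
      · exact hni.2.2 (by ring)
    rw [hcoeff i this, zero_mul]

end Cfsg.Agent.H24.W2P
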