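import Mathlib
import Cfsg.Agent.H74.W2PDefs

/-!
# S0720-R1: the rank 3 arithmetic
-/

set_option autoImplicit false

namespace Cfsg.Agent.H24.W2P

open Cfsg.Agent.H74.W2P Equiv MulAction

variable {Ω : Type*} [Fintype Ω] [DecidableEq Ω]

theorem r1_arith (p : ℕ) (hp : 2 ≤ p) (k₁ k₂ n₁ n₂ : ℕ) (hk : k₁ + k₂ = p - 1)
    (hnn : n₁ + n₂ = 2 * p - 1) (hd₁ : (p - 1) ∣ 2 * k₁)
    (hn₁ : 2 ≤ n₁) (hn₂ : 2 ≤ n₂)
    (hone : (n₁ : ℚ) * ((2 * (k₁ : ℚ) - n₁) / n₁) ^ 2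
      + (n₂ : ℚ) * ((2 * (k₂ : ℚ) - n₂) / n₂) ^ 2 = 1) :
    ∃ a : ℕ, 0 < a ∧ p = 2 * a ^ 2 + 2 * a + 1 ∧
      ((n₁ = a * (2 * a + 1) ∧ n₂ = (a + 1) * (2 * a + 1)) ∨
        (n₁ = (a + 1) * (2 * a + 1) ∧ n₂ = a * (2 * a + 1))) := by
  have hn₁q : (0 : ℚ) < n₁ := by exact_mod_cast (by omega : 0 < n₁)
  have hn₂q : (0 : ℚ) < n₂ := by exact_mod_cast (by omega : 0 < n₂)
  have hT1 : (n₁ : ℚ) * ((2 * (k₁ : ℚ) - n₁) / n₁) ^ 2 = (2 * (k₁ : ℚ) - n₁) ^ 2 / n₁ := by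
    field_simp
  have hT2 : (n₂ : ℚ) * ((2 * (k₂ : ℚ) - n₂) / n₂) ^ 2 = (2 * (k₂ : ℚ) - n₂) ^ 2 / n₂ := by
    field_simp
  rw [hT1, hT2] at hone
  have hnn1 : 0 ≤ (2 * (k₁ : ℚ) - n₁) ^ 2 / n₁ := by positivity
  have hnn2 : 0 ≤ (2 * (k₂ : ℚ) - n₂) ^ 2 / n₂ := by positivity
  -- `2 k₁ = (p - 1) c` with `c ≤ 2`
  obtain ⟨c, hc⟩ := hd₁
  have hcle : c ≤ 2 := by
    by_contra h
    push Not at h
    have h3 : (p - 1) * 3 ≤ (p - 1) * c := Nat.mul_le_mul_left _ h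
    omega
  have hkey : 2 * k₁ = p - 1 := by
    interval_cases c
    · -- k₁ = 0
      exfalso
      have hk0 : k₁ = 0 := by omega
      rw [hk0] at hone
      have : (2 * ((0 : ℕ) : ℚ) - n₁) ^ 2 / n₁ = n₁ := by
        field_simp; push_cast; ring
      rw [this] at hone
      have : (2 : ℚ) ≤ n₁ := by exact_mod_cast hn₁
      linarith
    · omega
    · -- k₂ = 0
      exfalso
      have hk0 : k₂ = 0 := by omega
      rw [hk0] at hone
      have : (2 * ((0 : ℕ) : ℚ) - n₂) ^ 2 / n₂ = n₂ := by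
        field_simp; push_cast; ring
      rw [this] at hone
      have : (2 : ℚ) ≤ n₂ := by exact_mod_cast hn₂
      linarith
  have hkey2 : 2 * k₂ = p - 1 := by omega
  -- the polynomial identity
  have hpoly : (2 * (k₁ : ℚ) - n₁) ^ 2 * n₂ + (2 * (k₂ : ℚ) - n₂) ^ 2 * n₁ = (n₁ : ℚ) * n₂ := by
    field_simp at hone
    linarith
  have hk1z : (2 * k₁ : ℤ) = p - 1 := by omega
  have hk2z : (2 * k₂ : ℤ) = p - 1 := by omega
  have hnnz : (n₂ : ℤ) = 2 * p - 1 - n₁ := by omega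
  have hpolyz : (2 * (k₁ : ℤ) - n₁) ^ 2 * n₂ + (2 * (k₂ : ℤ) - n₂) ^ 2 * n₁ = (n₁ : ℤ) * n₂ := by
    exact_mod_cast hpoly
  rw [hk1z, hk2z, hnnz] at hpolyz
  obtain ⟨A, hA⟩ : ∃ A : ℤ, A = (p : ℤ) - 1 - n₁ := ⟨_, rfl⟩
  have hn1A : (n₁ : ℤ) = p - 1 - A := by omega
  rw [hn1A] at hpolyz
  have hfac : ((p : ℤ) - 1) * (2 * A ^ 2 + 2 * A + 1 - p) = 0 := by
    linear_combination hpolyz
  have hpA : (p : ℤ) = 2 * A ^ 2 + 2 * A + 1 := by
    rcases mul_eq_zero.mp hfac with h | h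
    · omega
    · linarith
  have hn1 : (n₁ : ℤ) = A * (2 * A + 1) := by rw [hn1A, hpA]; ring
  have hn2 : (n₂ : ℤ) = (A + 1) * (2 * A + 1) := by rw [hnnz, hn1A, hpA]; ring
  rcases le_or_gt 0 A with hA0 | hA0
  · lift A to ℕ using hA0
    refine ⟨A, ?_, by exact_mod_cast hpA, Or.inl ⟨by exact_mod_cast hn1, by exact_mod_cast hn2⟩⟩
    rcases Nat.eq_zero_or_pos A with h0 | h0
    · exfalso
      rw [h0] at hpA
      norm_num at hpA
      omega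
    · exact h0
  · obtain ⟨B, hB⟩ : ∃ B : ℤ, B = -1 - A := ⟨_, rfl⟩
    have hB0 : 0 ≤ B := by omega
    have hAB : A = -1 - B := by omega
    rw [hAB] at hpA hn1 hn2
    lift B to ℕ using hB0
    refine ⟨B, ?_, ?_, Or.inr ⟨?_, ?_⟩⟩
    · rcases Nat.eq_zero_or_pos B with h0 | h0
      · exfalso
        rw [h0] at hpA
        norm_num at hpA
        omega
      · exact h0
    · have : (p : ℤ) = 2 * (B : ℤ) ^ 2 + 2 * B + 1 := by rw [hpA]; ring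
      exact_mod_cast this
    · have : (n₁ : ℤ) = ((B : ℤ) + 1) * (2 * B + 1) := by rw [hn1]; ring
      exact_mod_cast this
    · have : (n₂ : ℤ) = (B : ℤ) * (2 * B + 1) := by rw [hn2]; ring
      exact_mod_cast this

theorem card_subtype_eq_filter (P : Ω → Prop) [DecidablePred P] :
    Nat.card {ω : Ω // P ω} = (Finset.univ.filter P).card := by
  rw [Nat.card_eq_fintype_card]
  exact Fintype.card_of_subtype _ (fun x => by simp)

/-- **S0720-R1.** -/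
theorem r1 {G : Subgroup (Perm Ω)} {p : ℕ} {x : Perm Ω} (hyp : Hyp G p x) (a₀ : Ω)
    (hrank : Nat.card (orbitRel.Quotient (stabilizer G a₀) Ω) = 3)
    (hdiv : ∀ ω, ω ≠ a₀ → (p - 1) ∣ 2 * kval G x a₀ ω)
    (hone : ∑ ω ∈ Finset.univ.erase a₀,
      ((2 * (kval G x a₀ ω : ℚ) - nval G a₀ ω) / nval G a₀ ω) ^ 2 = 1)
    (hn : ∀ ω, ω ≠ a₀ → 2 ≤ nval G a₀ ω) : Concl G p a₀ := by
  classical
  refine ⟨hrank, ?_⟩
  have horb0 : ∀ ω, ω ∈ orbit (stabilizer G a₀) a₀ → ω = a₀ := by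
    rintro ω ⟨h, rfl⟩
    exact h.2
  have hmk : ∀ a b : Ω, (Quotient.mk (orbitRel (stabilizer G a₀) Ω) a
      = Quotient.mk (orbitRel (stabilizer G a₀) Ω) b) ↔ a ∈ orbit (stabilizer G a₀) b :=
    fun a b => ⟨fun h => Quotient.exact h, fun h => Quotient.sound h⟩
  -- the three classes
  letI hfin : Fintype (orbitRel.Quotient (stabilizer G a₀) Ω) := Fintype.ofFinite _
  have hcardQ : (Finset.univ : Finset (orbitRel.Quotient (stabilizer G a₀) Ω)).card = 3 := by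
    rw [Finset.card_univ, ← Nat.card_eq_fintype_card, hrank]
  have hcard2 : ((Finset.univ : Finset (orbitRel.Quotient (stabilizer G a₀) Ω)).erase
      (Quotient.mk (orbitRel (stabilizer G a₀) Ω) a₀)).card = 2 := by
    rw [Finset.card_erase_of_mem (Finset.mem_univ _), hcardQ]
  obtain ⟨q₁, q₂, hq12, hq⟩ := Finset.card_eq_two.mp hcard2
  obtain ⟨ω₁, rfl⟩ := Quotient.exists_rep q₁
  obtain ⟨ω₂, rfl⟩ := Quotient.exists_rep q₂
  have h1 : ω₁ ∉ orbit (stabilizer G a₀) a₀ := by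
    intro h
    have hmem : Quotient.mk (orbitRel (stabilizer G a₀) Ω) ω₁ ∈
        (Finset.univ : Finset (orbitRel.Quotient (stabilizer G a₀) Ω)).erase
          (Quotient.mk (orbitRel (stabilizer G a₀) Ω) a₀) := by
      rw [hq]; simp
    exact (Finset.mem_erase.mp hmem).1 ((hmk _ _).mpr h)
  have h2 : ω₂ ∉ orbit (stabilizer G a₀) a₀ := by
    intro h
    have hmem : Quotient.mk (orbitRel (stabilizer G a₀) Ω) ω₂ ∈
        (Finset.univ : Finset (orbitRel.Quotient (stabilizer G a₀) Ω)).erase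
          (Quotient.mk (orbitRel (stabilizer G a₀) Ω) a₀) := by
      rw [hq]; simp
    exact (Finset.mem_erase.mp hmem).1 ((hmk _ _).mpr h)
  have h12 : ω₁ ∉ orbit (stabilizer G a₀) ω₂ := fun h => hq12 ((hmk _ _).mpr h)
  have hall : ∀ ω, ω ∈ orbit (stabilizer G a₀) a₀ ∨ ω ∈ orbit (stabilizer G a₀) ω₁ ∨
      ω ∈ orbit (stabilizer G a₀) ω₂ := by
    intro ω
    by_cases h : ω ∈ orbit (stabilizer G a₀) a₀
    · exact Or.inl h
    · right
      have hmem : Quotient.mk (orbitRel (stabilizer G a₀) Ω) ω ∈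
          (Finset.univ : Finset (orbitRel.Quotient (stabilizer G a₀) Ω)).erase
            (Quotient.mk (orbitRel (stabilizer G a₀) Ω) a₀) :=
        Finset.mem_erase.mpr ⟨fun h' => h ((hmk _ _).mp h'), Finset.mem_univ _⟩
      rw [hq, Finset.mem_insert, Finset.mem_singleton] at hmem
      rcases hmem with h' | h'
      · exact Or.inl ((hmk _ _).mp h')
      · exact Or.inr ((hmk _ _).mp h')
  have hω₁ : ω₁ ≠ a₀ := fun h => h1 (h ▸ mem_orbit_self _)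
  have hω₂ : ω₂ ≠ a₀ := fun h => h2 (h ▸ mem_orbit_self _)
  -- the two suborbits as finsets
  obtain ⟨O₁, hO₁⟩ : ∃ O₁ : Finset Ω, O₁ = Finset.univ.filter
      (fun ω => ω ∈ orbit (stabilizer G a₀) ω₁) := ⟨_, rfl⟩
  obtain ⟨O₂, hO₂⟩ : ∃ O₂ : Finset Ω, O₂ = Finset.univ.filter
      (fun ω => ω ∈ orbit (stabilizer G a₀) ω₂) := ⟨_, rfl⟩
  have hmem₁ : ∀ ω, ω ∈ O₁ ↔ ω ∈ orbit (stabilizer G a₀) ω₁ := by
    intro ω; rw [hO₁, Finset.mem_filter]; simp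
  have hmem₂ : ∀ ω, ω ∈ O₂ ↔ ω ∈ orbit (stabilizer G a₀) ω₂ := by
    intro ω; rw [hO₂, Finset.mem_filter]; simp
  have hn₁eq : ∀ ω ∈ O₁, nval G a₀ ω = O₁.card := by
    intro ω hω
    unfold nval
    rw [orbit_eq_iff.mpr ((hmem₁ ω).mp hω), hO₁]
    exact card_subtype_eq_filter (fun ω => ω ∈ orbit (stabilizer G a₀) ω₁)
  have hn₂eq : ∀ ω ∈ O₂, nval G a₀ ω = O₂.card := by
    intro ω hω
    unfold nval
    rw [orbit_eq_iff.mpr ((hmem₂ ω).mp hω), hO₂]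
    exact card_subtype_eq_filter (fun ω => ω ∈ orbit (stabilizer G a₀) ω₂)
  have hk₁eq : ∀ ω ∈ O₁, kval G x a₀ ω = (O₁.filter (x.SameCycle a₀)).card := by
    intro ω hω
    unfold kval
    rw [orbit_eq_iff.mpr ((hmem₁ ω).mp hω), hO₁, Finset.filter_filter]
    exact card_subtype_eq_filter _
  have hk₂eq : ∀ ω ∈ O₂, kval G x a₀ ω = (O₂.filter (x.SameCycle a₀)).card := by
    intro ω hω
    unfold kval
    rw [orbit_eq_iff.mpr ((hmem₂ ω).mp hω), hO₂, Finset.filter_filter]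
    exact card_subtype_eq_filter _
  have ha₁ : a₀ ∉ O₁ := by
    intro h
    have := orbit_eq_iff.mpr ((hmem₁ a₀).mp h)
    exact h1 (this ▸ mem_orbit_self ω₁)
  have ha₂ : a₀ ∉ O₂ := by
    intro h
    have := orbit_eq_iff.mpr ((hmem₂ a₀).mp h)
    exact h2 (this ▸ mem_orbit_self ω₂)
  have hdisj : Disjoint O₁ O₂ := by
    rw [Finset.disjoint_left]
    intro ω hω₁' hω₂'
    have e1 := orbit_eq_iff.mpr ((hmem₁ ω).mp hω₁')
    have e2 := orbit_eq_iff.mpr ((hmem₂ ω).mp hω₂')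
    apply h12
    rw [← e2, e1]
    exact mem_orbit_self ω₁
  have hunion : Finset.univ.erase a₀ = O₁ ∪ O₂ := by
    ext ω
    rw [Finset.mem_erase, Finset.mem_union, hmem₁, hmem₂]
    constructor
    · rintro ⟨hne, -⟩
      exact (hall ω).resolve_left (fun h => hne (horb0 ω h))
    · rintro (h | h)
      · exact ⟨fun h' => ha₁ ((hmem₁ a₀).mpr (h' ▸ h)), Finset.mem_univ _⟩
      · exact ⟨fun h' => ha₂ ((hmem₂ a₀).mpr (h' ▸ h)), Finset.mem_univ _⟩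
  have hωO₁ : ω₁ ∈ O₁ := (hmem₁ ω₁).mpr (mem_orbit_self _)
  have hωO₂ : ω₂ ∈ O₂ := (hmem₂ ω₂).mpr (mem_orbit_self _)
  -- the sum
  rw [hunion, Finset.sum_union hdisj] at hone
  have hs₁ : ∑ ω ∈ O₁, ((2 * (kval G x a₀ ω : ℚ) - nval G a₀ ω) / nval G a₀ ω) ^ 2
      = (O₁.card : ℚ) * ((2 * ((O₁.filter (x.SameCycle a₀)).card : ℚ) - O₁.card) / O₁.card) ^ 2 := by
    rw [Finset.sum_congr rfl (fun ω hω => by rw [hn₁eq ω hω, hk₁eq ω hω]), Finset.sum_const,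
      nsmul_eq_mul]
  have hs₂ : ∑ ω ∈ O₂, ((2 * (kval G x a₀ ω : ℚ) - nval G a₀ ω) / nval G a₀ ω) ^ 2
      = (O₂.card : ℚ) * ((2 * ((O₂.filter (x.SameCycle a₀)).card : ℚ) - O₂.card) / O₂.card) ^ 2 := by
    rw [Finset.sum_congr rfl (fun ω hω => by rw [hn₂eq ω hω, hk₂eq ω hω]), Finset.sum_const,
      nsmul_eq_mul]
  rw [hs₁, hs₂] at hone
  -- counting
  have hnn : O₁.card + O₂.card = 2 * p - 1 := by
    rw [← Finset.card_union_of_disjoint hdisj, ← hunion,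
      Finset.card_erase_of_mem (Finset.mem_univ _), Finset.card_univ, hyp.hcard]
  have hC : (Finset.univ.filter (x.SameCycle a₀)).card = p := by
    have hsupp : Finset.univ.filter (x.SameCycle a₀) = (x.cycleOf a₀).support := by
      ext ω
      rw [Finset.mem_filter, Perm.mem_support_cycleOf_iff' (hyp.hxfix a₀)]
      simp
    rw [hsupp, ← (Perm.isCycle_cycleOf x (hyp.hxfix a₀)).orderOf]
    have hdvd := Perm.orderOf_cycleOf_dvd_orderOf x a₀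
    rw [hyp.hxord] at hdvd
    rcases hyp.hp.eq_one_or_self_of_dvd _ hdvd with h | h
    · exfalso
      rw [orderOf_eq_one_iff, Perm.cycleOf_eq_one_iff] at h
      exact hyp.hxfix a₀ h
    · exact h
  have hk : (O₁.filter (x.SameCycle a₀)).card + (O₂.filter (x.SameCycle a₀)).card = p - 1 := by
    rw [← Finset.card_union_of_disjoint (Finset.disjoint_filter_filter hdisj),
      ← Finset.filter_union, ← hunion, Finset.filter_erase,
      Finset.card_erase_of_mem (Finset.mem_filter.mpr ⟨Finset.mem_univ _, Perm.SameCycle.refl x a₀⟩),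
      hC]
  have hd₁ : (p - 1) ∣ 2 * (O₁.filter (x.SameCycle a₀)).card := by
    rw [← hk₁eq ω₁ hωO₁]; exact hdiv ω₁ hω₁
  have hN₁ : 2 ≤ O₁.card := by
    rw [← hn₁eq ω₁ hωO₁]; exact hn ω₁ hω₁
  have hN₂ : 2 ≤ O₂.card := by
    rw [← hn₂eq ω₂ hωO₂]; exact hn ω₂ hω₂
  obtain ⟨a, ha0, hpa, hcases⟩ := r1_arith p hyp.hp.two_le _ _ _ _ hk hnn hd₁ hN₁ hN₂ hone
  refine ⟨a, ha0, hpa, fun b hb => ?_⟩
  change nval G a₀ b = a * (2 * a + 1) ∨ nval G a₀ b = (a + 1) * (2 * a + 1)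
  have hbO : b ∈ O₁ ∪ O₂ := by
    rw [← hunion]; exact Finset.mem_erase.mpr ⟨hb, Finset.mem_univ _⟩
  rcases Finset.mem_union.mp hbO with hb1 | hb2
  · rw [hn₁eq b hb1]
    rcases hcases with ⟨e1, -⟩ | ⟨e1, -⟩
    · exact Or.inl e1
    · exact Or.inr e1
  · rw [hn₂eq b hb2]
    rcases hcases with ⟨-, e2⟩ | ⟨-, e2⟩
    · exact Or.inr e2
    · exact Or.inl e2

end Cfsg.Agent.H24.W2P
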